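import Mathlib
import Cfsg.Prelude.Def_GeometricClasses
import Cfsg.Agent.Helper71.T4Defs
import Cfsg.Agent.Helper71.T4Main
import Cfsg.Agent.Helper97.OForm
import Cfsg.Agent.Helper96.T5Defs

/-!
# PIECE SURJ of CALL S5704 (helper84)
-/

set_option autoImplicit false
set_option linter.unusedVariables false

namespace Cfsg.Agent.Helper84.T5SURJ

open Matrix Cfsg Cfsg.Geo Cfsg.Agent.Helper71.T4 Cfsg.Agent.Helper96.T5
open scoped Kronecker

variable {F : Type*} [Field F] {a b : ℕ}

/-- `u ↦ u ⊗ e` is injective for `e ≠ 0` -/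
theorem pt_left_inj (e : Fin b → F) (he : e ≠ 0) (u u' : Fin a → F) (h : pt u e = pt u' e) :
    u = u' := by
  obtain ⟨k, hk⟩ : ∃ k, e k ≠ 0 := by
    by_contra hcon
    rw [not_exists] at hcon
    exact he (funext fun k => not_not.mp (hcon k))
  funext i
  have h1 := congrFun h (i, k)
  simp only [pt] at h1
  exact mul_right_cancel₀ hk h1

/-- PIECE SURJ -/
theorem surj (x : GL (Fin a × Fin b) F) (d e : Fin b → F) (hd : d ≠ 0) (he : e ≠ 0)
    (h : ∀ u : Fin a → F, ∃ u' : Fin a → F, x.1 *ᵥ pt u d = pt u' e) :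
    ∀ u' : Fin a → F, ∃ u : Fin a → F, x.1 *ᵥ pt u d = pt u' e := by
  classical
  choose φ hφ using h
  have hadd : ∀ u v, φ (u + v) = φ u + φ v := by
    intro u v
    apply pt_left_inj e he
    rw [← hφ, pt_add_left, Matrix.mulVec_add, hφ, hφ, pt_add_left]
  have hsmul : ∀ (c : F) u, φ (c • u) = c • φ u := by
    intro c u
    apply pt_left_inj e he
    rw [← hφ, pt_smul_left, Matrix.mulVec_smul, hφ, pt_smul_left]
  let L : (Fin a → F) →ₗ[F] (Fin a → F) :=
    { toFun := φ, map_add' := hadd, map_smul' := hsmul }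
  have hinj : Function.Injective L := by
    intro u v huv
    have huv' : φ u = φ v := huv
    have h1 : x.1 *ᵥ pt u d = x.1 *ᵥ pt v d := by
      rw [hφ, hφ, huv']
    have h2 : pt u d = pt v d := by
      have h3 := congrArg (fun t => (x⁻¹).1 *ᵥ t) h1
      simp only [Matrix.mulVec_mulVec] at h3
      rw [← Units.val_mul, inv_mul_cancel, Units.val_one, Matrix.one_mulVec,
        Matrix.one_mulVec] at h3
      exact h3
    exact pt_left_inj d hd u v h2
  have hsurj : Function.Surjective L := LinearMap.injective_iff_surjective.mp hinj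
  intro u'
  obtain ⟨u, hu⟩ := hsurj u'
  have hu' : φ u = u' := hu
  exact ⟨u, by rw [hφ, hu']⟩

end Cfsg.Agent.Helper84.T5SURJ
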