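import Mathlib
import Cfsg.Agent.Helper96.OHDefs
import Cfsg.Agent.Helper69.ODDefs

set_option autoImplicit false
set_option linter.unusedSectionVars false
set_option linter.unusedVariables false

/-!
# CALL OD (helper69, rows S5989 + S5991), piece DSISO1 (helper84)

Isometric subspaces have the same discriminant class: transport the basis along the isometry.
-/

namespace Cfsg.Agent.Helper84.OD59

open Module Polynomial Cfsg Cfsg.Geo
open Cfsg.Agent.Helper13.TIu Cfsg.Agent.Helper96.OH Cfsg.Agent.Helper69.OD
open scoped MatrixGroups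

variable {ι : Type} [Fintype ι] [DecidableEq ι] {F : Type*} [Field F] (Q : (ι → F) → F)

/-- an isometry preserves the polar form -/
theorem odsiso_polar (W W' : Submodule F (ι → F)) (e : W ≃ₗ[F] W')
    (he : ∀ w : W, Q ((e w : W') : ι → F) = Q (w : ι → F)) (u v : W) :
    QuadraticMap.polar Q ((e u : W') : ι → F) ((e v : W') : ι → F) =
      QuadraticMap.polar Q (u : ι → F) (v : ι → F) := by
  unfold QuadraticMap.polar
  have h1 : ((e u : W') : ι → F) + ((e v : W') : ι → F) = ((e (u + v) : W') : ι → F) := by
    rw [map_add]; rfl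
  have h2 : (u : ι → F) + (v : ι → F) = ((u + v : W) : ι → F) := rfl
  rw [h1, h2, he, he, he]

/-- one direction of DSISO1 -/
theorem odsiso_mp (W W' : Submodule F (ι → F)) (h : AreIsometricFor Q W W') :
    ODs Q W → ODs Q W' := by
  obtain ⟨φ, hφ⟩ := h
  rintro ⟨e, he⟩
  have hd : finrank F W = finrank F W' := LinearEquiv.finrank_eq φ
  refine ⟨(e.map φ).reindex (finCongr hd), ?_⟩
  have hG : (Matrix.of fun i j : Fin (finrank F W') =>
      QuadraticMap.polar Q (((e.map φ).reindex (finCongr hd) i : W') : ι → F)
        (((e.map φ).reindex (finCongr hd) j : W') : ι → F)) =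
      (Matrix.of fun i j : Fin (finrank F W) =>
        QuadraticMap.polar Q (e i : ι → F) (e j : ι → F)).submatrix
          (finCongr hd).symm (finCongr hd).symm := by
    ext i j
    rw [Matrix.of_apply, Matrix.submatrix_apply, Matrix.of_apply, Basis.reindex_apply,
      Basis.reindex_apply, Basis.map_apply, Basis.map_apply]
    exact odsiso_polar Q W W' φ hφ _ _
  rw [hG, Matrix.det_submatrix_equiv_self]
  exact he

/-- DSISO1 -/
theorem ods_of_iso (hQ : IsNondegenerateQuadraticForm Q) (W W' : Submodule F (ι → F))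
    (h : AreIsometricFor Q W W') : ODs Q W ↔ ODs Q W' := by
  refine ⟨odsiso_mp Q W W' h, odsiso_mp Q W' W ?_⟩
  obtain ⟨e, he⟩ := h
  refine ⟨e.symm, fun w => ?_⟩
  have h1 := he (e.symm w)
  rw [LinearEquiv.apply_symm_apply] at h1
  exact h1.symm

end Cfsg.Agent.Helper84.OD59
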