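import Mathlib
import Cfsg.Agent.Helper94.ULag
import Cfsg.Agent.Helper94.USub
import Cfsg.Agent.Helper94.UK
import Cfsg.Agent.Helper97.UNot
import Cfsg.Agent.Helper5.UnitSU

/-!
# Piece PAR of CALL S5984 (helper84): an isometry of order prime to the characteristic fixing
both members of a pair of complementary totally singular subspaces has a fixed space of even
dimension.
-/

set_option autoImplicit false
open Cfsg Cfsg.Geo Matrix
open Cfsg.Agent.Helper94
open scoped MatrixGroups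

namespace Cfsg.Agent.Helper84

universe u

variable {F : Type u} [Field F] {ι : Type} [Fintype ι] [DecidableEq ι]
variable {σ : F ≃+* F} {f : (ι → F) → (ι → F) → F}

/-- a subspace paired into another one has at most its dimension -/
theorem bu_par_le (h : UF σ f) (P P' : Submodule F (ι → F))
    (hne : ∀ a ∈ P, a ≠ 0 → ∃ b ∈ P', f a b ≠ 0) :
    Module.finrank F P ≤ Module.finrank F P' := by
  by_contra hlt
  rw [not_le] at hlt
  let v := Module.finBasis F P'
  obtain ⟨x, hxP, hx0, hx⟩ := h.exists_perp_in P (fun i => ((v i : P') : ι → F)) hlt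
  obtain ⟨b, hb, hfb⟩ := hne x hxP hx0
  apply hfb
  apply h.swap_zero
  -- the functional `f · x` vanishes on `P'`
  have hker : LinearMap.ker ((h.fl x).comp P'.subtype) = ⊤ := by
    rw [eq_top_iff, ← v.span_eq, Submodule.span_le]
    rintro _ ⟨i, rfl⟩
    rw [SetLike.mem_coe, LinearMap.mem_ker, LinearMap.comp_apply, Submodule.subtype_apply,
      UF.fl_apply]
    exact h.swap_zero (hx i)
  have hmem : (⟨b, hb⟩ : P') ∈ LinearMap.ker ((h.fl x).comp P'.subtype) := by
    rw [hker]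
    exact Submodule.mem_top
  rw [LinearMap.mem_ker, LinearMap.comp_apply, Submodule.subtype_apply, UF.fl_apply] at hmem
  exact hmem

/-- averaging over the powers of `y` -/
theorem bu_par_avg (h : UF σ f) {r : ℕ} (hr : (r : F) ≠ 0) (y : GL ι F) (hy : y ∈ isoGL f)
    (hyr : y ^ r = 1) (W' : Submodule F (ι → F))
    (hW' : ∀ b ∈ W', (y : Matrix ι ι F) *ᵥ b ∈ W') (a b : ι → F)
    (ha : (y : Matrix ι ι F) *ᵥ a = a) (hb : b ∈ W') (hab : f a b ≠ 0) :
    ∃ b' ∈ W', (y : Matrix ι ι F) *ᵥ b' = b' ∧ f a b' ≠ 0 := by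
  have hy' := mem_isoGL.mp hy
  have hmem : ∀ i : ℕ, ((y : Matrix ι ι F) ^ i) *ᵥ b ∈ W' := by
    intro i
    induction i with
    | zero => simpa using hb
    | succ i ih =>
      rw [pow_succ', ← Matrix.mulVec_mulVec]
      exact hW' _ ih
  have hval : ∀ i : ℕ, f a (((y : Matrix ι ι F) ^ i) *ᵥ b) = f a b := by
    intro i
    induction i with
    | zero => simp
    | succ i ih =>
      rw [pow_succ', ← Matrix.mulVec_mulVec]
      nth_rewrite 1 [← ha]
      rw [hy', ih]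
  have hyr' : ((y : Matrix ι ι F) ^ r) *ᵥ b = b := by
    have h1 : ((y ^ r : GL ι F) : Matrix ι ι F) = 1 := by rw [hyr]; rfl
    rw [Units.val_pow_eq_pow_val] at h1
    rw [h1, Matrix.one_mulVec]
  refine ⟨∑ i ∈ Finset.range r, ((y : Matrix ι ι F) ^ i) *ᵥ b,
    Submodule.sum_mem _ (fun i _ => hmem i), ?_, ?_⟩
  · rw [Matrix.mulVec_sum]
    have h1 : ∀ i ∈ Finset.range r, (y : Matrix ι ι F) *ᵥ (((y : Matrix ι ι F) ^ i) *ᵥ b)
        = ((y : Matrix ι ι F) ^ (i + 1)) *ᵥ b := by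
      intro i _
      rw [pow_succ', ← Matrix.mulVec_mulVec]
    rw [Finset.sum_congr rfl h1]
    have h2 := Finset.sum_range_succ (fun i => ((y : Matrix ι ι F) ^ i) *ᵥ b) r
    have h3 := Finset.sum_range_succ' (fun i => ((y : Matrix ι ι F) ^ i) *ᵥ b) r
    rw [h2] at h3
    simp only [pow_zero, Matrix.one_mulVec] at h3
    rw [hyr'] at h3
    exact (add_right_cancel h3).symm
  · rw [h.sum_right, Finset.sum_congr rfl (fun i _ => hval i), Finset.sum_const,
      Finset.card_range, nsmul_eq_mul]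
    exact mul_ne_zero hr hab

/-- PAR -/
theorem bu_parity (h : UF σ f) {r : ℕ} (hr : (r : F) ≠ 0) (y : GL ι F) (hy : y ∈ isoGL f)
    (hyr : y ^ r = 1) {W W' : Submodule F (ι → F)} (p : ULagPair f W W')
    (hW : ∀ a ∈ W, (y : Matrix ι ι F) *ᵥ a ∈ W) (hW' : ∀ b ∈ W', (y : Matrix ι ι F) *ᵥ b ∈ W') :
    Even (Module.finrank F (LinearMap.ker (Matrix.mulVecLin ((y : Matrix ι ι F) - 1)))) := by
  set Fix : Submodule F (ι → F) := LinearMap.ker (Matrix.mulVecLin ((y : Matrix ι ι F) - 1))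
    with hFix
  have hmemFix : ∀ v : ι → F, v ∈ Fix ↔ (y : Matrix ι ι F) *ᵥ v = v := by
    intro v
    rw [hFix, LinearMap.mem_ker, Matrix.mulVecLin_apply, Matrix.sub_mulVec, Matrix.one_mulVec,
      sub_eq_zero]
  have hsup : (Fix ⊓ W) ⊔ (Fix ⊓ W') = Fix := by
    apply le_antisymm
    · exact sup_le inf_le_left inf_le_left
    · intro v hv
      obtain ⟨a, ha, b, hb, rfl⟩ := p.dec v
      have hv' := (hmemFix _).mp hv
      rw [Matrix.mulVec_add] at hv'
      have hz : (y : Matrix ι ι F) *ᵥ a - a = b - (y : Matrix ι ι F) *ᵥ b := by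
        rw [sub_eq_sub_iff_add_eq_add, hv', add_comm]
      have hz0 : (y : Matrix ι ι F) *ᵥ a - a = 0 :=
        p.disj _ (W.sub_mem (hW a ha) ha) (by rw [hz]; exact W'.sub_mem hb (hW' b hb))
      have hya : (y : Matrix ι ι F) *ᵥ a = a := sub_eq_zero.mp hz0
      have hyb : (y : Matrix ι ι F) *ᵥ b = b := by
        rw [hz0] at hz
        exact (sub_eq_zero.mp hz.symm).symm
      exact Submodule.add_mem_sup ⟨(hmemFix a).mpr hya, ha⟩ ⟨(hmemFix b).mpr hyb, hb⟩
  have hinf : (Fix ⊓ W) ⊓ (Fix ⊓ W') = ⊥ := by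
    rw [eq_bot_iff]
    intro v hv
    exact (Submodule.mem_bot F).mpr (p.disj v hv.1.2 hv.2.2)
  have hle1 : Module.finrank F ↥(Fix ⊓ W) ≤ Module.finrank F ↥(Fix ⊓ W') := by
    apply bu_par_le h
    intro a ha ha0
    obtain ⟨b, hb, hab⟩ := h.lp_exists_ne p ha.2 ha0
    obtain ⟨b', hb', hyb', hab'⟩ :=
      bu_par_avg h hr y hy hyr W' hW' a b ((hmemFix a).mp ha.1) hb hab
    exact ⟨b', ⟨(hmemFix b').mpr hyb', hb'⟩, hab'⟩
  have hle2 : Module.finrank F ↥(Fix ⊓ W') ≤ Module.finrank F ↥(Fix ⊓ W) := by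
    apply bu_par_le h
    intro a ha ha0
    obtain ⟨b, hb, hab⟩ := h.lp_exists_ne p.symm ha.2 ha0
    obtain ⟨b', hb', hyb', hab'⟩ :=
      bu_par_avg h hr y hy hyr W hW a b ((hmemFix a).mp ha.1) hb hab
    exact ⟨b', ⟨(hmemFix b').mpr hyb', hb'⟩, hab'⟩
  have hdim := Submodule.finrank_sup_add_finrank_inf_eq (Fix ⊓ W) (Fix ⊓ W')
  rw [hsup, hinf, finrank_bot, add_zero] at hdim
  rw [hdim]
  exact ⟨Module.finrank F ↥(Fix ⊓ W), by omega⟩

end Cfsg.Agent.Helper84
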