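import Mathlib
import Cfsg.Agent.Helper94.ULag
import Cfsg.Agent.Helper94.USub
import Cfsg.Agent.Helper94.UK
import Cfsg.Agent.Helper97.UNot
import Cfsg.Agent.Helper5.UnitSU

/-!
# Hyperbolic systems of a pair of complementary totally singular subspaces (helper84, for the
pieces TGU and PSI of CALL S5984)

`a, b : Fin m → ι → F` with `a i ∈ A`, `b i ∈ B`, `f (a i) (b j) = δ_ij`.
-/

set_option autoImplicit false
set_option linter.unusedSectionVars false
set_option linter.unusedVariables false
open Cfsg Cfsg.Geo Matrix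
open Cfsg.Agent.Helper94
open scoped MatrixGroups

namespace Cfsg.Agent.Helper84

universe u

variable {F : Type u} [Field F] {ι : Type} [Fintype ι] [DecidableEq ι]
variable {σ : F ≃+* F} {f : (ι → F) → (ι → F) → F}

theorem buh_sum_left (h : UF σ f) {m : ℕ} (α : Fin m → F) (w : Fin m → ι → F) (x : ι → F) :
    f (∑ i, α i • w i) x = ∑ i, α i * f (w i) x := by
  have h1 : f (∑ i, α i • w i) x = h.fl x (∑ i, α i • w i) := rfl
  rw [h1, map_sum]
  apply Finset.sum_congr rfl
  intro i _
  rw [map_smul, UF.fl_apply, smul_eq_mul]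

theorem buh_sum_right (h : UF σ f) {m : ℕ} (α : Fin m → F) (w : Fin m → ι → F) (x : ι → F) :
    f x (∑ i, α i • w i) = ∑ i, σ (α i) * f x (w i) := by
  rw [h.sum_right]
  apply Finset.sum_congr rfl
  intro i _
  rw [h.smul_right]

theorem buh_ba (h : UF σ f) {m : ℕ} (a b : Fin m → ι → F)
    (hab : ∀ i j, f (a i) (b j) = if i = j then 1 else 0) (i j : Fin m) :
    f (b i) (a j) = if i = j then 1 else 0 := by
  rw [h.herm, hab]
  by_cases hij : i = j
  · rw [if_pos hij, if_pos hij.symm, map_one]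
  · rw [if_neg hij, if_neg (fun e => hij e.symm), map_zero]

/-- the form on two combinations of a hyperbolic system -/
theorem buh_form (h : UF σ f) {A B : Submodule F (ι → F)} (p : ULagPair f A B) {m : ℕ}
    (a b : Fin m → ι → F) (ha : ∀ i, a i ∈ A) (hb : ∀ i, b i ∈ B)
    (hab : ∀ i j, f (a i) (b j) = if i = j then 1 else 0) (α β γ δ : Fin m → F) :
    f (∑ i, α i • a i + ∑ i, β i • b i) (∑ j, γ j • a j + ∑ j, δ j • b j)
      = ∑ i, α i * σ (δ i) + ∑ i, β i * σ (γ i) := by
  have hA1 : ∑ i, α i • a i ∈ A := Submodule.sum_mem _ (fun i _ => A.smul_mem _ (ha i))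
  have hA2 : ∑ j, γ j • a j ∈ A := Submodule.sum_mem _ (fun i _ => A.smul_mem _ (ha i))
  have hB1 : ∑ i, β i • b i ∈ B := Submodule.sum_mem _ (fun i _ => B.smul_mem _ (hb i))
  have hB2 : ∑ j, δ j • b j ∈ B := Submodule.sum_mem _ (fun i _ => B.smul_mem _ (hb i))
  rw [h.add_left, h.add_right, h.add_right, p.isoA _ hA1 _ hA2, p.isoB _ hB1 _ hB2, zero_add,
    add_zero]
  congr 1
  · rw [buh_sum_left h]
    apply Finset.sum_congr rfl
    intro i _
    rw [buh_sum_right h]
    congr 1
    rw [Finset.sum_eq_single i]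
    · rw [hab, if_pos rfl, mul_one]
    · intro j _ hji
      rw [hab, if_neg (fun e => hji e.symm), mul_zero]
    · intro hi
      exact absurd (Finset.mem_univ i) hi
  · rw [buh_sum_left h]
    apply Finset.sum_congr rfl
    intro i _
    rw [buh_sum_right h]
    congr 1
    rw [Finset.sum_eq_single i]
    · rw [buh_ba h a b hab, if_pos rfl, mul_one]
    · intro j _ hji
      rw [buh_ba h a b hab, if_neg (fun e => hji e.symm), mul_zero]
    · intro hi
      exact absurd (Finset.mem_univ i) hi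

/-- coordinates of a combination -/
theorem buh_coord_b (h : UF σ f) {A B : Submodule F (ι → F)} (p : ULagPair f A B) {m : ℕ}
    (a b : Fin m → ι → F) (ha : ∀ i, a i ∈ A) (hb : ∀ i, b i ∈ B)
    (hab : ∀ i j, f (a i) (b j) = if i = j then 1 else 0) (α β : Fin m → F) (k : Fin m) :
    f (∑ i, α i • a i + ∑ i, β i • b i) (b k) = α k := by
  have hB1 : ∑ i, β i • b i ∈ B := Submodule.sum_mem _ (fun i _ => B.smul_mem _ (hb i))
  rw [h.add_left, p.isoB _ hB1 _ (hb k), add_zero, buh_sum_left h, Finset.sum_eq_single k]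
  · rw [hab, if_pos rfl, mul_one]
  · intro j _ hjk
    rw [hab, if_neg hjk, mul_zero]
  · intro hk
    exact absurd (Finset.mem_univ k) hk

theorem buh_coord_a (h : UF σ f) {A B : Submodule F (ι → F)} (p : ULagPair f A B) {m : ℕ}
    (a b : Fin m → ι → F) (ha : ∀ i, a i ∈ A) (hb : ∀ i, b i ∈ B)
    (hab : ∀ i j, f (a i) (b j) = if i = j then 1 else 0) (α β : Fin m → F) (k : Fin m) :
    f (∑ i, α i • a i + ∑ i, β i • b i) (a k) = β k := by
  have hA1 : ∑ i, α i • a i ∈ A := Submodule.sum_mem _ (fun i _ => A.smul_mem _ (ha i))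
  rw [h.add_left, p.isoA _ hA1 _ (ha k), zero_add, buh_sum_left h, Finset.sum_eq_single k]
  · rw [buh_ba h a b hab, if_pos rfl, mul_one]
  · intro j _ hjk
    rw [buh_ba h a b hab, if_neg hjk, mul_zero]
  · intro hk
    exact absurd (Finset.mem_univ k) hk

/-- the expansion of a vector in a hyperbolic basis -/
theorem buh_expand (h : UF σ f) {A B : Submodule F (ι → F)} (p : ULagPair f A B) {m : ℕ}
    (a b : Fin m → ι → F)
    (hA : ∀ v ∈ A, v = ∑ i, f v (b i) • a i) (hB : ∀ v ∈ B, v = ∑ i, f v (a i) • b i)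
    (hb : ∀ i, b i ∈ B) (ha : ∀ i, a i ∈ A) (v : ι → F) :
    v = ∑ i, f v (b i) • a i + ∑ i, f v (a i) • b i := by
  obtain ⟨x, hx, y, hy, rfl⟩ := p.dec v
  have e1 : ∀ i, f (x + y) (b i) = f x (b i) := by
    intro i
    rw [h.add_left, p.isoB y hy _ (hb i), add_zero]
  have e2 : ∀ i, f (x + y) (a i) = f y (a i) := by
    intro i
    rw [h.add_left, p.isoA x hx _ (ha i), zero_add]
  simp only [e1, e2]
  rw [← hA x hx, ← hB y hy]

/-- the linear map with matrix `M ⊕ N` from the coordinates of `(a, b)` to the system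
`(a', b')` -/
noncomputable def buLL (h : UF σ f) {m : ℕ} (a b a' b' : Fin m → ι → F)
    (M N : Matrix (Fin m) (Fin m) F) : (ι → F) →ₗ[F] (ι → F) where
  toFun v := ∑ i, (M *ᵥ (fun k => f v (b k))) i • a' i + ∑ i, (N *ᵥ (fun k => f v (a k))) i • b' i
  map_add' := by
    intro v w
    have e1 : (fun k => f (v + w) (b k)) = (fun k => f v (b k)) + (fun k => f w (b k)) := by
      funext k
      exact h.add_left v w (b k)
    have e2 : (fun k => f (v + w) (a k)) = (fun k => f v (a k)) + (fun k => f w (a k)) := by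
      funext k
      exact h.add_left v w (a k)
    simp only [e1, e2, Matrix.mulVec_add, Pi.add_apply, add_smul, Finset.sum_add_distrib]
    abel
  map_smul' := by
    intro c v
    have e1 : (fun k => f (c • v) (b k)) = c • (fun k => f v (b k)) := by
      funext k
      simp [h.smul_left]
    have e2 : (fun k => f (c • v) (a k)) = c • (fun k => f v (a k)) := by
      funext k
      simp [h.smul_left]
    simp only [e1, e2, Matrix.mulVec_smul, Pi.smul_apply, smul_eq_mul, RingHom.id_apply,
      Finset.smul_sum, smul_add, smul_smul]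

theorem buLL_apply (h : UF σ f) {m : ℕ} (a b a' b' : Fin m → ι → F)
    (M N : Matrix (Fin m) (Fin m) F) (v : ι → F) :
    buLL h a b a' b' M N v = ∑ i, (M *ᵥ (fun k => f v (b k))) i • a' i
      + ∑ i, (N *ᵥ (fun k => f v (a k))) i • b' i := rfl

end Cfsg.Agent.Helper84
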