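import Mathlib
import Cfsg.Agent.Helper94.ULag
import Cfsg.Agent.Helper94.USub
import Cfsg.Agent.Helper94.UK
import Cfsg.Agent.Helper97.UNot
import Cfsg.Agent.Helper5.UnitSU
import Cfsg.Agent.Helper84.BUHyp

/-!
# Piece PSI of CALL S5984 (helper84): `GL_m` embeds in the stabiliser of a pair of complementary
totally singular subspaces with a hyperbolic basis, acting by `X ⊕ (X⁻¹)^{σ T}`.
-/

set_option autoImplicit false
open Cfsg Cfsg.Geo Matrix
open Cfsg.Agent.Helper94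
open scoped MatrixGroups

namespace Cfsg.Agent.Helper84

universe u

variable {F : Type u} [Field F] {ι : Type} [Fintype ι] [DecidableEq ι]
variable {σ : F ≃+* F} {f : (ι → F) → (ι → F) → F}

/-- coordinates of `buLL` along `b` -/
theorem bupsi_coord_b (h : UF σ f) {A B : Submodule F (ι → F)} (p : ULagPair f A B) {m : ℕ}
    (a b : Fin m → ι → F) (ha : ∀ i, a i ∈ A) (hb : ∀ i, b i ∈ B)
    (hab : ∀ i j, f (a i) (b j) = if i = j then 1 else 0) (M N : Matrix (Fin m) (Fin m) F)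
    (v : ι → F) :
    (fun k => f (buLL h a b a b M N v) (b k)) = M *ᵥ (fun k => f v (b k)) := by
  funext k
  rw [buLL_apply, buh_coord_b h p a b ha hb hab]

/-- coordinates of `buLL` along `a` -/
theorem bupsi_coord_a (h : UF σ f) {A B : Submodule F (ι → F)} (p : ULagPair f A B) {m : ℕ}
    (a b : Fin m → ι → F) (ha : ∀ i, a i ∈ A) (hb : ∀ i, b i ∈ B)
    (hab : ∀ i j, f (a i) (b j) = if i = j then 1 else 0) (M N : Matrix (Fin m) (Fin m) F)
    (v : ι → F) :
    (fun k => f (buLL h a b a b M N v) (a k)) = N *ᵥ (fun k => f v (a k)) := by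
  funext k
  rw [buLL_apply, buh_coord_a h p a b ha hb hab]

theorem bupsi_comp (h : UF σ f) {A B : Submodule F (ι → F)} (p : ULagPair f A B) {m : ℕ}
    (a b : Fin m → ι → F) (ha : ∀ i, a i ∈ A) (hb : ∀ i, b i ∈ B)
    (hab : ∀ i j, f (a i) (b j) = if i = j then 1 else 0)
    (M N M' N' : Matrix (Fin m) (Fin m) F) :
    (buLL h a b a b M N) ∘ₗ (buLL h a b a b M' N') = buLL h a b a b (M * M') (N * N') := by
  apply LinearMap.ext
  intro v
  rw [LinearMap.comp_apply, buLL_apply h a b a b M N, bupsi_coord_b h p a b ha hb hab,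
    bupsi_coord_a h p a b ha hb hab, buLL_apply, Matrix.mulVec_mulVec, Matrix.mulVec_mulVec]

theorem bupsi_one (h : UF σ f) {A B : Submodule F (ι → F)} (p : ULagPair f A B) {m : ℕ}
    (a b : Fin m → ι → F) (ha : ∀ i, a i ∈ A) (hb : ∀ i, b i ∈ B)
    (hA : ∀ v ∈ A, v = ∑ i, f v (b i) • a i) (hB : ∀ v ∈ B, v = ∑ i, f v (a i) • b i) :
    buLL h a b a b 1 1 = LinearMap.id := by
  apply LinearMap.ext
  intro v
  rw [buLL_apply, LinearMap.id_apply]
  simp only [Matrix.one_mulVec]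
  exact (buh_expand h p a b hA hB hb ha v).symm

/-- the `σ`-contragredient of an invertible matrix -/
def buTw (σ : F ≃+* F) {m : ℕ} (X : GL (Fin m) F) : Matrix (Fin m) (Fin m) F :=
  (((X⁻¹ : GL (Fin m) F) : Matrix (Fin m) (Fin m) F).map σ)ᵀ

theorem buTw_one (σ : F ≃+* F) {m : ℕ} : buTw σ (1 : GL (Fin m) F) = 1 := by
  unfold buTw
  rw [inv_one, Units.val_one, Matrix.map_one _ (map_zero σ) (map_one σ), Matrix.transpose_one]

theorem buTw_mul (σ : F ≃+* F) {m : ℕ} (X Y : GL (Fin m) F) :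
    buTw σ (X * Y) = buTw σ X * buTw σ Y := by
  unfold buTw
  rw [_root_.mul_inv_rev, Units.val_mul, Matrix.map_mul, Matrix.transpose_mul]

theorem buTw_key (hinv : ∀ a : F, σ (σ a) = a) {m : ℕ} (X : GL (Fin m) F) :
    ((buTw σ X).map σ)ᵀ * (X : Matrix (Fin m) (Fin m) F) = 1 := by
  have e : ((buTw σ X).map σ)ᵀ = ((X⁻¹ : GL (Fin m) F) : Matrix (Fin m) (Fin m) F) := by
    ext i j
    simp [buTw, hinv]
  rw [e, ← Units.val_mul, inv_mul_cancel, Units.val_one]

theorem bupsi_dot {m : ℕ} (M N : Matrix (Fin m) (Fin m) F) (hMN : (N.map σ)ᵀ * M = 1)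
    (α δ : Fin m → F) :
    ∑ i, (M *ᵥ α) i * σ ((N *ᵥ δ) i) = ∑ i, α i * σ (δ i) := by
  have e1 : (fun i => σ ((N *ᵥ δ) i)) = (N.map σ) *ᵥ (fun i => σ (δ i)) := by
    funext i
    simp [Matrix.mulVec, dotProduct, map_sum, map_mul]
  have e2 : ∑ i, (M *ᵥ α) i * σ ((N *ᵥ δ) i) = (M *ᵥ α) ⬝ᵥ (fun i => σ ((N *ᵥ δ) i)) := rfl
  have e3 : ∑ i, α i * σ (δ i) = α ⬝ᵥ (fun i => σ (δ i)) := rfl
  rw [e2, e3, e1, Matrix.dotProduct_mulVec, ← Matrix.mulVec_transpose, Matrix.mulVec_mulVec, hMN,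
    Matrix.one_mulVec]

theorem bupsi_iso (h : UF σ f) {A B : Submodule F (ι → F)} (p : ULagPair f A B) {m : ℕ}
    (a b : Fin m → ι → F) (ha : ∀ i, a i ∈ A) (hb : ∀ i, b i ∈ B)
    (hab : ∀ i j, f (a i) (b j) = if i = j then 1 else 0)
    (hA : ∀ v ∈ A, v = ∑ i, f v (b i) • a i) (hB : ∀ v ∈ B, v = ∑ i, f v (a i) • b i)
    (M N : Matrix (Fin m) (Fin m) F) (hMN : (N.map σ)ᵀ * M = 1) (v w : ι → F) :
    f (buLL h a b a b M N v) (buLL h a b a b M N w) = f v w := by
  rw [buLL_apply, buLL_apply, buh_form h p a b ha hb hab]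
  conv_rhs => rw [buh_expand h p a b hA hB hb ha v, buh_expand h p a b hA hB hb ha w]
  rw [buh_form h p a b ha hb hab, bupsi_dot M N hMN]
  congr 1
  have e := congrArg σ (bupsi_dot M N hMN (fun k => f w (b k)) (fun k => f v (a k)))
  rw [map_sum, map_sum] at e
  simp only [map_mul, h.invol] at e
  rw [Finset.sum_congr rfl (fun i _ => mul_comm _ _), e]
  exact Finset.sum_congr rfl (fun i _ => mul_comm _ _)

/-- PSI -/
theorem bu_psi (h : UF σ f) {A B : Submodule F (ι → F)} (p : ULagPair f A B) {m : ℕ}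
    (a b : Fin m → ι → F) (ha : ∀ i, a i ∈ A) (hb : ∀ i, b i ∈ B)
    (hab : ∀ i j, f (a i) (b j) = if i = j then 1 else 0)
    (hA : ∀ v ∈ A, v = ∑ i, f v (b i) • a i) (hB : ∀ v ∈ B, v = ∑ i, f v (a i) • b i) :
    ∃ ψ : GL (Fin m) F →* GL ι F, Function.Injective ψ ∧ ∀ X, ψ X ∈ isoGL f ∧
      (∀ v ∈ A, (ψ X : Matrix ι ι F) *ᵥ v ∈ A) ∧ (∀ v ∈ B, (ψ X : Matrix ι ι F) *ᵥ v ∈ B) := by
  classical
  let φ : GL (Fin m) F →* Module.End F (ι → F) :=
    { toFun := fun X => buLL h a b a b (X : Matrix (Fin m) (Fin m) F) (buTw σ X)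
      map_one' := by
        show buLL h a b a b ((1 : GL (Fin m) F) : Matrix (Fin m) (Fin m) F) (buTw σ 1) = 1
        rw [Units.val_one, buTw_one, bupsi_one h p a b ha hb hA hB]
        rfl
      map_mul' := by
        intro X Y
        show buLL h a b a b ((X * Y : GL (Fin m) F) : Matrix (Fin m) (Fin m) F) (buTw σ (X * Y))
          = buLL h a b a b (X : Matrix (Fin m) (Fin m) F) (buTw σ X)
            * buLL h a b a b (Y : Matrix (Fin m) (Fin m) F) (buTw σ Y)
        rw [Module.End.mul_eq_comp, bupsi_comp h p a b ha hb hab, Units.val_mul, buTw_mul] }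
  let ψ : GL (Fin m) F →* GL ι F :=
    (((LinearMap.toMatrixAlgEquiv' : Module.End F (ι → F) ≃ₐ[F] Matrix ι ι F) :
      Module.End F (ι → F) →* Matrix ι ι F).comp φ).toHomUnits
  have hψ : ∀ X v, (ψ X : Matrix ι ι F) *ᵥ v
      = buLL h a b a b (X : Matrix (Fin m) (Fin m) F) (buTw σ X) v := by
    intro X v
    have e : (ψ X : Matrix ι ι F)
        = LinearMap.toMatrix' (buLL h a b a b (X : Matrix (Fin m) (Fin m) F) (buTw σ X)) := rfl
    rw [e, ← Matrix.toLin'_apply, Matrix.toLin'_toMatrix']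
  refine ⟨ψ, ?_, ?_⟩
  · intro X Y hXY
    apply Units.ext
    ext i j
    have e1 := hψ X (a j)
    rw [hXY, hψ Y (a j)] at e1
    have e2 := congrFun (bupsi_coord_b h p a b ha hb hab (X : Matrix (Fin m) (Fin m) F)
      (buTw σ X) (a j)) i
    have e3 := congrFun (bupsi_coord_b h p a b ha hb hab (Y : Matrix (Fin m) (Fin m) F)
      (buTw σ Y) (a j)) i
    have e4 : (fun k => f (a j) (b k)) = Pi.single j 1 := by
      funext k
      rw [hab, Pi.single_apply]
      by_cases hjk : j = k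
      · rw [if_pos hjk, if_pos hjk.symm]
      · rw [if_neg hjk, if_neg (fun e => hjk e.symm)]
    rw [e4, Matrix.mulVec_single_one] at e2 e3
    rw [e1] at e3
    have e5 := e2.symm.trans e3
    exact e5
  · intro X
    refine ⟨mem_isoGL.mpr (fun x y => ?_), ?_, ?_⟩
    · rw [hψ, hψ, bupsi_iso h p a b ha hb hab hA hB _ _ (buTw_key h.invol X)]
    · intro v hv
      rw [hψ, buLL_apply]
      have h0 : (fun k => f v (a k)) = 0 := funext fun k => p.isoA v hv _ (ha k)
      rw [h0, Matrix.mulVec_zero]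
      simp only [Pi.zero_apply, zero_smul, Finset.sum_const_zero, add_zero]
      exact Submodule.sum_mem _ (fun i _ => A.smul_mem _ (ha i))
    · intro v hv
      rw [hψ, buLL_apply]
      have h0 : (fun k => f v (b k)) = 0 := funext fun k => p.isoB v hv _ (hb k)
      rw [h0, Matrix.mulVec_zero]
      simp only [Pi.zero_apply, zero_smul, Finset.sum_const_zero, zero_add]
      exact Submodule.sum_mem _ (fun i _ => B.smul_mem _ (hb i))

end Cfsg.Agent.Helper84
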