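import Mathlib
import Cfsg.Prelude.Def_GeometricClasses
import Cfsg.Prelude.Def_Classical
import Cfsg.Agent.Helper96.OHDefs

set_option autoImplicit false
set_option linter.unusedSectionVars false
set_option linter.unusedVariables false

/-!
# CALL NP (helper13, row S5989), piece ISOND (helper84)

An isometry `W ≃ W'` transports the polar form, hence nondegeneracy.
-/

namespace Cfsg.Agent.Helper84.NP5989

open Module Cfsg Cfsg.Geo Cfsg.Agent.Helper96.OH
open scoped MatrixGroups

variable {ι : Type} [Fintype ι] [DecidableEq ι] {F : Type*} [Field F] [Fintype F]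
  (Q : (ι → F) → F)

omit [Fintype ι] [DecidableEq ι] [Fintype F] in
/-- an isometry preserves the polar form -/
theorem npisond_polar (W W' : Submodule F (ι → F)) (e : W ≃ₗ[F] W')
    (he : ∀ w : W, Q ((e w : W') : ι → F) = Q (w : ι → F)) (u v : W) :
    QuadraticMap.polar Q ((e u : W') : ι → F) ((e v : W') : ι → F) =
      QuadraticMap.polar Q (u : ι → F) (v : ι → F) := by
  unfold QuadraticMap.polar
  have h1 : ((e u : W') : ι → F) + ((e v : W') : ι → F) = ((e (u + v) : W') : ι → F) := by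
    rw [map_add]; rfl
  have h2 : (u : ι → F) + (v : ι → F) = ((u + v : W) : ι → F) := rfl
  rw [h1, h2, he, he, he]

omit [Fintype ι] [DecidableEq ι] [Fintype F] in
/-- the inverse isometry -/
theorem npisond_symm (W W' : Submodule F (ι → F)) (hiso : AreIsometricFor Q W W') :
    AreIsometricFor Q W' W := by
  obtain ⟨e, he⟩ := hiso
  refine ⟨e.symm, fun w => ?_⟩
  have h := he (e.symm w)
  rw [LinearEquiv.apply_symm_apply] at h
  exact h.symm

/-- ISOND -/
theorem np_iso_nd (W W' : Submodule F (ι → F)) (hiso : AreIsometricFor Q W W') (hW' : ONd Q W') :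
    ONd Q W ∧ finrank F W = finrank F W' := by
  obtain ⟨e, he⟩ := hiso
  refine ⟨?_, LinearEquiv.finrank_eq e⟩
  intro w hw hw0
  have hew0 : ((e ⟨w, hw⟩ : W') : ι → F) ≠ 0 := by
    intro h
    have h1 : e ⟨w, hw⟩ = 0 := Subtype.ext h
    have h2 : (⟨w, hw⟩ : W) = 0 := by
      have := e.injective (h1.trans (map_zero e).symm)
      exact this
    exact hw0 (congrArg Subtype.val h2)
  obtain ⟨⟨x, hx, hx1⟩, ⟨y, hy, hy1⟩⟩ := hW' _ (e ⟨w, hw⟩).2 hew0
  refine ⟨⟨(e.symm ⟨x, hx⟩ : W), (e.symm ⟨x, hx⟩).2, ?_⟩,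
    ⟨(e.symm ⟨y, hy⟩ : W), (e.symm ⟨y, hy⟩).2, ?_⟩⟩
  · have h := npisond_polar Q W W' e he (e.symm ⟨x, hx⟩) ⟨w, hw⟩
    rw [LinearEquiv.apply_symm_apply] at h
    intro h0
    apply hx1
    rw [← h0]
    exact h
  · have h := npisond_polar Q W W' e he ⟨w, hw⟩ (e.symm ⟨y, hy⟩)
    rw [LinearEquiv.apply_symm_apply] at h
    intro h0
    apply hy1
    rw [← h0]
    exact h

end Cfsg.Agent.Helper84.NP5989
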