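-- helper84 library: PIECE T2 of helper40's CALL S2425 (Steinberg character of GL_n at p'-elements):
-- coprime splitting of the lattice of invariant subspaces.
import Mathlib
import Cfsg.Agent.Helper40.StGLBase

set_option autoImplicit false
set_option linter.style.haveILetI false

open Polynomial Cfsg.Agent.Helper40.StGL

universe u v

namespace Cfsg.Agent.Helper84

/-- Euler characteristic of a bounded order isomorphic to a product. -/
theorem stgl_eulerChar_of_orderIso_prod {α β γ : Type*} [PartialOrder α] [PartialOrder β]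
    [PartialOrder γ] [LocallyFiniteOrder α] [LocallyFiniteOrder β] [LocallyFiniteOrder γ]
    [DecidableEq α] [DecidableEq β] [DecidableEq γ] [DecidableLE α] [DecidableLE β]
    [BoundedOrder α] [BoundedOrder β] [BoundedOrder γ] (e : γ ≃o α × β) :
    IncidenceAlgebra.eulerChar ℤ γ =
      IncidenceAlgebra.eulerChar ℤ α * IncidenceAlgebra.eulerChar ℤ β := by
  rw [eulerChar_orderIso e, IncidenceAlgebra.eulerChar_prod]

section

variable {F : Type u} {V : Type v} [Field F] [AddCommGroup V] [Module F V]

/-- Polynomials in `φ` commute with `φ`. -/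
theorem stgl_aeval_comm (φ : Module.End F V) (p : F[X]) (x : V) :
    (aeval φ p) (φ x) = φ ((aeval φ p) x) := by
  have h : aeval φ p * φ = φ * aeval φ p := by
    have h1 : aeval φ (p * X) = aeval φ p * φ := by rw [aeval_mul, aeval_X]
    have h2 : aeval φ (X * p) = φ * aeval φ p := by rw [aeval_mul, aeval_X]
    rw [← h1, ← h2, mul_comm]
  exact LinearMap.congr_fun h x

/-- Invariant subspaces are invariant under polynomials in `φ`. -/
theorem stgl_aeval_mem (φ : Module.End F V) (W : Submodule F V) (hW : ∀ x ∈ W, φ x ∈ W)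
    (p : F[X]) : ∀ w ∈ W, (aeval φ p) w ∈ W := by
  induction p using Polynomial.induction_on with
  | C a =>
    intro w hw
    rw [aeval_C, Module.algebraMap_end_apply]
    exact W.smul_mem a hw
  | add p q hp hq =>
    intro w hw
    rw [map_add, LinearMap.add_apply]
    exact W.add_mem (hp w hw) (hq w hw)
  | monomial n a ih =>
    intro w hw
    rw [pow_succ, ← mul_assoc, aeval_mul, aeval_X, Module.End.mul_apply]
    exact ih (φ w) (hW w hw)

/-- `aeval` of a restriction. -/
theorem stgl_aeval_restrict (φ : Module.End F V) (K : Submodule F V) (h : ∀ x ∈ K, φ x ∈ K)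
    (p : F[X]) : ∀ x : K, ((aeval (φ.restrict h) p) x : V) = (aeval φ p) x := by
  induction p using Polynomial.induction_on with
  | C a =>
    intro x
    rw [aeval_C, aeval_C, Module.algebraMap_end_apply, Module.algebraMap_end_apply,
      Submodule.coe_smul]
  | add p q hp hq =>
    intro x
    rw [map_add, map_add, LinearMap.add_apply, LinearMap.add_apply, Submodule.coe_add, hp x, hq x]
  | monomial n a ih =>
    intro x
    have e1 : C a * X ^ (n + 1) = (C a * X ^ n) * X := by rw [pow_succ, mul_assoc]
    have e2 : aeval φ ((C a * X ^ n) * X) = aeval φ (C a * X ^ n) * φ := by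
      have := map_mul (aeval φ) (C a * X ^ n) X
      rwa [aeval_X] at this
    have e3 : aeval (φ.restrict h) ((C a * X ^ n) * X) =
        aeval (φ.restrict h) (C a * X ^ n) * φ.restrict h := by
      have := map_mul (aeval (φ.restrict h)) (C a * X ^ n) X
      rwa [aeval_X] at this
    rw [e1, e2, e3, Module.End.mul_apply, Module.End.mul_apply, ih]
    rfl

end

theorem invEC_coprime_split {F : Type u} {V : Type v} [Field F] [AddCommGroup V] [Module F V]
    [Finite V] (φ : Module.End F V) (f g : F[X]) (hfg : IsCoprime f g)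
    (hφ : aeval φ (f * g) = 0) :
    ∃ (φ₁ : Module.End F ↥(LinearMap.ker (aeval φ f)))
      (φ₂ : Module.End F ↥(LinearMap.ker (aeval φ g))),
      aeval φ₁ f = 0 ∧ aeval φ₂ g = 0 ∧
      invEC φ = invEC φ₁ * invEC φ₂ ∧
      LinearMap.charpoly φ = LinearMap.charpoly φ₁ * LinearMap.charpoly φ₂ ∧
      Module.finrank F V = Module.finrank F ↥(LinearMap.ker (aeval φ f)) +
        Module.finrank F ↥(LinearMap.ker (aeval φ g)) := by
  classical
  have h₁ : ∀ x ∈ LinearMap.ker (aeval φ f), φ x ∈ LinearMap.ker (aeval φ f) := by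
    intro x hx
    rw [LinearMap.mem_ker] at hx ⊢
    rw [stgl_aeval_comm, hx, map_zero]
  have h₂ : ∀ x ∈ LinearMap.ker (aeval φ g), φ x ∈ LinearMap.ker (aeval φ g) := by
    intro x hx
    rw [LinearMap.mem_ker] at hx ⊢
    rw [stgl_aeval_comm, hx, map_zero]
  have hdisj : Disjoint (LinearMap.ker (aeval φ f)) (LinearMap.ker (aeval φ g)) :=
    disjoint_ker_aeval_of_isCoprime φ hfg
  have hcompl : IsCompl (LinearMap.ker (aeval φ f)) (LinearMap.ker (aeval φ g)) := by
    refine ⟨hdisj, codisjoint_iff.mpr ?_⟩
    rw [sup_ker_aeval_eq_ker_aeval_mul_of_coprime φ hfg, hφ, LinearMap.ker_zero]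
  obtain ⟨K₁, hK₁⟩ : ∃ K : Submodule F V, K = LinearMap.ker (aeval φ f) := ⟨_, rfl⟩
  obtain ⟨K₂, hK₂⟩ : ∃ K : Submodule F V, K = LinearMap.ker (aeval φ g) := ⟨_, rfl⟩
  rw [← hK₁, ← hK₂] at hdisj hcompl
  rw [← hK₁] at h₁
  rw [← hK₂] at h₂
  -- the key decomposition of vectors
  obtain ⟨a, b, hab⟩ := hfg
  have hdec : ∀ (W : Submodule F V), (∀ x ∈ W, φ x ∈ W) → W ≤ (K₁ ⊓ W) ⊔ (K₂ ⊓ W) := by
    intro W hW w hw
    have hw' : w = (aeval φ (b * g)) w + (aeval φ (a * f)) w := by
      rw [← LinearMap.add_apply, ← map_add, add_comm, hab, aeval_one, Module.End.one_apply]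
    rw [hw']
    refine Submodule.add_mem_sup ⟨?_, stgl_aeval_mem φ W hW _ w hw⟩
      ⟨?_, stgl_aeval_mem φ W hW _ w hw⟩
    · rw [hK₁]
      show (aeval φ (b * g)) w ∈ LinearMap.ker (aeval φ f)
      rw [LinearMap.mem_ker, ← Module.End.mul_apply, ← aeval_mul,
        show f * (b * g) = b * (f * g) by ring, aeval_mul, hφ, mul_zero, LinearMap.zero_apply]
    · rw [hK₂]
      show (aeval φ (a * f)) w ∈ LinearMap.ker (aeval φ g)
      rw [LinearMap.mem_ker, ← Module.End.mul_apply, ← aeval_mul,
        show g * (a * f) = a * (f * g) by ring, aeval_mul, hφ, mul_zero, LinearMap.zero_apply]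
  subst hK₁ hK₂
  refine ⟨φ.restrict h₁, φ.restrict h₂, ?_, ?_, ?_, ?_, ?_⟩
  · ext x
    rw [stgl_aeval_restrict φ _ h₁ f x, LinearMap.zero_apply, Submodule.coe_zero]
    exact LinearMap.mem_ker.mp x.2
  · ext x
    rw [stgl_aeval_restrict φ _ h₂ g x, LinearMap.zero_apply, Submodule.coe_zero]
    exact LinearMap.mem_ker.mp x.2
  · -- the order isomorphism
    obtain ⟨K₁, hK₁⟩ : ∃ K : Submodule F V, K = LinearMap.ker (aeval φ f) := ⟨_, rfl⟩
    obtain ⟨K₂, hK₂⟩ : ∃ K : Submodule F V, K = LinearMap.ker (aeval φ g) := ⟨_, rfl⟩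
    subst hK₁ hK₂
    let toF : ↥(Module.End.invtSubmodule φ) →
        ↥(Module.End.invtSubmodule (φ.restrict h₁)) × ↥(Module.End.invtSubmodule (φ.restrict h₂)) :=
      fun W => (⟨W.1.comap (LinearMap.ker (aeval φ f)).subtype, fun x hx => W.2 hx⟩,
        ⟨W.1.comap (LinearMap.ker (aeval φ g)).subtype, fun x hx => W.2 hx⟩)
    let invF : ↥(Module.End.invtSubmodule (φ.restrict h₁)) ×
        ↥(Module.End.invtSubmodule (φ.restrict h₂)) → ↥(Module.End.invtSubmodule φ) :=
      fun P => ⟨P.1.1.map (LinearMap.ker (aeval φ f)).subtype ⊔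
          P.2.1.map (LinearMap.ker (aeval φ g)).subtype,
        (Module.End.invtSubmodule φ).sup_mem
          (by
            rintro _ ⟨x, hx, rfl⟩
            exact ⟨(φ.restrict h₁) x, P.1.2 hx, rfl⟩)
          (by
            rintro _ ⟨x, hx, rfl⟩
            exact ⟨(φ.restrict h₂) x, P.2.2 hx, rfl⟩)⟩
    have hleft : ∀ W, invF (toF W) = W := by
      intro W
      apply Subtype.ext
      show (W.1.comap (LinearMap.ker (aeval φ f)).subtype).map (LinearMap.ker (aeval φ f)).subtype ⊔
        (W.1.comap (LinearMap.ker (aeval φ g)).subtype).map (LinearMap.ker (aeval φ g)).subtype = W.1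
      rw [Submodule.map_comap_subtype, Submodule.map_comap_subtype]
      exact le_antisymm (sup_le inf_le_right inf_le_right) (hdec W.1 W.2)
    have hright : ∀ P, toF (invF P) = P := by
      rintro ⟨⟨W₁, hW₁⟩, ⟨W₂, hW₂⟩⟩
      apply Prod.ext
      · apply Subtype.ext
        show (W₁.map (LinearMap.ker (aeval φ f)).subtype ⊔
          W₂.map (LinearMap.ker (aeval φ g)).subtype).comap (LinearMap.ker (aeval φ f)).subtype = W₁
        apply le_antisymm
        · intro x hx
          rw [Submodule.mem_comap] at hx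
          obtain ⟨y₁, ⟨w₁, hw₁, rfl⟩, y₂, ⟨w₂, hw₂, rfl⟩, hsum'⟩ := Submodule.mem_sup.mp hx
          have hsum : (w₁ : V) + (w₂ : V) = (x : V) := hsum'
          have h2 : (w₂ : V) ∈ LinearMap.ker (aeval φ f) ⊓ LinearMap.ker (aeval φ g) := by
            refine ⟨?_, w₂.2⟩
            have : (w₂ : V) = (x : V) - (w₁ : V) := by
              rw [← hsum]; simp
            rw [this]
            exact Submodule.sub_mem _ x.2 w₁.2
          rw [hdisj.eq_bot, Submodule.mem_bot] at h2
          have hx' : x = w₁ := by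
            apply Subtype.ext
            rw [← hsum]
            simp [h2]
          rw [hx']
          exact hw₁
        · intro x hx
          rw [Submodule.mem_comap]
          exact Submodule.mem_sup_left ⟨x, hx, rfl⟩
      · apply Subtype.ext
        show (W₁.map (LinearMap.ker (aeval φ f)).subtype ⊔
          W₂.map (LinearMap.ker (aeval φ g)).subtype).comap (LinearMap.ker (aeval φ g)).subtype = W₂
        apply le_antisymm
        · intro x hx
          rw [Submodule.mem_comap] at hx
          obtain ⟨y₁, ⟨w₁, hw₁, rfl⟩, y₂, ⟨w₂, hw₂, rfl⟩, hsum'⟩ := Submodule.mem_sup.mp hx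
          have hsum : (w₁ : V) + (w₂ : V) = (x : V) := hsum'
          have h2 : (w₁ : V) ∈ LinearMap.ker (aeval φ f) ⊓ LinearMap.ker (aeval φ g) := by
            refine ⟨w₁.2, ?_⟩
            have : (w₁ : V) = (x : V) - (w₂ : V) := by
              rw [← hsum]; simp
            rw [this]
            exact Submodule.sub_mem _ x.2 w₂.2
          rw [hdisj.eq_bot, Submodule.mem_bot] at h2
          have hx' : x = w₂ := by
            apply Subtype.ext
            rw [← hsum]
            simp [h2]
          rw [hx']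
          exact hw₂
        · intro x hx
          rw [Submodule.mem_comap]
          exact Submodule.mem_sup_right ⟨x, hx, rfl⟩
    have hmonoT : ∀ W W', W ≤ W' → toF W ≤ toF W' := by
      intro W W' hWW'
      have h0 : W.1 ≤ W'.1 := hWW'
      exact ⟨fun x hx => h0 hx, fun x hx => h0 hx⟩
    have hmonoI : ∀ P P', P ≤ P' → invF P ≤ invF P' := by
      intro P P' hPP'
      have h1 : P.1.1 ≤ P'.1.1 := hPP'.1
      have h2 : P.2.1 ≤ P'.2.1 := hPP'.2
      show (P.1.1.map (LinearMap.ker (aeval φ f)).subtype ⊔
          P.2.1.map (LinearMap.ker (aeval φ g)).subtype : Submodule F V) ≤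
        P'.1.1.map (LinearMap.ker (aeval φ f)).subtype ⊔
          P'.2.1.map (LinearMap.ker (aeval φ g)).subtype
      exact sup_le_sup (Submodule.map_mono h1) (Submodule.map_mono h2)
    let e : ↥(Module.End.invtSubmodule φ) ≃o
        ↥(Module.End.invtSubmodule (φ.restrict h₁)) × ↥(Module.End.invtSubmodule (φ.restrict h₂)) :=
      { toFun := toF
        invFun := invF
        left_inv := hleft
        right_inv := hright
        map_rel_iff' := by
          intro W W'
          constructor
          · intro h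
            have h' : toF W ≤ toF W' := h
            have := hmonoI _ _ h'
            rwa [hleft, hleft] at this
          · exact hmonoT W W' }
    letI : Fintype ↥(Module.End.invtSubmodule φ) := Fintype.ofFinite _
    letI : LocallyFiniteOrder ↥(Module.End.invtSubmodule φ) := Fintype.toLocallyFiniteOrder
    letI : Fintype ↥(Module.End.invtSubmodule (φ.restrict h₁)) := Fintype.ofFinite _
    letI : LocallyFiniteOrder ↥(Module.End.invtSubmodule (φ.restrict h₁)) :=
      Fintype.toLocallyFiniteOrder
    letI : Fintype ↥(Module.End.invtSubmodule (φ.restrict h₂)) := Fintype.ofFinite _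
    letI : LocallyFiniteOrder ↥(Module.End.invtSubmodule (φ.restrict h₂)) :=
      Fintype.toLocallyFiniteOrder
    rw [invEC_eq φ, invEC_eq (φ.restrict h₁), invEC_eq (φ.restrict h₂)]
    exact stgl_eulerChar_of_orderIso_prod e
  · -- characteristic polynomial
    have hconj : (Submodule.prodEquivOfIsCompl _ _ hcompl).conj
        ((φ.restrict h₁).prodMap (φ.restrict h₂)) = φ := by
      apply LinearMap.ext
      intro v
      obtain ⟨x, rfl⟩ := (Submodule.prodEquivOfIsCompl _ _ hcompl).surjective v
      rw [LinearEquiv.conj_apply_apply, LinearEquiv.symm_apply_apply,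
        Submodule.coe_prodEquivOfIsCompl', Submodule.coe_prodEquivOfIsCompl', map_add]
      rfl
    have hcp := LinearEquiv.charpoly_conj (Submodule.prodEquivOfIsCompl _ _ hcompl)
      ((φ.restrict h₁).prodMap (φ.restrict h₂))
    rw [hconj] at hcp
    rw [hcp]
    exact LinearMap.charpoly_prodMap _ _
  · exact (Submodule.finrank_add_eq_of_isCompl hcompl).symm

end Cfsg.Agent.Helper84
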