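-- helper84 library: PIECE T3 of helper40's CALL S2425 (Steinberg character of GL_n at p'-elements):
-- assembly over the irreducible factors, with T1 and T2 as hypotheses.
import Mathlib
import Cfsg.Agent.Helper40.StGLBase

set_option autoImplicit false

open Polynomial Cfsg.Agent.Helper40.StGL

universe u v

namespace Cfsg.Agent.Helper84

/-- Splitting off `m` copies of a new element from a product over the support of a multiset. -/
theorem stgl_prod_nsmul_add {α : Type*} [DecidableEq α] (f : α) (m : ℕ) (N : Multiset α)
    (hf : f ∉ N) (T : α → ℕ → ℤ) (hT0 : ∀ h, T h 0 = 1) :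
    ∏ h ∈ (m • ({f} : Multiset α) + N).toFinset, T h ((m • ({f} : Multiset α) + N).count h) =
      T f m * ∏ h ∈ N.toFinset, T h (N.count h) := by
  rcases Nat.eq_zero_or_pos m with rfl | hm
  · rw [zero_smul, zero_add, hT0, one_mul]
  · have hfN : f ∉ N.toFinset := by simpa using hf
    rw [Multiset.toFinset_add, Multiset.toFinset_nsmul _ _ hm.ne', Multiset.toFinset_singleton,
      ← Finset.insert_eq, Finset.prod_insert hfN]
    congr 1
    · rw [Multiset.count_add, Multiset.count_nsmul, Multiset.count_singleton_self,
        Multiset.count_eq_zero_of_notMem hf, mul_one, add_zero]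
    · apply Finset.prod_congr rfl
      intro h hh
      have hne : h ≠ f := by
        rintro rfl
        exact hfN hh
      rw [Multiset.count_add, Multiset.count_nsmul, Multiset.count_singleton, if_neg hne,
        mul_zero, zero_add]

theorem invEC_semisimple {F : Type u} {V : Type v} [Field F] [Fintype F] [DecidableEq F] [AddCommGroup V]
    [Module F V] [Finite V]
    (T1 : ∀ (V' : Type v) [AddCommGroup V'] [Module F V'] [Finite V'] (φ : Module.End F V')
      (f : F[X]), Irreducible f → f.Monic → aeval φ f = 0 →
      ∃ m : ℕ, Module.finrank F V' = f.natDegree * m ∧ LinearMap.charpoly φ = f ^ m ∧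
        invEC φ = (-1) ^ m * ((Fintype.card F : ℤ) ^ f.natDegree) ^ (m * (m - 1) / 2))
    (T2 : ∀ (V' : Type v) [AddCommGroup V'] [Module F V'] [Finite V'] (φ : Module.End F V')
      (f g : F[X]), IsCoprime f g → aeval φ (f * g) = 0 →
      ∃ (φ₁ : Module.End F ↥(LinearMap.ker (aeval φ f)))
        (φ₂ : Module.End F ↥(LinearMap.ker (aeval φ g))),
        aeval φ₁ f = 0 ∧ aeval φ₂ g = 0 ∧
        invEC φ = invEC φ₁ * invEC φ₂ ∧
        LinearMap.charpoly φ = LinearMap.charpoly φ₁ * LinearMap.charpoly φ₂ ∧
        Module.finrank F V' = Module.finrank F ↥(LinearMap.ker (aeval φ f)) +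
          Module.finrank F ↥(LinearMap.ker (aeval φ g)))
    (φ : Module.End F V) (P : F[X]) (hP : Squarefree P) (hφ : aeval φ P = 0) :
    (-1 : ℤ) ^ Module.finrank F V * invEC φ =
      ∏ f ∈ (UniqueFactorizationMonoid.normalizedFactors (LinearMap.charpoly φ)).toFinset,
        (-1 : ℤ) ^ ((f.natDegree - 1) *
            (UniqueFactorizationMonoid.normalizedFactors (LinearMap.charpoly φ)).count f) *
          (Fintype.card F : ℤ) ^ (f.natDegree *
            (UniqueFactorizationMonoid.normalizedFactors (LinearMap.charpoly φ)).count f *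
            ((UniqueFactorizationMonoid.normalizedFactors (LinearMap.charpoly φ)).count f - 1) / 2) := by
  -- the case of a unit `P`: the space is trivial
  have unitCase : ∀ (V' : Type v) [AddCommGroup V'] [Module F V'] [Finite V']
      (φ : Module.End F V') (P : F[X]), IsUnit P → aeval φ P = 0 →
      ((-1 : ℤ) ^ Module.finrank F V' * invEC φ =
        ∏ f ∈ (UniqueFactorizationMonoid.normalizedFactors (LinearMap.charpoly φ)).toFinset,
          (-1 : ℤ) ^ ((f.natDegree - 1) *
              (UniqueFactorizationMonoid.normalizedFactors (LinearMap.charpoly φ)).count f) *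
            (Fintype.card F : ℤ) ^ (f.natDegree *
              (UniqueFactorizationMonoid.normalizedFactors (LinearMap.charpoly φ)).count f *
              ((UniqueFactorizationMonoid.normalizedFactors (LinearMap.charpoly φ)).count f - 1) / 2)) ∧
      (∀ h ∈ UniqueFactorizationMonoid.normalizedFactors (LinearMap.charpoly φ), h ∣ P) := by
    intro V' _ _ _ φ P hPu hφ
    obtain ⟨Q, hQ⟩ := isUnit_iff_exists_inv.mp hPu
    have h10 : (1 : Module.End F V') = 0 := by
      have := congrArg (aeval φ) hQ
      rw [map_mul, hφ, zero_mul, map_one] at this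
      exact this.symm
    have hsub : Subsingleton V' := by
      refine ⟨fun x y => ?_⟩
      have hx : x = 0 := by
        have := LinearMap.congr_fun h10 x
        simpa using this
      have hy : y = 0 := by
        have := LinearMap.congr_fun h10 y
        simpa using this
      rw [hx, hy]
    have hφ0 : aeval φ (X : F[X]) = 0 := by
      rw [aeval_X]
      exact LinearMap.ext fun x => Subsingleton.elim _ _
    obtain ⟨m, hm1, hm2, hm3⟩ := T1 V' φ X irreducible_X monic_X hφ0
    rw [Module.finrank_zero_of_subsingleton, natDegree_X, one_mul] at hm1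
    subst hm1
    rw [pow_zero] at hm2
    rw [hm2, hm3, Module.finrank_zero_of_subsingleton,
      UniqueFactorizationMonoid.normalizedFactors_one]
    refine ⟨by simp, ?_⟩
    intro h hh
    simp at hh
  have main : ∀ (n : ℕ) (V' : Type v) [AddCommGroup V'] [Module F V'] [Finite V']
      (φ : Module.End F V') (P : F[X]), P.natDegree ≤ n → Squarefree P → aeval φ P = 0 →
      ((-1 : ℤ) ^ Module.finrank F V' * invEC φ =
        ∏ f ∈ (UniqueFactorizationMonoid.normalizedFactors (LinearMap.charpoly φ)).toFinset,
          (-1 : ℤ) ^ ((f.natDegree - 1) *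
              (UniqueFactorizationMonoid.normalizedFactors (LinearMap.charpoly φ)).count f) *
            (Fintype.card F : ℤ) ^ (f.natDegree *
              (UniqueFactorizationMonoid.normalizedFactors (LinearMap.charpoly φ)).count f *
              ((UniqueFactorizationMonoid.normalizedFactors (LinearMap.charpoly φ)).count f - 1) / 2)) ∧
      (∀ h ∈ UniqueFactorizationMonoid.normalizedFactors (LinearMap.charpoly φ), h ∣ P) := by
    intro n
    induction n with
    | zero =>
      intro V' _ _ _ φ P hdeg hsq hφ
      apply unitCase V' φ P _ hφ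
      have hP0 : P ≠ 0 := hsq.ne_zero
      have hC := Polynomial.eq_C_of_natDegree_le_zero hdeg
      rw [hC]
      apply Polynomial.isUnit_C.mpr
      apply isUnit_iff_ne_zero.mpr
      intro h0
      apply hP0
      rw [hC, h0, map_zero]
    | succ n ih =>
      intro V' _ _ _ φ P hdeg hsq hφ
      by_cases hPu : IsUnit P
      · exact unitCase V' φ P hPu hφ
      have hP0 : P ≠ 0 := hsq.ne_zero
      obtain ⟨f₀, hf₀irr, hf₀dvd⟩ := WfDvdMonoid.exists_irreducible_factor hPu hP0
      obtain ⟨f, hfdef⟩ : ∃ f : F[X], f = normalize f₀ := ⟨_, rfl⟩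
      have hfass : Associated f f₀ := by rw [hfdef]; exact normalize_associated f₀
      have hfirr : Irreducible f := hfass.symm.irreducible hf₀irr
      have hfmon : f.Monic := by rw [hfdef]; exact Polynomial.monic_normalize hf₀irr.ne_zero
      have hfdvd : f ∣ P := hfass.dvd.trans hf₀dvd
      obtain ⟨g, rfl⟩ := hfdvd
      have hg0 : g ≠ 0 := right_ne_zero_of_mul hP0
      have hnd : ¬ f ∣ g := by
        rintro ⟨k, hk⟩
        exact hfirr.not_isUnit (hsq f ⟨k, by rw [hk]; ring⟩)
      have hcop : IsCoprime f g := hfirr.coprime_iff_not_dvd.mpr hnd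
      have hgsq : Squarefree g := hsq.squarefree_of_dvd (dvd_mul_left g f)
      have hgdeg : g.natDegree ≤ n := by
        have h1 := Polynomial.natDegree_mul hfirr.ne_zero hg0
        have h2 := hfirr.natDegree_pos
        omega
      obtain ⟨φ₁, φ₂, h1, h2, hEC, hchar, hfin⟩ := T2 V' φ f g hcop hφ
      obtain ⟨m, hm1, hm2, hm3⟩ := T1 _ φ₁ f hfirr hfmon h1
      obtain ⟨ihA, ihB⟩ := ih _ φ₂ g hgdeg hgsq h2
      have hQ0 : LinearMap.charpoly φ₂ ≠ 0 := (LinearMap.charpoly_monic φ₂).ne_zero
      have hfQ : f ∉ UniqueFactorizationMonoid.normalizedFactors (LinearMap.charpoly φ₂) :=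
        fun h => hnd (ihB f h)
      have hNF : UniqueFactorizationMonoid.normalizedFactors (LinearMap.charpoly φ) =
          m • ({f} : Multiset F[X]) +
            UniqueFactorizationMonoid.normalizedFactors (LinearMap.charpoly φ₂) := by
        rw [hchar, hm2,
          UniqueFactorizationMonoid.normalizedFactors_mul (pow_ne_zero m hfirr.ne_zero) hQ0,
          UniqueFactorizationMonoid.normalizedFactors_pow,
          UniqueFactorizationMonoid.normalizedFactors_irreducible hfirr, hfmon.normalize_eq_self]
      constructor
      · have key := stgl_prod_nsmul_add f m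
          (UniqueFactorizationMonoid.normalizedFactors (LinearMap.charpoly φ₂)) hfQ
          (fun h c => (-1 : ℤ) ^ ((h.natDegree - 1) * c) *
            (Fintype.card F : ℤ) ^ (h.natDegree * c * (c - 1) / 2)) (by intro h; simp)
        beta_reduce at key
        rw [hNF, key, ← ihA, hfin, hm1, hEC, hm3]
        have hd : 1 ≤ f.natDegree := hfirr.natDegree_pos
        have e1 : (-1 : ℤ) ^ ((f.natDegree - 1) * m) = (-1) ^ (f.natDegree * m) * (-1) ^ m := by
          obtain ⟨d', hd'⟩ : ∃ d', f.natDegree = d' + 1 := ⟨f.natDegree - 1, by omega⟩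
          rw [hd', Nat.add_sub_cancel, ← pow_add]
          have : (d' + 1) * m + m = d' * m + 2 * m := by ring
          rw [this, pow_add, pow_mul (-1 : ℤ) 2 m]
          simp
        have e2 : ((Fintype.card F : ℤ) ^ f.natDegree) ^ (m * (m - 1) / 2) =
            (Fintype.card F : ℤ) ^ (f.natDegree * m * (m - 1) / 2) := by
          rw [← pow_mul, mul_assoc f.natDegree m (m - 1),
            Nat.mul_div_assoc _ (even_iff_two_dvd.mp (Nat.even_mul_pred_self m))]
        rw [e1, e2, pow_add]
        ring
      · rw [hNF]
        intro h hh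
        rcases Multiset.mem_add.mp hh with h1 | h2
        · have := Multiset.mem_of_mem_nsmul h1
          rw [Multiset.mem_singleton] at this
          rw [this]
          exact dvd_mul_right f g
        · exact (ihB h h2).trans (dvd_mul_left g f)
  exact (main P.natDegree V φ P le_rfl hP hφ).1

end Cfsg.Agent.Helper84
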