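-- helper84 library: PIECE BASE of helper69's CALL S5998 (PSL_3(p) and the normaliser of 3^{1+2}):
-- normal form, order, determinant and normaliser criterion for the standard group `E3 ω`.
import Mathlib
import Cfsg.Prelude.Def_GeometricClasses
import Cfsg.Agent.Helper69.E3Def

set_option autoImplicit false

open Matrix Cfsg.Agent.Helper69

namespace Cfsg.Agent.Helper84

section

variable {F : Type*} [Field F]

theorem e3X_pow_two : e3X F ^ 2 = !![0, 1, 0; 0, 0, 1; 1, 0, 0] := by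
  rw [pow_two, e3X]
  ext i j
  fin_cases i <;> fin_cases j <;> simp [Matrix.mul_apply, Fin.sum_univ_three]

theorem e3X_pow_three : e3X F ^ 3 = 1 := by
  rw [pow_succ, e3X_pow_two, e3X]
  ext i j
  fin_cases i <;> fin_cases j <;> simp [Matrix.mul_apply, Fin.sum_univ_three]

theorem e3Z_pow (ω : F) (k : ℕ) : e3Z ω ^ k = !![1, 0, 0; 0, ω ^ k, 0; 0, 0, (ω ^ k) ^ 2] := by
  induction k with
  | zero =>
    ext i j
    fin_cases i <;> fin_cases j <;> simp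
  | succ k ih =>
    rw [pow_succ, ih, e3Z]
    ext i j
    fin_cases i <;> fin_cases j <;> simp [Matrix.mul_apply, Fin.sum_univ_three] <;> ring

theorem e3Z_pow_three (ω : F) (hω3 : ω ^ 3 = 1) : e3Z ω ^ 3 = 1 := by
  rw [e3Z_pow, hω3]
  ext i j
  fin_cases i <;> fin_cases j <;> simp

theorem e3_ZX (ω : F) (hω3 : ω ^ 3 = 1) : e3Z ω * e3X F = ω • (e3X F * e3Z ω) := by
  rw [e3Z, e3X]
  ext i j
  fin_cases i <;> fin_cases j <;> simp [Matrix.mul_apply, Fin.sum_univ_three]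
  · rw [← pow_succ']; exact hω3.symm
  · ring

theorem e3_Z_Xpow (ω : F) (hω3 : ω ^ 3 = 1) (j : ℕ) :
    e3Z ω * e3X F ^ j = ω ^ j • (e3X F ^ j * e3Z ω) := by
  induction j with
  | zero => simp
  | succ j ih =>
    rw [pow_succ, ← mul_assoc, ih, Matrix.smul_mul, mul_assoc, e3_ZX ω hω3, Matrix.mul_smul,
      smul_smul, ← mul_assoc, pow_succ]

theorem e3_Zpow_Xpow (ω : F) (hω3 : ω ^ 3 = 1) (k j : ℕ) :
    e3Z ω ^ k * e3X F ^ j = ω ^ (k * j) • (e3X F ^ j * e3Z ω ^ k) := by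
  induction k with
  | zero => simp
  | succ k ih =>
    rw [pow_succ, mul_assoc, e3_Z_Xpow ω hω3, Matrix.mul_smul, ← mul_assoc, ih, Matrix.smul_mul,
      smul_smul, mul_assoc, ← pow_succ, ← pow_add]
    congr 2
    ring


/-- the shift as a unit -/
def e3gX (F : Type*) [Field F] : GL (Fin 3) F :=
  ⟨e3X F, e3X F ^ 2, by rw [← pow_succ', e3X_pow_three], by rw [← pow_succ, e3X_pow_three]⟩

/-- the diagonal generator as a unit -/
def e3gZ (ω : F) (hω3 : ω ^ 3 = 1) : GL (Fin 3) F :=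
  ⟨e3Z ω, e3Z ω ^ 2, by rw [← pow_succ', e3Z_pow_three ω hω3],
    by rw [← pow_succ, e3Z_pow_three ω hω3]⟩

theorem e3gX_mem (ω : F) : e3gX F ∈ E3 ω := Subgroup.subset_closure (Or.inl rfl)

theorem e3gZ_mem (ω : F) (hω3 : ω ^ 3 = 1) : e3gZ ω hω3 ∈ E3 ω :=
  Subgroup.subset_closure (Or.inr rfl)

/-- the central element `ω • 1` as a unit -/
def e3gC (ω : F) (hω3 : ω ^ 3 = 1) : GL (Fin 3) F :=
  e3gZ ω hω3 * e3gX F * (e3gZ ω hω3)⁻¹ * (e3gX F)⁻¹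

theorem e3gC_mem (ω : F) (hω3 : ω ^ 3 = 1) : e3gC ω hω3 ∈ E3 ω :=
  (E3 ω).mul_mem ((E3 ω).mul_mem ((E3 ω).mul_mem (e3gZ_mem ω hω3) (e3gX_mem ω))
    ((E3 ω).inv_mem (e3gZ_mem ω hω3))) ((E3 ω).inv_mem (e3gX_mem ω))

theorem e3gC_val (ω : F) (hω3 : ω ^ 3 = 1) :
    ((e3gC ω hω3 : GL (Fin 3) F) : Matrix (Fin 3) (Fin 3) F) = ω • 1 := by
  have h1 : ((e3gC ω hω3 : GL (Fin 3) F) : Matrix (Fin 3) (Fin 3) F)
      = e3Z ω * e3X F * e3Z ω ^ 2 * e3X F ^ 2 := rfl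
  rw [h1, e3_ZX ω hω3, Matrix.smul_mul, Matrix.smul_mul, mul_assoc (e3X F), ← pow_succ',
    e3Z_pow_three ω hω3, mul_one, ← pow_succ', e3X_pow_three]

theorem e3_normal_mul (ω : F) (hω3 : ω ^ 3 = 1) (i j k i' j' k' : ℕ) :
    (ω ^ i • (e3X F ^ j * e3Z ω ^ k)) * (ω ^ i' • (e3X F ^ j' * e3Z ω ^ k'))
      = ω ^ (i + i' + k * j') • (e3X F ^ (j + j') * e3Z ω ^ (k + k')) := by
  rw [Matrix.smul_mul, Matrix.mul_smul, smul_smul, mul_assoc (e3X F ^ j), ← mul_assoc (e3Z ω ^ k),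
    e3_Zpow_Xpow ω hω3, Matrix.smul_mul, Matrix.mul_smul, smul_smul, mul_assoc (e3X F ^ j'),
    ← pow_add, ← mul_assoc, ← pow_add, ← pow_add, ← pow_add]

theorem e3_mem_iff {F : Type*} [Field F] (ω : F) (hω3 : ω ^ 3 = 1) (g : GL (Fin 3) F) :
    g ∈ E3 ω ↔ ∃ i j k : ℕ, (g : Matrix (Fin 3) (Fin 3) F) = ω ^ i • (e3X F ^ j * e3Z ω ^ k) := by
  constructor
  · intro hg
    unfold E3 at hg
    induction hg using Subgroup.closure_induction with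
    | mem x hx =>
      rcases hx with hx | hx
      · exact ⟨0, 1, 0, by rw [hx]; simp⟩
      · exact ⟨0, 0, 1, by rw [hx]; simp⟩
    | one => exact ⟨0, 0, 0, by simp⟩
    | mul x y _ _ ihx ihy =>
      obtain ⟨i, j, k, hx⟩ := ihx
      obtain ⟨i', j', k', hy⟩ := ihy
      exact ⟨i + i' + k * j', j + j', k + k', by
        rw [Units.val_mul, hx, hy, e3_normal_mul ω hω3]⟩
    | inv x _ ihx =>
      obtain ⟨i, j, k, hx⟩ := ihx
      refine ⟨2 * i + 4 * (j * k), 2 * j, 2 * k, ?_⟩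
      apply Units.inv_eq_of_mul_eq_one_right
      rw [hx, e3_normal_mul ω hω3]
      have e1 : i + (2 * i + 4 * (j * k)) + k * (2 * j) = 3 * (i + 2 * (j * k)) := by ring
      have e2 : j + 2 * j = 3 * j := by ring
      have e3 : k + 2 * k = 3 * k := by ring
      rw [e1, e2, e3, pow_mul, pow_mul, pow_mul, hω3, e3X_pow_three, e3Z_pow_three ω hω3]
      simp
  · rintro ⟨i, j, k, hg⟩
    have : g = e3gC ω hω3 ^ i * e3gX F ^ j * e3gZ ω hω3 ^ k := by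
      apply Units.ext
      rw [hg, Units.val_mul, Units.val_mul, Units.val_pow_eq_pow_val, Units.val_pow_eq_pow_val,
        Units.val_pow_eq_pow_val, e3gC_val, smul_pow, one_pow, Matrix.smul_mul, Matrix.smul_mul,
        one_mul]
      rfl
    rw [this]
    exact (E3 ω).mul_mem ((E3 ω).mul_mem ((E3 ω).pow_mem (e3gC_mem ω hω3) i)
      ((E3 ω).pow_mem (e3gX_mem ω) j)) ((E3 ω).pow_mem (e3gZ_mem ω hω3) k)

theorem e3_pow_inj (ω : F) (hω1 : ω ≠ 1) (hω3 : ω ^ 3 = 1) {a b : ℕ} (ha : a < 3) (hb : b < 3)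
    (h : ω ^ a = ω ^ b) : a = b := by
  have hω0 : ω ≠ 0 := by
    rintro rfl
    simp at hω3
  have h2 : ω ^ 2 ≠ 1 := by
    intro h2
    apply hω1
    have : ω ^ 3 = ω := by rw [pow_succ, h2, one_mul]
    rw [← this, hω3]
  have h21 : ω ^ 2 ≠ ω := by
    intro h21
    apply hω1
    have : ω * ω = ω * 1 := by rw [mul_one, ← pow_two, h21]
    exact mul_left_cancel₀ hω0 this
  interval_cases a <;> interval_cases b <;> simp only [pow_zero, pow_one] at h <;>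
    first
      | rfl
      | exact absurd h hω1
      | exact absurd h.symm hω1
      | exact absurd h h2
      | exact absurd h.symm h2
      | exact absurd h h21
      | exact absurd h.symm h21

theorem e3_inj_aux (ω : F) (hω1 : ω ≠ 1) (hω3 : ω ^ 3 = 1) {i k i' k' : ℕ}
    (hi : i < 3) (hk : k < 3) (hi' : i' < 3) (hk' : k' < 3)
    (h1 : ω ^ i = ω ^ i') (h2 : ω ^ i * ω ^ k = ω ^ i' * ω ^ k') : i = i' ∧ k = k' := by
  have hω0 : ω ≠ 0 := by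
    rintro rfl
    simp at hω3
  refine ⟨e3_pow_inj ω hω1 hω3 hi hi' h1, e3_pow_inj ω hω1 hω3 hk hk' ?_⟩
  rw [h1] at h2
  exact mul_left_cancel₀ (pow_ne_zero _ hω0) h2

theorem e3_normal_inj (ω : F) (hω1 : ω ≠ 1) (hω3 : ω ^ 3 = 1) {i j k i' j' k' : ℕ}
    (hi : i < 3) (hj : j < 3) (hk : k < 3) (hi' : i' < 3) (hj' : j' < 3) (hk' : k' < 3)
    (h : ω ^ i • (e3X F ^ j * e3Z ω ^ k) = ω ^ i' • (e3X F ^ j' * e3Z ω ^ k')) :
    i = i' ∧ j = j' ∧ k = k' := by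
  have hω0 : ω ≠ 0 := by
    rintro rfl
    simp at hω3
  have hi0 : ω ^ i ≠ 0 := pow_ne_zero _ hω0
  have hi0' : ω ^ i' ≠ 0 := pow_ne_zero _ hω0
  have hk0 : ω ^ k ≠ 0 := pow_ne_zero _ hω0
  rw [e3Z_pow, e3Z_pow] at h
  have hE := fun a b => congr_fun (congr_fun h a) b
  have h00 := hE 0 0
  have h10 := hE 1 0
  have h20 := hE 2 0
  have h01 := hE 0 1
  have h11 := hE 1 1
  have h21 := hE 2 1
  clear hE h
  interval_cases j <;> interval_cases j' <;>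
    simp only [e3X_pow_two, pow_zero, pow_one] at h00 h10 h20 h01 h11 h21 <;>
    simp [e3X, hi0] at h00 h10 h20 h01 h11 h21
  all_goals
    first
      | exact ⟨(e3_inj_aux ω hω1 hω3 hi hk hi' hk' h00 h11).1, rfl,
          (e3_inj_aux ω hω1 hω3 hi hk hi' hk' h00 h11).2⟩
      | exact ⟨(e3_inj_aux ω hω1 hω3 hi hk hi' hk' h10 h21).1, rfl,
          (e3_inj_aux ω hω1 hω3 hi hk hi' hk' h10 h21).2⟩
      | exact ⟨(e3_inj_aux ω hω1 hω3 hi hk hi' hk' h20 h01).1, rfl,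
          (e3_inj_aux ω hω1 hω3 hi hk hi' hk' h20 h01).2⟩

theorem e3g_val (ω : F) (hω3 : ω ^ 3 = 1) (i j k : ℕ) :
    ((e3gC ω hω3 ^ i * e3gX F ^ j * e3gZ ω hω3 ^ k : GL (Fin 3) F) : Matrix (Fin 3) (Fin 3) F)
      = ω ^ i • (e3X F ^ j * e3Z ω ^ k) := by
  rw [Units.val_mul, Units.val_mul, Units.val_pow_eq_pow_val, Units.val_pow_eq_pow_val,
    Units.val_pow_eq_pow_val, e3gC_val, smul_pow, one_pow, Matrix.smul_mul, Matrix.smul_mul,
    one_mul]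
  rfl

theorem e3g_mem (ω : F) (hω3 : ω ^ 3 = 1) (i j k : ℕ) :
    e3gC ω hω3 ^ i * e3gX F ^ j * e3gZ ω hω3 ^ k ∈ E3 ω :=
  (E3 ω).mul_mem ((E3 ω).mul_mem ((E3 ω).pow_mem (e3gC_mem ω hω3) i)
    ((E3 ω).pow_mem (e3gX_mem ω) j)) ((E3 ω).pow_mem (e3gZ_mem ω hω3) k)

theorem e3_card {F : Type*} [Field F] (ω : F) (hω1 : ω ≠ 1) (hω3 : ω ^ 3 = 1) :
    Nat.card (E3 ω) = 27 := by
  let f : Fin 3 × Fin 3 × Fin 3 → E3 ω := fun t =>
    ⟨e3gC ω hω3 ^ (t.1 : ℕ) * e3gX F ^ (t.2.1 : ℕ) * e3gZ ω hω3 ^ (t.2.2 : ℕ), e3g_mem ω hω3 _ _ _⟩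
  have hval : ∀ t, ((f t : GL (Fin 3) F) : Matrix (Fin 3) (Fin 3) F)
      = ω ^ (t.1 : ℕ) • (e3X F ^ (t.2.1 : ℕ) * e3Z ω ^ (t.2.2 : ℕ)) := fun t => e3g_val ω hω3 _ _ _
  have hinj : Function.Injective f := by
    intro t t' h
    have h' : ((f t : GL (Fin 3) F) : Matrix (Fin 3) (Fin 3) F)
        = ((f t' : GL (Fin 3) F) : Matrix (Fin 3) (Fin 3) F) := by rw [h]
    rw [hval, hval] at h'
    obtain ⟨h1, h2, h3⟩ :=
      e3_normal_inj ω hω1 hω3 t.1.2 t.2.1.2 t.2.2.2 t'.1.2 t'.2.1.2 t'.2.2.2 h'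
    exact Prod.ext (Fin.ext h1) (Prod.ext (Fin.ext h2) (Fin.ext h3))
  have hsurj : Function.Surjective f := by
    rintro ⟨g, hg⟩
    obtain ⟨i, j, k, hgm⟩ := (e3_mem_iff ω hω3 g).mp hg
    refine ⟨(⟨i % 3, Nat.mod_lt _ (by norm_num)⟩, ⟨j % 3, Nat.mod_lt _ (by norm_num)⟩,
      ⟨k % 3, Nat.mod_lt _ (by norm_num)⟩), ?_⟩
    apply Subtype.ext
    apply Units.ext
    rw [hval, hgm]
    show ω ^ (i % 3) • (e3X F ^ (j % 3) * e3Z ω ^ (k % 3)) = _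
    rw [← pow_eq_pow_mod i hω3, ← pow_eq_pow_mod j e3X_pow_three,
      ← pow_eq_pow_mod k (e3Z_pow_three ω hω3)]
  rw [← Nat.card_congr (Equiv.ofBijective f ⟨hinj, hsurj⟩)]
  simp [Nat.card_eq_fintype_card]

theorem e3_le_specialLinear {F : Type*} [Field F] (ω : F) (hω3 : ω ^ 3 = 1) :
    E3 ω ≤ Cfsg.Geo.specialLinear (Fin 3) F := by
  unfold E3
  rw [Subgroup.closure_le]
  intro g hg
  have hmem : ∀ g : GL (Fin 3) F, g ∈ Cfsg.Geo.specialLinear (Fin 3) F ↔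
      (g : Matrix (Fin 3) (Fin 3) F).det = 1 := by
    intro g
    rw [Cfsg.Geo.specialLinear, MonoidHom.mem_ker, Units.ext_iff]
    rfl
  rw [SetLike.mem_coe, hmem]
  rcases hg with hg | hg
  · rw [hg, e3X, Matrix.det_fin_three]
    simp
  · rw [hg, e3Z, Matrix.det_fin_three]
    simp
    rw [← pow_succ']
    exact hω3

theorem e3_mem_normalizer {F : Type*} [Field F] (ω : F) (hω1 : ω ≠ 1) (hω3 : ω ^ 3 = 1)
    (h : GL (Fin 3) F)
    (hX : ∀ g : GL (Fin 3) F, (g : Matrix (Fin 3) (Fin 3) F) = e3X F → h * g * h⁻¹ ∈ E3 ω)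
    (hZ : ∀ g : GL (Fin 3) F, (g : Matrix (Fin 3) (Fin 3) F) = e3Z ω → h * g * h⁻¹ ∈ E3 ω) :
    h ∈ Cfsg.Geo.subgroupNormalizer (E3 ω) := by
  have hle : (E3 ω).map (MulAut.conj h).toMonoidHom ≤ E3 ω := by
    have hE : E3 ω = Subgroup.closure {g : GL (Fin 3) F |
        (g : Matrix (Fin 3) (Fin 3) F) = e3X F ∨ (g : Matrix (Fin 3) (Fin 3) F) = e3Z ω} := rfl
    rw [hE, MonoidHom.map_closure, Subgroup.closure_le, ← hE]
    rintro _ ⟨g, hg, rfl⟩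
    rcases hg with hg | hg
    · exact hX g hg
    · exact hZ g hg
  have hfin : Finite (E3 ω) :=
    Nat.finite_of_card_ne_zero (by rw [e3_card ω hω1 hω3]; norm_num)
  have heq : (E3 ω).map (MulAut.conj h).toMonoidHom = E3 ω := by
    apply Subgroup.eq_of_le_of_card_ge hle
    rw [Subgroup.card_map_of_injective (MulAut.conj h).injective]
  unfold Cfsg.Geo.subgroupNormalizer
  exact Subgroup.mem_normalizer_iff_map_conj_eq.mpr heq

end

end Cfsg.Agent.Helper84
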