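import Mathlib
import Cfsg.Prelude.Def_GeometricClasses
import Cfsg.Prelude.Def_Classical

set_option autoImplicit false
open Matrix Polynomial

/-!
CALL S5981 (helper98), piece DIAGG: a symmetric invertible matrix over a field with `2 ≠ 0` is
congruent to a diagonal matrix with nonzero entries.
-/

namespace Cfsg.Agent.Helper84.THDIAGG

variable {F : Type*} [Field F] [Fintype F]

theorem diagg_conj_apply {K : Type*} [Field K] {b : ℕ} (S G : Matrix (Fin b) (Fin b) K)
    (j j' : Fin b) :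
    (Sᵀ * G * S) j j' = (fun i => S i j) ⬝ᵥ G *ᵥ (fun i => S i j') := by
  rw [Matrix.dotProduct_mulVec]
  simp [Matrix.mul_apply, dotProduct, Matrix.vecMul]

/-- DIAGG -/
theorem gram_diag (h2 : (2 : F) ≠ 0) {n : ℕ} (G : Matrix (Fin n) (Fin n) F) (hGs : Gᵀ = G)
    (hG : G.det ≠ 0) :
    ∃ (S : GL (Fin n) F) (a : Fin n → F), (∀ i, a i ≠ 0) ∧
      (S : Matrix (Fin n) (Fin n) F)ᵀ * G * (S : Matrix (Fin n) (Fin n) F) = Matrix.diagonal a := by
  classical
  let B : LinearMap.BilinForm F (Fin n → F) := Matrix.toBilin' G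
  have hBf : ∀ x y, B x y = x ⬝ᵥ G *ᵥ y := fun x y => Matrix.toBilin'_apply' G x y
  have hBs : LinearMap.IsSymm B := by
    refine ⟨fun x y => ?_⟩
    simp only [RingHom.id_apply]
    rw [hBf, hBf, Matrix.dotProduct_mulVec, ← Matrix.mulVec_transpose, hGs, dotProduct_comm]
  let _i2 : Invertible (2 : F) := invertibleOfNonzero h2
  obtain ⟨v, hv⟩ := LinearMap.BilinForm.exists_orthogonal_basis hBs
  have hfin : Module.finrank F (Fin n → F) = n := Module.finrank_fin_fun F
  let v' : Module.Basis (Fin n) F (Fin n → F) := v.reindex (finCongr hfin)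
  have hv' : ∀ j j', j ≠ j' → B (v' j) (v' j') = 0 := by
    intro j j' hjj
    have h1 : (finCongr hfin).symm j ≠ (finCongr hfin).symm j' :=
      fun h => hjj ((finCongr hfin).symm.injective h)
    have h2 := (LinearMap.isOrthoᵢ_def.mp hv) _ _ h1
    simpa [v'] using h2
  let S : Matrix (Fin n) (Fin n) F := (Pi.basisFun F (Fin n)).toMatrix v'
  have hSeq : Sᵀ * G * S = Matrix.diagonal (fun j => B (v' j) (v' j)) := by
    ext j j'
    rw [diagg_conj_apply]
    have h3 : ∀ j, (fun i => S i j) = v' j := by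
      intro j; funext i; simp [S, Module.Basis.toMatrix_apply]
    rw [h3, h3, ← Matrix.toBilin'_apply' G]
    by_cases hjj : j = j'
    · subst hjj; simp [B]
    · rw [Matrix.diagonal_apply_ne _ hjj]; exact hv' j j' hjj
  have hSS : S * v'.toMatrix (Pi.basisFun F (Fin n)) = 1 :=
    Module.Basis.toMatrix_mul_toMatrix_flip _ _
  have hSS' : v'.toMatrix (Pi.basisFun F (Fin n)) * S = 1 :=
    Module.Basis.toMatrix_mul_toMatrix_flip _ _
  refine ⟨⟨S, v'.toMatrix (Pi.basisFun F (Fin n)), hSS, hSS'⟩, fun j => B (v' j) (v' j), ?_, hSeq⟩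
  intro j hj
  have hSdet : S.det ≠ 0 := Matrix.det_ne_zero_of_right_inverse hSS
  have h4 : (Sᵀ * G * S).det ≠ 0 := by
    rw [Matrix.det_mul, Matrix.det_mul, Matrix.det_transpose]
    exact mul_ne_zero (mul_ne_zero hSdet hG) hSdet
  rw [hSeq, Matrix.det_diagonal] at h4
  exact h4 (Finset.prod_eq_zero (Finset.mem_univ j) hj)

end Cfsg.Agent.Helper84.THDIAGG
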