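import Mathlib

/-!
CALL C3O (helper43), piece EVEN: an endomorphism with nonsquare scalar square lives in even
dimension.
-/

set_option autoImplicit false

namespace Cfsg.Agent.Helper84

open Matrix Module Polynomial

universe u

/-- PIECE EVEN (two statements) -/
theorem c3o_even {F : Type*} [Field F] {V : Type*} [AddCommGroup V] [Module F V]
    [FiniteDimensional F V] (n : F) (hn : ¬ IsSquare n) (J : V →ₗ[F] V)
    (hJ : ∀ v, J (J v) = n • v) : Even (Module.finrank F V) := by
  by_contra hodd
  rw [Nat.not_even_iff_odd] at hodd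
  obtain ⟨k, hk⟩ := hodd
  have hn0 : n ≠ 0 := by
    rintro rfl
    exact hn ⟨0, by simp⟩
  have hcomp : J ∘ₗ J = n • (LinearMap.id : V →ₗ[F] V) := by
    ext v
    simp [hJ]
  have hdet : LinearMap.det J * LinearMap.det J = n ^ Module.finrank F V := by
    rw [← LinearMap.det_comp, hcomp, LinearMap.det_smul, LinearMap.det_id, mul_one]
  rw [hk] at hdet
  apply hn
  refine ⟨LinearMap.det J / n ^ k, ?_⟩
  have hnk : n ^ k ≠ 0 := pow_ne_zero k hn0
  field_simp
  rw [pow_two (LinearMap.det J), hdet]
  ring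

theorem c3o_evenm {F : Type*} [Field F] {ι : Type*} [Fintype ι] [DecidableEq ι] (n : F)
    (hn : ¬ IsSquare n) (J : Matrix ι ι F) (hJ : J * J = n • (1 : Matrix ι ι F))
    (U : Submodule F (ι → F)) (hU : ∀ u ∈ U, J.mulVec u ∈ U) : Even (Module.finrank F U) := by
  have hU' : ∀ u ∈ U, Matrix.toLin' J u ∈ U := by
    intro u hu
    rw [Matrix.toLin'_apply]
    exact hU u hu
  apply c3o_even n hn ((Matrix.toLin' J).restrict hU')
  intro v
  apply Subtype.ext
  show Matrix.toLin' J (Matrix.toLin' J (v : ι → F)) = n • (v : ι → F)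
  rw [Matrix.toLin'_apply, Matrix.toLin'_apply, Matrix.mulVec_mulVec, hJ, Matrix.smul_mulVec,
    Matrix.one_mulVec]

end Cfsg.Agent.Helper84
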