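import Mathlib

/-!
CALL C3O (helper43), piece FC: `n ^ ((q ^ m - 1) / 2) = -1` for a nonsquare `n` and odd `m`.
-/

set_option autoImplicit false

namespace Cfsg.Agent.Helper84

open Matrix Module Polynomial

universe u

theorem c3o_fc_geom (q m : ℕ) (hq : 1 ≤ q) : (q - 1) * (∑ i ∈ Finset.range m, q ^ i) + 1 = q ^ m := by
  induction m with
  | zero => simp
  | succ m ih =>
    rw [Finset.sum_range_succ, mul_add, pow_succ]
    obtain ⟨t, rfl⟩ : ∃ t, q = t + 1 := ⟨q - 1, by omega⟩
    simp only [Nat.add_sub_cancel] at ih ⊢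
    nlinarith [ih]

/-- PIECE FC -/
theorem c3o_fc {F : Type*} [Field F] [Fintype F] (hodd : Odd (Fintype.card F)) (n : F)
    (hn : ¬ IsSquare n) (m : ℕ) (hm : Odd m) : n ^ ((Fintype.card F ^ m - 1) / 2) = -1 := by
  set q := Fintype.card F with hq
  have hn0 : n ≠ 0 := by
    rintro rfl
    exact hn ⟨0, by simp⟩
  have hchar : ringChar F ≠ 2 := by
    intro h
    have := FiniteField.even_card_iff_char_two.mp h
    rw [← hq] at this
    obtain ⟨t, ht⟩ := hodd
    omega
  have h1 : n ^ (q / 2) = -1 := by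
    rcases FiniteField.pow_dichotomy hchar hn0 with h | h
    · exact absurd ((FiniteField.isSquare_iff hchar hn0).mpr h) hn
    · exact h
  obtain ⟨t, ht⟩ := hodd
  have hq1 : 1 ≤ q := by omega
  have hgeo := c3o_fc_geom q m hq1
  set S := ∑ i ∈ Finset.range m, q ^ i with hS
  have hSodd : Odd S := by
    rw [hS, Finset.odd_sum_iff_odd_card_odd]
    have : (Finset.range m).filter (fun i => Odd (q ^ i)) = Finset.range m := by
      apply Finset.filter_true_of_mem
      intro i _
      exact Odd.pow ⟨t, ht⟩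
    rw [this, Finset.card_range]
    exact hm
  have hexp : (q ^ m - 1) / 2 = (q / 2) * S := by
    have h2 : q - 1 = 2 * (q / 2) := by omega
    rw [h2] at hgeo
    have h3 : q ^ m - 1 = 2 * ((q / 2) * S) := by
      have : 2 * (q / 2) * S + 1 = q ^ m := hgeo
      rw [← this]
      simp [Nat.mul_assoc]
    rw [h3, Nat.mul_div_cancel_left _ (by norm_num : 0 < 2)]
  rw [hexp, pow_mul, h1]
  exact Odd.neg_one_pow hSodd

end Cfsg.Agent.Helper84
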