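import Mathlib

/-!
CALL C3O (helper43), piece RANK1: a matrix with nonsquare scalar square commutes with no rank one
matrix.
-/

set_option autoImplicit false

namespace Cfsg.Agent.Helper84

open Matrix Module Polynomial

universe u

/-- PIECE RANK1 -/
theorem c3o_rank1 {F : Type*} [Field F] {ι : Type*} [Fintype ι] [DecidableEq ι] (n : F)
    (hn : ¬ IsSquare n) (J : Matrix ι ι F) (hJ : J * J = n • (1 : Matrix ι ι F)) (e φ : ι → F)
    (he : e ≠ 0) (hφ : φ ≠ 0) (hc : J * Matrix.vecMulVec e φ = Matrix.vecMulVec e φ * J) :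
    False := by
  obtain ⟨j, hj⟩ : ∃ j, φ j ≠ 0 := by
    by_contra h
    push Not at h
    exact hφ (funext h)
  obtain ⟨i₀, hi₀⟩ : ∃ i, e i ≠ 0 := by
    by_contra h
    push Not at h
    exact he (funext h)
  have h1 : ∀ i, (J *ᵥ e) i * φ j = e i * (φ ᵥ* J) j := by
    intro i
    have := congrFun (congrFun hc i) j
    rw [Matrix.mul_apply, Matrix.mul_apply] at this
    simp only [Matrix.vecMulVec_apply] at this
    rw [Matrix.mulVec, dotProduct, Finset.sum_mul, Matrix.vecMul, dotProduct, Finset.mul_sum]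
    calc ∑ k, J i k * e k * φ j = ∑ k, J i k * (e k * φ j) := by
          apply Finset.sum_congr rfl; intro k _; ring
      _ = ∑ k, e i * φ k * J k j := this
      _ = ∑ k, e i * (φ k * J k j) := by
          apply Finset.sum_congr rfl; intro k _; ring
  set c : F := (φ ᵥ* J) j / φ j with hcdef
  have h2 : J *ᵥ e = c • e := by
    funext i
    rw [Pi.smul_apply, smul_eq_mul, hcdef]
    field_simp
    rw [h1 i]
    ring
  have h3 : J *ᵥ (J *ᵥ e) = n • e := by
    rw [Matrix.mulVec_mulVec, hJ, Matrix.smul_mulVec, Matrix.one_mulVec]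
  rw [h2, Matrix.mulVec_smul, h2, smul_smul] at h3
  have h4 := congrFun h3 i₀
  rw [Pi.smul_apply, Pi.smul_apply, smul_eq_mul, smul_eq_mul] at h4
  have h5 : c * c = n := mul_right_cancel₀ hi₀ h4
  exact hn ⟨c, h5.symm⟩

end Cfsg.Agent.Helper84
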