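import Mathlib
import Cfsg.Agent.Helper44.SPCDefs

set_option autoImplicit false

namespace Cfsg.Agent.Helper84.SPCLEVI

open Matrix Cfsg.Agent.Helper21.JCent Cfsg.Agent.Helper44.UC Cfsg.Agent.Helper44.SPC

/-- LEVI: every family of blocks is realised in the centraliser of the shift. -/
theorem spc_levi {F : Type*} [Field F] {t : ℕ} (d : Fin t → ℕ) (hd : ∀ k, 1 ≤ d k)
    (g : ∀ i : Fin (Finset.univ.sup d + 1),
      Matrix {x : Fin t // dd d x = i} {x : Fin t // dd d x = i} F) :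
    ∃ c : Matrix ((k : Fin t) × Fin (d k)) ((k : Fin t) × Fin (d k)) F,
      c * nilp F d = nilp F d * c ∧ ∀ i, tb d hd i c = g i := by
  classical
  let c0 : ((k : Fin t) × Fin (d k)) → Fin t → F := fun p k =>
    if h : (p.2 : ℕ) = 0 ∧ dd d k = dd d p.1 then g (dd d p.1) ⟨p.1, rfl⟩ ⟨k, h.2⟩ else 0
  refine ⟨toMat d c0, toMat_comm d c0 ?_, ?_⟩
  · intro p k hlt
    have hn : ¬ ((p.2 : ℕ) = 0 ∧ dd d k = dd d p.1) := by
      rintro ⟨h1, h2⟩
      have h3 : d k = d p.1 := congrArg Fin.val h2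
      omega
    simp only [c0]
    rw [dif_neg hn]
  · intro i
    ext ⟨l, hl⟩ ⟨k, hk⟩
    subst hl
    rw [tb_apply]
    simp only [toMat, Matrix.of_apply, c0]
    rw [dif_pos (le_refl _), dif_pos ⟨by simp, hk⟩]

end Cfsg.Agent.Helper84.SPCLEVI
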