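import Mathlib
import Cfsg.Agent.Helper44.SPCDefs

set_option autoImplicit false

namespace Cfsg.Agent.Helper84.SPCTBMUL

open Matrix Cfsg.Agent.Helper21.JCent Cfsg.Agent.Helper44.UC Cfsg.Agent.Helper44.SPC

/-- TBMUL: the diagonal blocks are multiplicative on the centraliser of the shift. -/
theorem spc_tbmul {F : Type*} [Field F] {t : ℕ} (d : Fin t → ℕ) (hd : ∀ k, 1 ≤ d k)
    (i : Fin (Finset.univ.sup d + 1))
    (X Y : Matrix ((k : Fin t) × Fin (d k)) ((k : Fin t) × Fin (d k)) F)
    (hX : X * nilp F d = nilp F d * X) (hY : Y * nilp F d = nilp F d * Y) :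
    tb d hd i (X * Y) = tb d hd i X * tb d hd i Y := by
  classical
  ext l k
  have h1 : tb d hd i (X * Y) l k = (topMat d hd X * topMat d hd Y) l.1 k.1 := by
    rw [← topMat_mul d hd X Y hX]
    rfl
  rw [h1, Matrix.mul_apply, Matrix.mul_apply]
  have hl : d l.1 = (i : ℕ) := congrArg Fin.val l.2
  have hk : d k.1 = (i : ℕ) := congrArg Fin.val k.2
  have h2 : ∑ m : {x : Fin t // dd d x = i}, tb d hd i X l m * tb d hd i Y m k
      = ∑ m ∈ Finset.univ.filter (fun x : Fin t => dd d x = i),
          topMat d hd X l.1 m * topMat d hd Y m k.1 := by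
    rw [Finset.sum_subtype (p := fun x : Fin t => dd d x = i)
      (Finset.univ.filter (fun x : Fin t => dd d x = i)) (fun x => by simp)
      (fun m => topMat d hd X l.1 m * topMat d hd Y m k.1)]
    rfl
  rw [h2, Finset.sum_filter]
  refine Finset.sum_congr rfl fun m _ => ?_
  split_ifs with hm
  · rfl
  · have hne : d m ≠ (i : ℕ) := fun h => hm (Fin.ext h)
    rcases Nat.lt_or_gt_of_ne hne with h | h
    · rw [topMat_zero_of_lt d hd X hX l.1 m (by omega), zero_mul]
    · rw [topMat_zero_of_lt d hd Y hY m k.1 (by omega), mul_zero]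

end Cfsg.Agent.Helper84.SPCTBMUL
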