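import Mathlib
import Cfsg.Agent.Helper44.SPCDefs

set_option autoImplicit false

namespace Cfsg.Agent.Helper84.SPCTBUNIT

open Matrix Cfsg.Agent.Helper21.JCent Cfsg.Agent.Helper44.UC Cfsg.Agent.Helper44.SPC

/-- TBUNIT: invertibility in the centraliser of the shift. -/
theorem spc_tbunit {F : Type*} [Field F] {t : ℕ} (d : Fin t → ℕ) (hd : ∀ k, 1 ≤ d k)
    (X : Matrix ((k : Fin t) × Fin (d k)) ((k : Fin t) × Fin (d k)) F)
    (hX : X * nilp F d = nilp F d * X) :
    IsUnit X.det ↔ ∀ i, IsUnit (tb d hd i X).det := by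
  classical
  have hbt : (topMat d hd X).BlockTriangular (dd d) := by
    intro l k hlk
    have hlt : d k < d l := hlk
    exact topMat_zero_of_lt d hd X hX l k hlt
  have htb : ∀ i, tb d hd i X = (topMat d hd X).toSquareBlock (dd d) i := fun i => rfl
  rw [isUnit_det_iff d hd X hX, hbt.det_fintype, isUnit_iff_ne_zero, Finset.prod_ne_zero_iff]
  constructor
  · intro h i
    rw [isUnit_iff_ne_zero, htb]
    exact h i (Finset.mem_univ i)
  · intro h i _
    have := h i
    rw [isUnit_iff_ne_zero, htb] at this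
    exact this

end Cfsg.Agent.Helper84.SPCTBUNIT
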