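import Mathlib
import Cfsg.Agent.Helper44.SPCDefs
import Cfsg.Agent.Helper84.SPCTBMUL
import Cfsg.Agent.Helper84.SPCTBUNIT

set_option autoImplicit false

namespace Cfsg.Agent.Helper84.SPCRADNIL

open Matrix Cfsg.Agent.Helper21.JCent Cfsg.Agent.Helper44.UC Cfsg.Agent.Helper44.SPC

theorem radnil_comm_aeval {F : Type*} [Field F] {A : Type*} [Ring A] [Algebra F A] (n z : A)
    (h : z * n = n * z) (f : Polynomial F) :
    Polynomial.aeval z f * n = n * Polynomial.aeval z f := by
  have hc : Commute z n := h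
  induction f using Polynomial.induction_on' with
  | add p q hp hq => rw [map_add, add_mul, mul_add, hp, hq]
  | monomial k a =>
    rw [Polynomial.aeval_monomial]
    exact ((Algebra.commute_algebraMap_left a n).mul_left (hc.pow_left k)).eq

theorem radnil_tb_add {F : Type*} [Field F] {t : ℕ} (d : Fin t → ℕ) (hd : ∀ k, 1 ≤ d k)
    (i : Fin (Finset.univ.sup d + 1))
    (X Y : Matrix ((k : Fin t) × Fin (d k)) ((k : Fin t) × Fin (d k)) F) :
    tb d hd i (X + Y) = tb d hd i X + tb d hd i Y := rfl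

theorem radnil_tb_smul {F : Type*} [Field F] {t : ℕ} (d : Fin t → ℕ) (hd : ∀ k, 1 ≤ d k)
    (i : Fin (Finset.univ.sup d + 1)) (a : F)
    (X : Matrix ((k : Fin t) × Fin (d k)) ((k : Fin t) × Fin (d k)) F) :
    tb d hd i (a • X) = a • tb d hd i X := rfl

theorem radnil_tb_one {F : Type*} [Field F] {t : ℕ} (d : Fin t → ℕ) (hd : ∀ k, 1 ≤ d k)
    (i : Fin (Finset.univ.sup d + 1)) :
    tb d hd i (1 : Matrix ((k : Fin t) × Fin (d k)) ((k : Fin t) × Fin (d k)) F) = 1 := by
  ext l k
  rw [tb_apply, Matrix.one_apply, Matrix.one_apply]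
  by_cases h : l = k
  · subst h; simp
  · rw [if_neg h, if_neg]
    intro h'
    exact h (Subtype.ext (congrArg Sigma.fst h'))

/-- RADNIL: an element of the centraliser of the shift with vanishing diagonal blocks is
nilpotent. -/
theorem spc_radnil {F : Type*} [Field F] {t : ℕ} (d : Fin t → ℕ) (hd : ∀ k, 1 ≤ d k)
    (z : Matrix ((k : Fin t) × Fin (d k)) ((k : Fin t) × Fin (d k)) F)
    (hz : z * nilp F d = nilp F d * z) (h0 : ∀ i, tb d hd i z = 0) : IsNilpotent z := by
  classical
  have hμ0 : z.charpoly ≠ 0 := (Matrix.charpoly_monic z).ne_zero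
  have hann : Polynomial.aeval z z.charpoly = 0 := Matrix.aeval_self_charpoly z
  obtain ⟨g, hg, hndvd⟩ :=
    Polynomial.exists_eq_pow_rootMultiplicity_mul_and_not_dvd z.charpoly hμ0 (0 : F)
  have hg0 : g.coeff 0 ≠ 0 := by
    intro h0'
    apply hndvd
    rw [Polynomial.C_0, sub_zero]
    exact Polynomial.X_dvd_iff.mpr h0'
  have hgd : g = g.divX * Polynomial.X + Polynomial.C (g.coeff 0) :=
    (Polynomial.divX_mul_X_add g).symm
  set w := Polynomial.aeval z g.divX with hw
  have hwz : Polynomial.aeval z g = w * z + (g.coeff 0) • 1 := by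
    conv_lhs => rw [hgd]
    rw [map_add, map_mul, Polynomial.aeval_X, Polynomial.aeval_C, Algebra.algebraMap_eq_smul_one]
  have hwN : w * nilp F d = nilp F d * w := radnil_comm_aeval (nilp F d) z hz g.divX
  have hcomm : (w * z + g.coeff 0 • 1) * nilp F d = nilp F d * (w * z + g.coeff 0 • 1) := by
    rw [add_mul, mul_add, mul_assoc, hz, ← mul_assoc, hwN, mul_assoc]
    simp
  have hunit : IsUnit (w * z + g.coeff 0 • (1 : Matrix _ _ F)).det := by
    rw [SPCTBUNIT.spc_tbunit d hd _ hcomm]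
    intro i
    have h5 : tb d hd i (w * z + g.coeff 0 • 1) = g.coeff 0 • 1 := by
      rw [radnil_tb_add, SPCTBMUL.spc_tbmul d hd i w z hwN hz, h0 i, mul_zero, zero_add,
        radnil_tb_smul, radnil_tb_one]
    rw [h5, Matrix.det_smul, Matrix.det_one, mul_one]
    exact isUnit_iff_ne_zero.mpr (pow_ne_zero _ hg0)
  refine ⟨z.charpoly.rootMultiplicity 0, ?_⟩
  have h3 : z ^ (z.charpoly.rootMultiplicity 0) * (w * z + g.coeff 0 • 1) = 0 := by
    rw [← hwz, ← hann]
    conv_rhs => rw [hg]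
    simp
  have h4 := congrArg (· * (w * z + g.coeff 0 • 1)⁻¹) h3
  simp only [zero_mul] at h4
  rwa [mul_assoc, Matrix.mul_nonsing_inv _ hunit, mul_one] at h4

end Cfsg.Agent.Helper84.SPCRADNIL
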