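import Mathlib
import Cfsg.Agent.Helper44.SPUDefs

set_option autoImplicit false
open Classical

namespace Cfsg.Agent.Helper84.SPUPCOUNT

open Matrix Cfsg.Agent.Helper44.SPU

variable {F : Type*} [Field F] [Fintype F] {m : ℕ}

/-- PCOUNT: counting `p`-elements through a surjection with `p`-group kernel. -/
theorem spu_pcount {G H : Type*} [Group G] [Group H] [Finite G] (π : G →* H)
    (hπ : Function.Surjective π) (p : ℕ) [Fact p.Prime] (e : ℕ) (hker : Nat.card π.ker = p ^ e) :
    Nat.card {g : G // ∃ j : ℕ, orderOf g = p ^ j} =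
      Nat.card π.ker * Nat.card {h : H // ∃ j : ℕ, orderOf h = p ^ j} := by
  have hp := (Fact.out : p.Prime)
  have key : ∀ g : G, (∃ j : ℕ, orderOf g = p ^ j) ↔ (∃ j : ℕ, orderOf (π g) = p ^ j) := by
    intro g
    constructor
    · rintro ⟨j, hj⟩
      have h1 : orderOf (π g) ∣ p ^ j := hj ▸ orderOf_map_dvd π g
      obtain ⟨i, -, hi⟩ := (Nat.dvd_prime_pow hp).mp h1
      exact ⟨i, hi⟩
    · rintro ⟨j, hj⟩
      have h1 : g ^ (p ^ j) ∈ π.ker := by
        rw [MonoidHom.mem_ker, map_pow, ← hj, pow_orderOf_eq_one]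
      have h2 : (g ^ (p ^ j)) ^ (p ^ e) = 1 := by
        have h3 := pow_card_eq_one' (G := π.ker) (x := ⟨g ^ (p ^ j), h1⟩)
        rw [hker] at h3
        exact congrArg Subtype.val h3
      rw [← pow_mul, ← pow_add] at h2
      obtain ⟨i, -, hi⟩ := (Nat.dvd_prime_pow hp).mp (orderOf_dvd_of_pow_eq_one h2)
      exact ⟨i, hi⟩
  choose s hs using hπ
  have eqv : {g : G // ∃ j : ℕ, orderOf g = p ^ j} ≃
      π.ker × {h : H // ∃ j : ℕ, orderOf h = p ^ j} :=
    { toFun := fun g => (⟨(s (π g.1))⁻¹ * g.1, by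
          rw [MonoidHom.mem_ker, map_mul, map_inv, hs, inv_mul_cancel]⟩,
        ⟨π g.1, (key g.1).mp g.2⟩)
      invFun := fun x => ⟨s x.2.1 * x.1.1, (key _).mpr (by
          have h0 : π (s x.2.1 * x.1.1) = x.2.1 := by
            rw [map_mul, hs, MonoidHom.mem_ker.mp x.1.2, mul_one]
          rw [h0]
          exact x.2.2)⟩
      left_inv := by
        rintro ⟨g, hg⟩
        apply Subtype.ext
        show s (π g) * ((s (π g))⁻¹ * g) = g
        group
      right_inv := by
        rintro ⟨⟨k, hk⟩, ⟨h, hh⟩⟩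
        have h1 : π (s h * k) = h := by rw [map_mul, hs, MonoidHom.mem_ker.mp hk, mul_one]
        apply Prod.ext
        · apply Subtype.ext
          show (s (π (s h * k)))⁻¹ * (s h * k) = k
          rw [h1]
          group
        · apply Subtype.ext
          exact h1 }
  rw [Nat.card_congr eqv, Nat.card_prod]

end Cfsg.Agent.Helper84.SPUPCOUNT
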