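import Mathlib
import Cfsg.Agent.Helper44.UCDefs
import Cfsg.Agent.S2587
import Cfsg.Agent.S2581
import Cfsg.Agent.Helper44.UnitaryOrder

set_option autoImplicit false

/-!
CALL S2646 (helper44), piece TRANSC: the centralisers in `GL` of conjugate matrices.
-/

namespace Cfsg.Agent.Helper84.UCTRANSC

open Matrix Cfsg.Agent.Helper21.JCent Cfsg.Agent.Helper44.UC

/-- TRANSC: the centralisers in `GL` of conjugate matrices. -/
theorem uc_transc {K : Type*} [Field K] {n t : ℕ} (d : Fin t → ℕ)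
    (e : ((k : Fin t) × Fin (d k)) ≃ Fin n) (u : GL (Fin n) K)
    (hu : IsConj (Matrix.reindex e e (Cfsg.jordanTypeMatrix d K))
      (u : Matrix (Fin n) (Fin n) K)) :
    Nat.card {g : GL (Fin n) K // g * u = u * g}
      = Nat.card {g : GL ((k : Fin t) × Fin (d k)) K //
          (g : Matrix ((k : Fin t) × Fin (d k)) ((k : Fin t) × Fin (d k)) K)
              * Cfsg.jordanTypeMatrix d K
            = Cfsg.jordanTypeMatrix d K
              * (g : Matrix ((k : Fin t) × Fin (d k)) ((k : Fin t) × Fin (d k)) K)} := by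
  obtain ⟨c, hc⟩ := hu
  have hc' : (c : Matrix (Fin n) (Fin n) K) * Matrix.reindex e e (Cfsg.jordanTypeMatrix d K)
      = (u : Matrix (Fin n) (Fin n) K) * (c : Matrix (Fin n) (Fin n) K) := hc
  -- the multiplicative equivalence given by reindexing
  let R : Matrix (Fin n) (Fin n) K ≃* Matrix ((k : Fin t) × Fin (d k)) ((k : Fin t) × Fin (d k)) K :=
    (Matrix.reindexAlgEquiv K K e.symm).toRingEquiv.toMulEquiv
  let E : GL (Fin n) K ≃* GL ((k : Fin t) × Fin (d k)) K := Units.mapEquiv R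
  have hEval : ∀ x : GL (Fin n) K,
      ((E x : GL ((k : Fin t) × Fin (d k)) K) :
        Matrix ((k : Fin t) × Fin (d k)) ((k : Fin t) × Fin (d k)) K)
        = R (x : Matrix (Fin n) (Fin n) K) := fun x => rfl
  -- the conjugate of `u`
  let u' : GL (Fin n) K := c⁻¹ * u * c
  have hu' : (u' : Matrix (Fin n) (Fin n) K) = Matrix.reindex e e (Cfsg.jordanTypeMatrix d K) := by
    have h1 : ((c⁻¹ * u * c : GL (Fin n) K) : Matrix (Fin n) (Fin n) K)
        = ((c⁻¹ : GL (Fin n) K) : Matrix (Fin n) (Fin n) K)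
          * ((u : Matrix (Fin n) (Fin n) K) * (c : Matrix (Fin n) (Fin n) K)) := by
      rw [Units.val_mul, Units.val_mul, mul_assoc]
    show ((c⁻¹ * u * c : GL (Fin n) K) : Matrix (Fin n) (Fin n) K) = _
    rw [h1, ← hc', ← mul_assoc, ← Units.val_mul, inv_mul_cancel, Units.val_one, one_mul]
  have hJ : ((E u' : GL ((k : Fin t) × Fin (d k)) K) :
        Matrix ((k : Fin t) × Fin (d k)) ((k : Fin t) × Fin (d k)) K)
      = Cfsg.jordanTypeMatrix d K := by
    rw [hEval, hu']
    show (Matrix.reindexAlgEquiv K K e.symm) (Matrix.reindex e e (Cfsg.jordanTypeMatrix d K)) = _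
    ext i j
    simp [Matrix.coe_reindexAlgEquiv, Matrix.reindex_apply]
  have key1 : ∀ g : GL (Fin n) K, g * u = u * g →
      ((E (c⁻¹ * g * c) : GL ((k : Fin t) × Fin (d k)) K) :
        Matrix ((k : Fin t) × Fin (d k)) ((k : Fin t) × Fin (d k)) K)
          * Cfsg.jordanTypeMatrix d K
        = Cfsg.jordanTypeMatrix d K
          * ((E (c⁻¹ * g * c) : GL ((k : Fin t) × Fin (d k)) K) :
        Matrix ((k : Fin t) × Fin (d k)) ((k : Fin t) × Fin (d k)) K) := by
    intro g hg
    have h2 : (c⁻¹ * g * c) * u' = u' * (c⁻¹ * g * c) := by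
      show (c⁻¹ * g * c) * (c⁻¹ * u * c) = (c⁻¹ * u * c) * (c⁻¹ * g * c)
      calc (c⁻¹ * g * c) * (c⁻¹ * u * c) = c⁻¹ * (g * u) * c := by group
        _ = c⁻¹ * (u * g) * c := by rw [hg]
        _ = (c⁻¹ * u * c) * (c⁻¹ * g * c) := by group
    have h3 : E (c⁻¹ * g * c) * E u' = E u' * E (c⁻¹ * g * c) := by
      rw [← map_mul, ← map_mul, h2]
    have h4 := congrArg Units.val h3
    rw [Units.val_mul, Units.val_mul, hJ] at h4
    exact h4
  have key2 : ∀ g' : GL ((k : Fin t) × Fin (d k)) K,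
      (g' : Matrix ((k : Fin t) × Fin (d k)) ((k : Fin t) × Fin (d k)) K)
          * Cfsg.jordanTypeMatrix d K
        = Cfsg.jordanTypeMatrix d K
          * (g' : Matrix ((k : Fin t) × Fin (d k)) ((k : Fin t) × Fin (d k)) K) →
      (c * E.symm g' * c⁻¹) * u = u * (c * E.symm g' * c⁻¹) := by
    intro g' hg'
    have h1 : g' * E u' = E u' * g' := by
      apply Units.ext
      rw [Units.val_mul, Units.val_mul, hJ]
      exact hg'
    have h2 : E.symm g' * u' = u' * E.symm g' := by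
      have := congrArg E.symm h1
      simpa only [map_mul, MulEquiv.symm_apply_apply] using this
    have h3 : E.symm g' * (c⁻¹ * u * c) = (c⁻¹ * u * c) * E.symm g' := h2
    calc (c * E.symm g' * c⁻¹) * u = c * (E.symm g' * (c⁻¹ * u * c)) * c⁻¹ := by group
      _ = c * ((c⁻¹ * u * c) * E.symm g') * c⁻¹ := by rw [h3]
      _ = u * (c * E.symm g' * c⁻¹) := by group
  apply Nat.card_congr
  refine
    { toFun := fun g => ⟨E (c⁻¹ * g.1 * c), key1 g.1 g.2⟩
      invFun := fun g' => ⟨c * E.symm g'.1 * c⁻¹, key2 g'.1 g'.2⟩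
      left_inv := ?_
      right_inv := ?_ }
  · intro g
    apply Subtype.ext
    show c * E.symm (E (c⁻¹ * g.1 * c)) * c⁻¹ = g.1
    rw [MulEquiv.symm_apply_apply]
    group
  · intro g'
    apply Subtype.ext
    show E (c⁻¹ * (c * E.symm g'.1 * c⁻¹) * c) = g'.1
    have : c⁻¹ * (c * E.symm g'.1 * c⁻¹) * c = E.symm g'.1 := by group
    rw [this, MulEquiv.apply_symm_apply]

end Cfsg.Agent.Helper84.UCTRANSC
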