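import Mathlib
import Cfsg.Agent.Helper44.UCDefs
import Cfsg.Agent.S2587
import Cfsg.Agent.S2581
import Cfsg.Agent.Helper44.UnitaryOrder

set_option autoImplicit false

/-!
CALL S2646 (helper44), piece TRANSF: the invariant forms of conjugate matrices.
-/

namespace Cfsg.Agent.Helper84.UCTRANSF

open Matrix Cfsg.Agent.Helper21.JCent Cfsg.Agent.Helper44.UC

/-- transport of an invariant form along `c * N = M * c` -/
theorem tf_mem {K : Type*} [Field K] [Fintype K] {q : ℕ} (hK : Fintype.card K = q ^ 2)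
    {ι : Type*} [Fintype ι] [DecidableEq ι] (M N c : Matrix ι ι K) (hc : IsUnit c.det)
    (h : c * N = M * c) (H : Matrix ι ι K) (hH : H ∈ invForms q M) :
    hT q c * H * c ∈ invForms q N := by
  obtain ⟨h1, h2, h3⟩ := hH
  refine ⟨?_, ?_, ?_⟩
  · rw [Matrix.det_mul, Matrix.det_mul]
    exact ((isUnit_det_hT hK c hc).mul h1).mul hc
  · rw [hT_mul hK, hT_mul hK, hT_hT hK, h2, Matrix.mul_assoc]
  · calc hT q N * (hT q c * H * c) * N = hT q (c * N) * H * (c * N) := by
          rw [hT_mul hK]
          simp only [Matrix.mul_assoc]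
      _ = hT q (M * c) * H * (M * c) := by rw [h]
      _ = hT q c * (hT q M * H * M) * c := by
          rw [hT_mul hK]
          simp only [Matrix.mul_assoc]
      _ = hT q c * H * c := by rw [h3]

theorem tf_inj {K : Type*} [Field K] [Fintype K] {q : ℕ} (hK : Fintype.card K = q ^ 2)
    {ι : Type*} [Fintype ι] [DecidableEq ι] (c : Matrix ι ι K) (hc : IsUnit c.det)
    (H H' : Matrix ι ι K) (h : hT q c * H * c = hT q c * H' * c) : H = H' := by
  have hc' := isUnit_det_hT hK c hc
  have e1 : ∀ X : Matrix ι ι K, (hT q c)⁻¹ * (hT q c * X * c) * c⁻¹ = X := by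
    intro X
    rw [Matrix.mul_assoc (hT q c) X c, Matrix.nonsing_inv_mul_cancel_left _ _ hc',
      Matrix.mul_nonsing_inv_cancel_right _ _ hc]
  rw [← e1 H, ← e1 H', h]

/-- conjugate matrices have equally many invariant forms -/
theorem tf_conj {K : Type*} [Field K] [Fintype K] {q : ℕ} (hK : Fintype.card K = q ^ 2)
    {ι : Type*} [Fintype ι] [DecidableEq ι] (M N c : Matrix ι ι K) (hc : IsUnit c.det)
    (h : c * N = M * c) :
    Nat.card ↥(invForms q M) = Nat.card ↥(invForms q N) := by
  have hcinv : IsUnit (c⁻¹).det := Matrix.isUnit_nonsing_inv_det _ hc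
  have h' : c⁻¹ * M = N * c⁻¹ := by
    have : c⁻¹ * (M * c) * c⁻¹ = c⁻¹ * (c * N) * c⁻¹ := by rw [h]
    rw [Matrix.nonsing_inv_mul_cancel_left _ _ hc, ← Matrix.mul_assoc,
      Matrix.mul_nonsing_inv_cancel_right _ _ hc] at this
    exact this
  apply le_antisymm
  · apply Nat.card_le_card_of_injective
      (fun H : ↥(invForms q M) => (⟨hT q c * H.1 * c, tf_mem hK M N c hc h H.1 H.2⟩ : ↥(invForms q N)))
    intro H H' hHH
    apply Subtype.ext
    exact tf_inj hK c hc _ _ (congrArg Subtype.val hHH)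
  · apply Nat.card_le_card_of_injective
      (fun H : ↥(invForms q N) =>
        (⟨hT q c⁻¹ * H.1 * c⁻¹, tf_mem hK N M c⁻¹ hcinv h' H.1 H.2⟩ : ↥(invForms q M)))
    intro H H' hHH
    apply Subtype.ext
    exact tf_inj hK c⁻¹ hcinv _ _ (congrArg Subtype.val hHH)

theorem tf_reindex_mem {K : Type*} [Field K] [Fintype K] {q : ℕ} (hK : Fintype.card K = q ^ 2)
    {ι κ : Type*} [Fintype ι] [DecidableEq ι] [Fintype κ] [DecidableEq κ] (e : ι ≃ κ)
    (J : Matrix ι ι K) (H : Matrix ι ι K) (hH : H ∈ invForms q J) :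
    Matrix.reindex e e H ∈ invForms q (Matrix.reindex e e J) := by
  obtain ⟨h1, h2, h3⟩ := hH
  refine ⟨?_, ?_, ?_⟩
  · rw [Matrix.det_reindex_self]
    exact h1
  · rw [hT_reindex hK, h2]
  · rw [hT_reindex hK]
    have : Matrix.reindex e e (hT q J) * Matrix.reindex e e H * Matrix.reindex e e J
        = Matrix.reindex e e (hT q J * H * J) := by
      simp only [Matrix.reindex_apply, Matrix.submatrix_mul_equiv]
    rw [this, h3]

/-- reindexing does not change the number of invariant forms -/
theorem tf_reindex {K : Type*} [Field K] [Fintype K] {q : ℕ} (hK : Fintype.card K = q ^ 2)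
    {ι κ : Type*} [Fintype ι] [DecidableEq ι] [Fintype κ] [DecidableEq κ] (e : ι ≃ κ)
    (J : Matrix ι ι K) :
    Nat.card ↥(invForms q (Matrix.reindex e e J)) = Nat.card ↥(invForms q J) := by
  apply le_antisymm
  · apply Nat.card_le_card_of_injective
      (fun H : ↥(invForms q (Matrix.reindex e e J)) =>
        (⟨Matrix.reindex e.symm e.symm H.1, by
          have := tf_reindex_mem hK e.symm (Matrix.reindex e e J) H.1 H.2
          have h2 : Matrix.reindex e.symm e.symm (Matrix.reindex e e J) = J := by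
            ext i j
            simp [Matrix.reindex_apply]
          rw [h2] at this
          exact this⟩ : ↥(invForms q J)))
    intro H H' hHH
    apply Subtype.ext
    exact (Matrix.reindex e.symm e.symm).injective (congrArg Subtype.val hHH)
  · apply Nat.card_le_card_of_injective
      (fun H : ↥(invForms q J) =>
        (⟨Matrix.reindex e e H.1, tf_reindex_mem hK e J H.1 H.2⟩ : ↥(invForms q (Matrix.reindex e e J))))
    intro H H' hHH
    apply Subtype.ext
    exact (Matrix.reindex e e).injective (congrArg Subtype.val hHH)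

/-- TRANSF: the invariant forms of conjugate matrices (`H ↦ hT c * H * c`, with `reindex`). -/
theorem uc_transf {K : Type*} [Field K] [Fintype K] {q n t : ℕ} (hK : Fintype.card K = q ^ 2)
    (d : Fin t → ℕ) (e : ((k : Fin t) × Fin (d k)) ≃ Fin n) (A : Matrix (Fin n) (Fin n) K)
    (hA : IsConj (Matrix.reindex e e (Cfsg.jordanTypeMatrix d K)) A) :
    Nat.card ↥(invForms q A) = Nat.card ↥(invForms q (Cfsg.jordanTypeMatrix d K)) := by
  obtain ⟨c, hc⟩ := hA
  have hc' : (c : Matrix (Fin n) (Fin n) K) * Matrix.reindex e e (Cfsg.jordanTypeMatrix d K)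
      = A * (c : Matrix (Fin n) (Fin n) K) := hc
  have hcu : IsUnit (c : Matrix (Fin n) (Fin n) K).det :=
    (Matrix.isUnit_iff_isUnit_det _).mp c.isUnit
  rw [tf_conj hK A (Matrix.reindex e e (Cfsg.jordanTypeMatrix d K)) c hcu hc',
    tf_reindex hK e]

end Cfsg.Agent.Helper84.UCTRANSF
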