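import Mathlib
import Cfsg.Agent.Helper65.SUGDefs

set_option autoImplicit false

namespace Cfsg.Agent.Helper84

open Matrix
open Cfsg.Agent.Helper5 (frobQ frobQ_apply frobQ_frobQ)
open Cfsg.Agent.Helper13
open Cfsg.Agent.Helper65

variable {F : Type*} [Field F] [Fintype F] {q n : ℕ}

/-- EXT: the form on zero-extensions (`z` lives off the first `k` coordinates). -/
theorem sug_ext_herm (hF : Fintype.card F = q ^ 2) (k : ℕ) (hk : k ≤ n) (z : Fin n → F)
    (hz : ∀ i : Fin n, i.val < k → z i = 0) (x v : Fin k → F) :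
    Cfsg.hermForm n F q (sugExt k n x + z) (sugExt k n v) = Cfsg.hermForm k F q x v := by
  have hq : q ≠ 0 := by
    have := Cfsg.Agent.Helper5.herm_two_le hF
    omega
  obtain ⟨d, rfl⟩ := Nat.exists_eq_add_of_le hk
  unfold Cfsg.hermForm
  rw [Fin.sum_univ_add]
  have h2 : ∑ i : Fin d, (sugExt k (k + d) x + z) (Fin.natAdd k i) *
      sugExt k (k + d) v (Fin.natAdd k i) ^ q = 0 := by
    apply Finset.sum_eq_zero
    intro i _
    rw [sug_ext_apply_of_le k (k + d) v (Fin.natAdd k i) (by simp), zero_pow hq, mul_zero]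
  rw [h2, add_zero]
  refine Finset.sum_congr rfl fun i _ => ?_
  have h1 : sugExt k (k + d) x (Fin.castAdd d i) = x i := by
    unfold sugExt
    simp
  have h3 : sugExt k (k + d) v (Fin.castAdd d i) = v i := by
    unfold sugExt
    simp
  rw [Pi.add_apply, h1, h3, hz _ (by simp), add_zero]

end Cfsg.Agent.Helper84
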