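import Mathlib
import Cfsg.Agent.Helper65.SUGDefs

set_option autoImplicit false

namespace Cfsg.Agent.Helper84

open Matrix
open Cfsg.Agent.Helper5 (frobQ frobQ_apply frobQ_frobQ)
open Cfsg.Agent.Helper13
open Cfsg.Agent.Helper65

variable {F : Type*} [Field F] [Fintype F] {q n : ℕ}

/-- RT: the transvection group of `F^k` is transitive on the vectors of a given nonzero norm. -/
theorem sug_rt (hF : Fintype.card F = q ^ 2) (k : ℕ) (hk : 2 ≤ k) (hcase : 3 ≤ q ∨ 4 ≤ k)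
    (x y : Fin k → F) (hxy : Cfsg.hermForm k F q x x = Cfsg.hermForm k F q y y)
    (hx : Cfsg.hermForm k F q x x ≠ 0) : ∃ t ∈ utT k F q, uact t x = y := by
  obtain ⟨l, hl0, hl⟩ := ufld_exists_norm hF hx (uh_self_conj hF x)
  have hfl0 : frobQ hF l ≠ 0 := fun h => hl0 ((ufrob_eq_zero hF).1 h)
  have hx1 : Cfsg.hermForm k F q (l⁻¹ • x) (l⁻¹ • x) = 1 := by
    rw [uh_smul_left, uh_smul_right hF, ← hl, map_inv₀]
    field_simp
  have hy1 : Cfsg.hermForm k F q (l⁻¹ • y) (l⁻¹ • y) = 1 := by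
    rw [uh_smul_left, uh_smul_right hF, ← hxy, ← hl, map_inv₀]
    field_simp
  obtain ⟨t1, ht1, -, h1⟩ := utrans hF 0 (by omega) hcase (l⁻¹ • x)
    (fun i hi => absurd hi (Nat.not_lt_zero _)) hx1
  obtain ⟨t2, ht2, -, h2⟩ := utrans hF 0 (by omega) hcase (l⁻¹ • y)
    (fun i hi => absurd hi (Nat.not_lt_zero _)) hy1
  refine ⟨t2⁻¹ * t1, Subgroup.mul_mem _ (Subgroup.inv_mem _ ht2) ht1, ?_⟩
  have h3 : uact (t2⁻¹ * t1) (l⁻¹ • x) = l⁻¹ • y := by
    rw [uact_mul, h1, ← h2, uact_inv_uact]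
  rw [uact_smul] at h3
  have h4 := congrArg (fun w => l • w) h3
  simpa [smul_smul, hl0] using h4

end Cfsg.Agent.Helper84
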