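import Mathlib
import Cfsg.Prelude.Def_GeometricClasses
import Cfsg.Agent.Helper69.E4Def
import Cfsg.Agent.Helper40.SemisimpleMat
import Cfsg.Agent.Helper46.BGLIRR
import Cfsg.Agent.Helper73.E4NORMPOW

set_option autoImplicit false

namespace Cfsg.Agent.Helper84
open Cfsg.Agent.Helper69
open scoped Matrix
open Polynomial

/-- `1 + X + ⋯ + X^(r-1)` is irreducible over a finite field `F` when `|F|` has order `r - 1`
modulo the prime `r`. -/
theorem e4_cyclo_irreducible {F : Type*} [Field F] [Fintype F] (r : ℕ) [Fact r.Prime]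
    (hr : (r : F) ≠ 0) (hord : orderOf ((Fintype.card F : ℕ) : ZMod r) = r - 1) :
    Irreducible (∑ j ∈ Finset.range r, (X : F[X]) ^ j) := by
  have hrp : r.Prime := Fact.out
  have hmonic : (∑ j ∈ Finset.range r, (X : F[X]) ^ j).Monic := by
    obtain ⟨k, hk⟩ : ∃ k, r = k + 1 := ⟨r - 1, by have := hrp.one_lt; omega⟩
    rw [hk, Finset.sum_range_succ]
    apply Polynomial.Monic.add_of_right (monic_X_pow k)
    rw [degree_X_pow]
    refine lt_of_le_of_lt (degree_sum_le _ _) ?_
    rw [Finset.sup_lt_iff (by exact WithBot.bot_lt_coe k)]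
    intro j hj
    rw [degree_X_pow]
    exact_mod_cast Finset.mem_range.1 hj
  have hdeg : (∑ j ∈ Finset.range r, (X : F[X]) ^ j).natDegree = r - 1 := by
    obtain ⟨k, hk⟩ : ∃ k, r = k + 1 := ⟨r - 1, by have := hrp.one_lt; omega⟩
    rw [hk, Finset.sum_range_succ, Nat.add_sub_cancel]
    apply natDegree_eq_of_degree_eq_some
    rw [add_comm, degree_add_eq_left_of_degree_lt, degree_X_pow]
    rw [degree_X_pow]
    refine lt_of_le_of_lt (degree_sum_le _ _) ?_
    rw [Finset.sup_lt_iff (by exact WithBot.bot_lt_coe k)]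
    intro j hj
    rw [degree_X_pow]
    exact_mod_cast Finset.mem_range.1 hj
  have hnu : ¬ IsUnit (∑ j ∈ Finset.range r, (X : F[X]) ^ j) := by
    intro hu
    have h0 := natDegree_eq_zero_of_isUnit hu
    rw [hdeg] at h0
    have := hrp.one_lt
    omega
  obtain ⟨g, hg, hgd⟩ := WfDvdMonoid.exists_irreducible_factor hnu hmonic.ne_zero
  have hgdeg := Cfsg.Agent.Helper46.bgl_irr_factor_degree r hr g hg hgd
  rw [hord] at hgdeg
  obtain ⟨c, hc⟩ := hgd
  have hc0 : c ≠ 0 := by
    rintro rfl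
    rw [mul_zero] at hc
    exact hmonic.ne_zero hc
  have hcd : c.natDegree = 0 := by
    have h := congrArg natDegree hc
    rw [natDegree_mul hg.ne_zero hc0, hdeg, hgdeg] at h
    omega
  have hcu : IsUnit c := by
    rw [natDegree_eq_zero] at hcd
    obtain ⟨a, rfl⟩ := hcd
    have ha : a ≠ 0 := by
      rintro rfl
      exact hc0 (map_zero _)
    exact (isUnit_C).2 (isUnit_iff_ne_zero.2 ha)
  rw [hc]
  exact (irreducible_mul_isUnit hcu).2 hg

/-- a matrix of prime order `r` whose cyclotomic polynomial is irreducible of degree `n`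
has that polynomial as characteristic polynomial. -/
theorem e4_charpoly_of_pow {F : Type*} [Field F] {n : ℕ} (r : ℕ)
    (hirr : Irreducible (∑ j ∈ Finset.range r, (X : F[X]) ^ j))
    (hmonic : (∑ j ∈ Finset.range r, (X : F[X]) ^ j).Monic)
    (hdeg : (∑ j ∈ Finset.range r, (X : F[X]) ^ j).natDegree = n)
    (A : Matrix (Fin n) (Fin n) F) (hA : A ^ r = 1) (hA1 : A ≠ 1) :
    A.charpoly = ∑ j ∈ Finset.range r, (X : F[X]) ^ j := by
  have hdvd : (∑ j ∈ Finset.range r, (X : F[X]) ^ j) ∣ minpoly F A := by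
    by_contra hnd
    have hcop : IsCoprime (∑ j ∈ Finset.range r, (X : F[X]) ^ j) (minpoly F A) :=
      (hirr.coprime_iff_not_dvd).2 hnd
    obtain ⟨u, v, huv⟩ := hcop
    have h1 := congrArg (aeval A) huv
    rw [map_add, map_mul, map_mul, minpoly.aeval, mul_zero, add_zero, map_one] at h1
    have h2 : aeval A ((X : F[X]) - 1) * aeval A (∑ j ∈ Finset.range r, (X : F[X]) ^ j) = 0 := by
      rw [← map_mul, mul_comm, geom_sum_mul]
      simp [hA]
    apply hA1
    have h3 : aeval A ((X : F[X]) - 1) = 0 := by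
      have h4 : aeval A ((X : F[X]) - 1) *
          (aeval A (∑ j ∈ Finset.range r, (X : F[X]) ^ j) * aeval A u) = 0 := by
        rw [← mul_assoc, h2, zero_mul]
      have hcomm : aeval A (∑ j ∈ Finset.range r, (X : F[X]) ^ j) * aeval A u =
          aeval A u * aeval A (∑ j ∈ Finset.range r, (X : F[X]) ^ j) := by
        rw [← map_mul, ← map_mul, mul_comm]
      rw [hcomm, h1, mul_one] at h4
      exact h4
    simpa [sub_eq_zero] using h3
  have hdvd2 : (∑ j ∈ Finset.range r, (X : F[X]) ^ j) ∣ A.charpoly :=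
    hdvd.trans (Matrix.minpoly_dvd_charpoly A)
  apply Polynomial.eq_of_monic_of_dvd_of_natDegree_le hmonic (Matrix.charpoly_monic A) hdvd2
  rw [Matrix.charpoly_natDegree_eq_dim, Fintype.card_fin, hdeg]

theorem e4_fifth {F : Type*} [Field F] [Fintype F] {p : ℕ} [Fact p.Prime] [CharP F p]
    (hF : Fintype.card F = p) (hord : orderOf (p : ZMod 5) = 4) (h2 : (2 : F) ≠ 0) (ι : F)
    (hι : ι ^ 2 = -1) (x : Matrix (Fin 4) (Fin 4) F) (hx : x ^ 5 = 1) (hx1 : x ≠ 1) :
    ∃ Q : Matrix (Fin 4) (Fin 4) F, Q.det = 1 ∧ Q * x = e4Y5 ι * Q := by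
  have hpp : p.Prime := Fact.out
  have : Fact (Nat.Prime 5) := ⟨by norm_num⟩
  have hp5 : p ≠ 5 := by
    intro h
    rw [h, ZMod.natCast_self, orderOf_zero] at hord
    omega
  have h5 : ((5 : ℕ) : F) ≠ 0 := by
    intro h
    rw [CharP.cast_eq_zero_iff F p] at h
    exact hp5 ((Nat.prime_dvd_prime_iff_eq hpp (by norm_num)).1 h)
  have hcop : Nat.Coprime 5 p := by
    rw [Nat.coprime_primes (by norm_num) hpp]
    exact fun h => hp5 h.symm
  have hirr : Irreducible (∑ j ∈ Finset.range 5, (X : F[X]) ^ j) := by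
    apply e4_cyclo_irreducible 5 h5
    rw [hF, hord]
  have hmonic : (∑ j ∈ Finset.range 5, (X : F[X]) ^ j).Monic := by
    simp only [Finset.sum_range_succ, Finset.sum_range_zero]
    monicity!
  have hdeg : (∑ j ∈ Finset.range 5, (X : F[X]) ^ j).natDegree = 4 := by
    simp only [Finset.sum_range_succ, Finset.sum_range_zero]
    compute_degree!
  have hc1 := e4_charpoly_of_pow 5 hirr hmonic hdeg x hx hx1
  have hc2 := e4_charpoly_of_pow 5 hirr hmonic hdeg (e4Y5 ι) (Cfsg.Agent.Helper73.e4_Y5_pow h2 ι hι) (Cfsg.Agent.Helper73.e4_Y5_ne_one h2 ι)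
  exact Cfsg.Agent.Helper40.exists_conj_matrix p hcop hcop x (e4Y5 ι) hx (Cfsg.Agent.Helper73.e4_Y5_pow h2 ι hι)
    (hc1.trans hc2.symm)

end Cfsg.Agent.Helper84
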