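-- helper84 library: PIECE CARD81 of helper69's CALL S5998: 81 does not divide |SL_3(q)| for q = 4, 7 mod 9.
import Mathlib
import Cfsg.Agent.S0242

set_option autoImplicit false

namespace Cfsg.Agent.Helper84

theorem e3_card_aux (a b c d m : ℕ) (ha : ¬ 3 ∣ a) (hb : ¬ 3 ∣ b) (hc : ¬ 3 ∣ c) (hd : ¬ 3 ∣ d)
    (h : 3 * (a * m) = a ^ 3 * b * c ^ 3 * d) : False := by
  have h3 : 3 ∣ a ^ 3 * b * c ^ 3 * d := ⟨_, h.symm⟩
  have hp := Nat.prime_three
  rcases hp.dvd_mul.mp h3 with h3 | h3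
  · rcases hp.dvd_mul.mp h3 with h3 | h3
    · rcases hp.dvd_mul.mp h3 with h3 | h3
      · exact ha (hp.dvd_of_dvd_pow h3)
      · exact hb h3
    · exact hc (hp.dvd_of_dvd_pow h3)
  · exact hd h3

theorem e3_card_SL3 {F : Type*} [Field F] [Fintype F]
    (h : Fintype.card F % 9 = 4 ∨ Fintype.card F % 9 = 7) :
    ¬ 81 ∣ Nat.card (Matrix.SpecialLinearGroup (Fin 3) F) := by
  rintro ⟨m, hm⟩
  have hord := Cfsg.Agent.S0242.result (F := F) rfl 3 (by norm_num)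
  rw [Fin.prod_univ_three] at hord
  simp only [Fin.val_zero, Fin.val_one, Fin.val_two, pow_zero, pow_one] at hord
  rw [hm] at hord
  obtain ⟨q, hq⟩ : ∃ q : ℕ, q = Fintype.card F := ⟨_, rfl⟩
  rw [← hq] at h hord
  rcases h with h | h
  · obtain ⟨t, ht⟩ : ∃ t : ℕ, q = 9 * t + 4 := ⟨q / 9, by omega⟩
    subst ht
    have e0 : 9 * t + 4 - 1 = 3 * (3 * t + 1) := by omega
    have e1 : (9 * t + 4) ^ 3 - 1 = 9 * ((3 * t + 1) * (27 * t ^ 2 + 27 * t + 7)) := by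
      apply Nat.sub_eq_of_eq_add
      ring
    have e2 : (9 * t + 4) ^ 3 - (9 * t + 4) = 3 * ((9 * t + 4) * (3 * t + 1) * (9 * t + 5)) := by
      apply Nat.sub_eq_of_eq_add
      ring
    have e3 : (9 * t + 4) ^ 3 - (9 * t + 4) ^ 2 = 3 * ((9 * t + 4) ^ 2 * (3 * t + 1)) := by
      apply Nat.sub_eq_of_eq_add
      ring
    rw [e0, e1, e2, e3] at hord
    have hkey : 3 * ((3 * t + 1) * m) =
        (3 * t + 1) ^ 3 * (27 * t ^ 2 + 27 * t + 7) * (9 * t + 4) ^ 3 * (9 * t + 5) := by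
      have : 81 * (3 * ((3 * t + 1) * m)) = 81 * ((3 * t + 1) ^ 3 * (27 * t ^ 2 + 27 * t + 7) *
          (9 * t + 4) ^ 3 * (9 * t + 5)) := by
        calc 81 * (3 * ((3 * t + 1) * m)) = 3 * (3 * t + 1) * (81 * m) := by ring
          _ = _ := hord
          _ = _ := by ring
      exact Nat.eq_of_mul_eq_mul_left (by norm_num) this
    exact e3_card_aux _ _ _ _ m (by omega) (by omega) (by omega) (by omega) hkey
  · obtain ⟨t, ht⟩ : ∃ t : ℕ, q = 9 * t + 7 := ⟨q / 9, by omega⟩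
    subst ht
    have e0 : 9 * t + 7 - 1 = 3 * (3 * t + 2) := by omega
    have e1 : (9 * t + 7) ^ 3 - 1 = 9 * ((3 * t + 2) * (27 * t ^ 2 + 45 * t + 19)) := by
      apply Nat.sub_eq_of_eq_add
      ring
    have e2 : (9 * t + 7) ^ 3 - (9 * t + 7) = 3 * ((9 * t + 7) * (3 * t + 2) * (9 * t + 8)) := by
      apply Nat.sub_eq_of_eq_add
      ring
    have e3 : (9 * t + 7) ^ 3 - (9 * t + 7) ^ 2 = 3 * ((9 * t + 7) ^ 2 * (3 * t + 2)) := by
      apply Nat.sub_eq_of_eq_add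
      ring
    rw [e0, e1, e2, e3] at hord
    have hkey : 3 * ((3 * t + 2) * m) =
        (3 * t + 2) ^ 3 * (27 * t ^ 2 + 45 * t + 19) * (9 * t + 7) ^ 3 * (9 * t + 8) := by
      have : 81 * (3 * ((3 * t + 2) * m)) = 81 * ((3 * t + 2) ^ 3 * (27 * t ^ 2 + 45 * t + 19) *
          (9 * t + 7) ^ 3 * (9 * t + 8)) := by
        calc 81 * (3 * ((3 * t + 2) * m)) = 3 * (3 * t + 2) * (81 * m) := by ring
          _ = _ := hord
          _ = _ := by ring
      exact Nat.eq_of_mul_eq_mul_left (by norm_num) this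
    exact e3_card_aux _ _ _ _ m (by omega) (by omega) (by omega) (by omega) hkey

end Cfsg.Agent.Helper84
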