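-- helper84 library: PIECE CUBE of helper69's CALL S5998: a matrix of determinant 1 whose cube is the
-- scalar ε^3 is SL_3-conjugate to a diagonal matrix normalising the standard group `E3 ω`.
import Mathlib
import Cfsg.Prelude.Def_GeometricClasses
import Cfsg.Agent.Helper69.E3Def
import Cfsg.Agent.Helper84.E3BASE

set_option autoImplicit false

open Matrix Cfsg.Agent.Helper69

namespace Cfsg.Agent.Helper84

/-- a spanning set of `F^3` contains the rows of an invertible matrix -/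
theorem e3_exists_rows {F : Type*} [Field F] (S : Set (Fin 3 → F))
    (hS : Submodule.span F S = ⊤) :
    ∃ Q : Matrix (Fin 3) (Fin 3) F, IsUnit Q.det ∧ ∀ i, Q i ∈ S := by
  obtain ⟨b, hbS, hspan, hli⟩ := exists_linearIndependent F S
  have hb : Submodule.span F (Set.range ((↑) : b → Fin 3 → F)) = ⊤ := by
    rw [Subtype.range_coe, hspan, hS]
  let B := Module.Basis.mk hli hb.ge
  let e := B.indexEquiv (Pi.basisFun F (Fin 3))
  refine ⟨Matrix.of (fun i => (e.symm i : Fin 3 → F)), ?_, fun i => hbS (e.symm i).2⟩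
  rw [← Matrix.isUnit_iff_isUnit_det, ← Matrix.linearIndependent_rows_iff_isUnit]
  exact hli.comp e.symm e.symm.injective

theorem e3_root {F : Type*} [Field F] (ω : F) (hω1 : ω ≠ 1) (hω3 : ω ^ 3 = 1) (μ : F)
    (hμ : μ ^ 3 = 1) : ∃ a : ℕ, μ = ω ^ a := by
  have hs : 1 + ω + ω ^ 2 = 0 := by
    have h : (ω - 1) * (1 + ω + ω ^ 2) = 0 := by linear_combination hω3
    rcases mul_eq_zero.mp h with h | h
    · exact absurd (sub_eq_zero.mp h) hω1
    · exact h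
  have h : (μ - 1) * (μ - ω) * (μ - ω ^ 2) = 0 := by
    linear_combination hμ - μ ^ 2 * hs + ω * μ * hs - hω3
  rcases mul_eq_zero.mp h with h | h
  · rcases mul_eq_zero.mp h with h | h
    · exact ⟨0, by rw [pow_zero]; exact sub_eq_zero.mp h⟩
    · exact ⟨1, by rw [pow_one]; exact sub_eq_zero.mp h⟩
  · exact ⟨2, sub_eq_zero.mp h⟩

/-- left eigenvectors of a matrix with `y^3 = 1` span `F^3` -/
theorem e3_eigen_span {F : Type*} [Field F] (h3 : (3 : F) ≠ 0) (ω : F) (hω1 : ω ≠ 1)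
    (hω3 : ω ^ 3 = 1) (y : Matrix (Fin 3) (Fin 3) F) (hy3 : y ^ 3 = 1) :
    Submodule.span F {w : Fin 3 → F | ∃ μ : F, μ ^ 3 = 1 ∧ w ᵥ* y = μ • w} = ⊤ := by
  have hs : 1 + ω + ω ^ 2 = 0 := by
    have h : (ω - 1) * (1 + ω + ω ^ 2) = 0 := by linear_combination hω3
    rcases mul_eq_zero.mp h with h | h
    · exact absurd (sub_eq_zero.mp h) hω1
    · exact h
  have hkey : ∀ a : F, a ^ 3 = 1 → ∀ w : Fin 3 → F,
      (w ᵥ* ((3 : F)⁻¹ • (1 + a ^ 2 • y + a • y ^ 2))) ᵥ* y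
        = a • (w ᵥ* ((3 : F)⁻¹ • (1 + a ^ 2 • y + a • y ^ 2))) := by
    intro a ha w
    have e1 : a * a ^ 2 = 1 := by rw [← pow_succ']; exact ha
    rw [Matrix.vecMul_vecMul, ← Matrix.vecMul_smul]
    congr 1
    rw [Matrix.smul_mul, add_mul, add_mul, one_mul, Matrix.smul_mul, Matrix.smul_mul, ← pow_two,
      ← pow_succ, hy3, smul_comm a (3 : F)⁻¹]
    congr 1
    rw [smul_add, smul_add, smul_smul, smul_smul, e1, one_smul, ← pow_two]
    abel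
  have e4 : (ω ^ 2) ^ 2 = ω := by linear_combination ω * hω3
  have hω23 : (ω ^ 2) ^ 3 = 1 := by linear_combination (ω ^ 3 + 1) * hω3
  have hsum : (3 : F)⁻¹ • (1 + (1 : F) ^ 2 • y + (1 : F) • y ^ 2)
      + (3 : F)⁻¹ • (1 + ω ^ 2 • y + ω • y ^ 2)
      + (3 : F)⁻¹ • (1 + (ω ^ 2) ^ 2 • y + ω ^ 2 • y ^ 2) = 1 := by
    rw [e4, ← smul_add, ← smul_add]
    have : (1 + (1 : F) ^ 2 • y + (1 : F) • y ^ 2) + (1 + ω ^ 2 • y + ω • y ^ 2)
        + (1 + ω • y + ω ^ 2 • y ^ 2)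
        = (3 : F) • (1 : Matrix (Fin 3) (Fin 3) F) + (1 + ω + ω ^ 2) • y
          + (1 + ω + ω ^ 2) • y ^ 2 := by
      module
    rw [this, hs, zero_smul, zero_smul, add_zero, add_zero, smul_smul, inv_mul_cancel₀ h3,
      one_smul]
  rw [eq_top_iff]
  intro w _
  have hw : w = w ᵥ* ((3 : F)⁻¹ • (1 + (1 : F) ^ 2 • y + (1 : F) • y ^ 2))
      + w ᵥ* ((3 : F)⁻¹ • (1 + ω ^ 2 • y + ω • y ^ 2))
      + w ᵥ* ((3 : F)⁻¹ • (1 + (ω ^ 2) ^ 2 • y + ω ^ 2 • y ^ 2)) := by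
    rw [← Matrix.vecMul_add, ← Matrix.vecMul_add, hsum, Matrix.vecMul_one]
  rw [hw]
  exact Submodule.add_mem _ (Submodule.add_mem _
    (Submodule.subset_span ⟨1, one_pow 3, hkey 1 (one_pow 3) w⟩)
    (Submodule.subset_span ⟨ω, hω3, hkey ω hω3 w⟩))
    (Submodule.subset_span ⟨ω ^ 2, hω23, hkey (ω ^ 2) hω23 w⟩)

/-- a diagonal matrix `ε • diag(μ₀, μ₁, μ₂)` with cube roots of unity `μ_i` normalises `E3 ω` -/
theorem e3_diag_normalizer {F : Type*} [Field F] (ω : F) (hω1 : ω ≠ 1) (hω3 : ω ^ 3 = 1)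
    (ε : F) (hε : ε ≠ 0) (μ : Fin 3 → F) (hμ : ∀ i, μ i ^ 3 = 1) (t : GL (Fin 3) F)
    (ht : (t : Matrix (Fin 3) (Fin 3) F) = Matrix.diagonal (fun i => ε * μ i))
    (ht' : ((t⁻¹ : GL (Fin 3) F) : Matrix (Fin 3) (Fin 3) F)
      = Matrix.diagonal (fun i => ε⁻¹ * μ i ^ 2)) :
    t ∈ Cfsg.Geo.subgroupNormalizer (E3 ω) := by
  choose a ha using fun i => e3_root ω hω1 hω3 (μ i) (hμ i)
  have h0 := hμ 0
  have h1 := hμ 1
  have h2 := hμ 2
  have hεε : ε * ε⁻¹ = 1 := mul_inv_cancel₀ hε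
  apply e3_mem_normalizer ω hω1 hω3
  · intro g hg
    rw [e3_mem_iff ω hω3]
    refine ⟨a 1 + 2 * a 0, 1, a 0 + a 1 + a 2, ?_⟩
    rw [Units.val_mul, Units.val_mul, ht, ht', hg, e3Z_pow, pow_one, pow_add, pow_add, pow_add,
      pow_mul', ← ha 0, ← ha 1, ← ha 2, e3X]
    ext i j
    fin_cases i <;> fin_cases j <;>
      simp [Matrix.mul_apply, Matrix.diagonal_apply]
    · linear_combination (μ 0 * μ 2 ^ 2) * hεε - (μ 0 * μ 2 ^ 2 * μ 1 ^ 3) * h0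
        - (μ 0 * μ 2 ^ 2) * h1
    · linear_combination (μ 1 * μ 0 ^ 2) * hεε
    · linear_combination (μ 2 * μ 1 ^ 2) * hεε - (μ 1 ^ 2 * μ 2) * h0
  · intro g hg
    rw [e3_mem_iff ω hω3]
    refine ⟨0, 0, 1, ?_⟩
    rw [Units.val_mul, Units.val_mul, ht, ht', hg, pow_zero, pow_zero, one_smul, one_mul, pow_one,
      e3Z]
    ext i j
    fin_cases i <;> fin_cases j <;>
      simp [Matrix.mul_apply, Matrix.diagonal_apply]
    · linear_combination (μ 0 ^ 3) * hεε + h0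
    · linear_combination (ω * μ 1 ^ 3) * hεε + ω * h1
    · linear_combination (ω ^ 2 * μ 2 ^ 3) * hεε + ω ^ 2 * h2

theorem e3_cube {F : Type*} [Field F] (h3 : (3 : F) ≠ 0) (ω : F) (hω1 : ω ≠ 1) (hω3 : ω ^ 3 = 1)
    (x : Matrix (Fin 3) (Fin 3) F) (hdet : x.det = 1) (ε : F)
    (hx : x ^ 3 = ε ^ 3 • (1 : Matrix (Fin 3) (Fin 3) F)) :
    ∃ (Q : Matrix (Fin 3) (Fin 3) F) (t : GL (Fin 3) F), Q.det = 1 ∧
      t ∈ Cfsg.Geo.subgroupNormalizer (E3 ω) ∧ Q * x = (t : Matrix (Fin 3) (Fin 3) F) * Q := by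
  have hε : ε ≠ 0 := by
    rintro rfl
    have h1 := congrArg Matrix.det hx
    rw [Matrix.det_pow, hdet] at h1
    simp at h1
  obtain ⟨y, hy⟩ : ∃ y, y = ε⁻¹ • x := ⟨_, rfl⟩
  have hxy : x = ε • y := by rw [hy, smul_smul, mul_inv_cancel₀ hε, one_smul]
  have hy3 : y ^ 3 = 1 := by
    rw [hy, smul_pow, hx, smul_smul, ← mul_pow, inv_mul_cancel₀ hε, one_pow, one_smul]
  obtain ⟨Q0, hQ0, hrows⟩ := e3_exists_rows _ (e3_eigen_span h3 ω hω1 hω3 y hy3)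
  choose μ hμ3 hμ using hrows
  have hd0 : Q0.det ≠ 0 := hQ0.ne_zero
  have hQy : Q0 * y = Matrix.diagonal μ * Q0 := by
    ext i j
    rw [Matrix.mul_apply_eq_vecMul, hμ i, Matrix.diagonal_mul]
    rfl
  have hεε : ε * ε⁻¹ = 1 := mul_inv_cancel₀ hε
  let t : GL (Fin 3) F := ⟨Matrix.diagonal (fun i => ε * μ i),
    Matrix.diagonal (fun i => ε⁻¹ * μ i ^ 2), by
      rw [Matrix.diagonal_mul_diagonal, ← Matrix.diagonal_one]
      congr 1
      funext i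
      linear_combination (μ i ^ 3) * hεε + hμ3 i, by
      rw [Matrix.diagonal_mul_diagonal, ← Matrix.diagonal_one]
      congr 1
      funext i
      linear_combination (μ i ^ 3) * hεε + hμ3 i⟩
  refine ⟨Matrix.diagonal ![(Q0.det)⁻¹, 1, 1] * Q0, t, ?_, ?_, ?_⟩
  · rw [Matrix.det_mul, Matrix.det_diagonal, Fin.prod_univ_three]
    simp [inv_mul_cancel₀ hd0]
  · exact e3_diag_normalizer ω hω1 hω3 ε hε μ hμ3 t rfl rfl
  · show Matrix.diagonal ![(Q0.det)⁻¹, 1, 1] * Q0 * x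
      = Matrix.diagonal (fun i => ε * μ i) * (Matrix.diagonal ![(Q0.det)⁻¹, 1, 1] * Q0)
    rw [hxy, Matrix.mul_smul, mul_assoc, hQy, ← mul_assoc, ← mul_assoc,
      Matrix.diagonal_mul_diagonal, Matrix.diagonal_mul_diagonal]
    ext i j
    simp only [Matrix.smul_apply, Matrix.diagonal_mul, smul_eq_mul]
    ring

end Cfsg.Agent.Helper84
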