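-- helper84 library: PIECE DN of helper69's CALL S5999: diagonal matrices of cube roots of unity
-- normalise the standard group `E3 ω`.
import Mathlib
import Cfsg.Prelude.Def_GeometricClasses
import Cfsg.Agent.Helper69.E3Def
import Cfsg.Agent.Helper84.E3BASE
import Cfsg.Agent.Helper84.E3CUBE

set_option autoImplicit false

open Matrix Cfsg.Agent.Helper69

namespace Cfsg.Agent.Helper84

theorem e3u_diag_mem_normalizer {F : Type*} [Field F] (ω : F) (hω1 : ω ≠ 1) (hω3 : ω ^ 3 = 1)
    (a b c : F) (ha : a ^ 3 = 1) (hb : b ^ 3 = 1) (hc : c ^ 3 = 1)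
    (g : GL (Fin 3) F) (hg : (g : Matrix (Fin 3) (Fin 3) F) = Matrix.diagonal ![a, b, c]) :
    g ∈ Cfsg.Geo.subgroupNormalizer (E3 ω) := by
  have hμ : ∀ i : Fin 3, (![a, b, c] i) ^ 3 = 1 := by
    intro i
    fin_cases i
    · exact ha
    · exact hb
    · exact hc
  apply e3_diag_normalizer ω hω1 hω3 1 one_ne_zero ![a, b, c] hμ g
  · rw [hg]
    congr 1
    funext i
    rw [one_mul]
  · apply Units.inv_eq_of_mul_eq_one_right
    rw [hg, Matrix.diagonal_mul_diagonal, ← Matrix.diagonal_one]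
    congr 1
    funext i
    rw [inv_one, one_mul, ← pow_succ']
    exact hμ i

end Cfsg.Agent.Helper84
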