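import Mathlib
import Cfsg.Prelude.Def_GeometricClasses
import Cfsg.Prelude.Def_LieClassical
import Cfsg.Agent.Helper69.E4Def
import Cfsg.Agent.Helper69.E4UDef
import Cfsg.Agent.Helper97.UForm
import Cfsg.Agent.Helper97.U9Sq

set_option autoImplicit false

/-!
# Piece BAD5U of S6001 (helper84): for `p ≡ ± 1 (mod 5)` an element of order 5 of `SU_4(p)` with
`tr x * tr x⁻¹ ≠ 1`.
-/

namespace Cfsg.Agent.Helper84
open Cfsg.Agent.Helper69 Cfsg.Agent.Helper97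
open scoped Matrix

/-- the matrix computation behind `e4u_bad_five` -/
theorem e4u_bad_five_aux {F : Type*} [Field F] (u b c : F)
    (hu : 4 * u ^ 2 + 2 * u - 1 = 0) (hbc : b * c = 1 - u ^ 2) :
    (!![u, b, 0, 0; -c, u, 0, 0; 0, 0, 1, 0; 0, 0, 0, 1] : Matrix (Fin 4) (Fin 4) F) *
        !![u, -b, 0, 0; c, u, 0, 0; 0, 0, 1, 0; 0, 0, 0, 1] = 1 ∧
      (!![u, -b, 0, 0; c, u, 0, 0; 0, 0, 1, 0; 0, 0, 0, 1] : Matrix (Fin 4) (Fin 4) F) *
        !![u, b, 0, 0; -c, u, 0, 0; 0, 0, 1, 0; 0, 0, 0, 1] = 1 ∧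
      (!![u, b, 0, 0; -c, u, 0, 0; 0, 0, 1, 0; 0, 0, 0, 1] : Matrix (Fin 4) (Fin 4) F) ^ 5 = 1 ∧
      (!![u, b, 0, 0; -c, u, 0, 0; 0, 0, 1, 0; 0, 0, 0, 1] : Matrix (Fin 4) (Fin 4) F).det = 1 := by
  have hx2 : (!![u, b, 0, 0; -c, u, 0, 0; 0, 0, 1, 0; 0, 0, 0, 1] : Matrix (Fin 4) (Fin 4) F) ^ 2
      = !![2 * u ^ 2 - 1, 2 * u * b, 0, 0; -(2 * u * c), 2 * u ^ 2 - 1, 0, 0;
        0, 0, 1, 0; 0, 0, 0, 1] := by
    ext i j
    fin_cases i <;> fin_cases j <;>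
      simp [pow_succ, Matrix.mul_apply, Fin.sum_univ_four] <;>
      first | ring1 | linear_combination hbc | linear_combination -hbc
  have hx4 : (!![2 * u ^ 2 - 1, 2 * u * b, 0, 0; -(2 * u * c), 2 * u ^ 2 - 1, 0, 0;
        0, 0, 1, 0; 0, 0, 0, 1] : Matrix (Fin 4) (Fin 4) F) ^ 2
      = !![u, -b, 0, 0; c, u, 0, 0; 0, 0, 1, 0; 0, 0, 0, 1] := by
    ext i j
    fin_cases i <;> fin_cases j <;>
      simp [pow_succ, Matrix.mul_apply, Fin.sum_univ_four] <;>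
      first
      | ring1
      | linear_combination (2 * u ^ 2 - u - 1) * hu - 4 * u ^ 2 * hbc
      | linear_combination b * (2 * u - 1) * hu
      | linear_combination -c * (2 * u - 1) * hu
  have hx5 : (!![u, -b, 0, 0; c, u, 0, 0; 0, 0, 1, 0; 0, 0, 0, 1] : Matrix (Fin 4) (Fin 4) F) *
      !![u, b, 0, 0; -c, u, 0, 0; 0, 0, 1, 0; 0, 0, 0, 1] = 1 := by
    ext i j
    fin_cases i <;> fin_cases j <;>
      simp [Matrix.mul_apply, Fin.sum_univ_four] <;>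
      first | ring1 | linear_combination hbc
  have hxxi : (!![u, b, 0, 0; -c, u, 0, 0; 0, 0, 1, 0; 0, 0, 0, 1] : Matrix (Fin 4) (Fin 4) F) *
      !![u, -b, 0, 0; c, u, 0, 0; 0, 0, 1, 0; 0, 0, 0, 1] = 1 := by
    ext i j
    fin_cases i <;> fin_cases j <;>
      simp [Matrix.mul_apply, Fin.sum_univ_four] <;>
      first | ring1 | linear_combination hbc
  refine ⟨hxxi, hx5, ?_, ?_⟩
  · have h5' : ∀ M : Matrix (Fin 4) (Fin 4) F, M ^ 5 = (M ^ 2) ^ 2 * M := by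
      intro M
      rw [← pow_mul, ← pow_succ]
    rw [h5', hx2, hx4, hx5]
  · rw [Matrix.det_succ_row_zero]
    simp [Fin.sum_univ_four, Matrix.det_fin_three, Fin.succAbove]
    linear_combination hbc

theorem e4u_bad_five {F : Type*} [Field F] [Fintype F] {p : ℕ} [Fact p.Prime] [CharP F p]
    (hF : Fintype.card F = p ^ 2) (h2 : (2 : F) ≠ 0) (hp5 : p % 5 = 1 ∨ p % 5 = 4) :
    ∃ x : GL (Fin 4) F, x ∈ Cfsg.GU 4 F p ⊓ Cfsg.Geo.specialLinear (Fin 4) F ∧ x ^ 5 = 1 ∧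
      (∀ c : F, (x : Matrix (Fin 4) (Fin 4) F) ≠ c • (1 : Matrix (Fin 4) (Fin 4) F)) ∧
      (x : Matrix (Fin 4) (Fin 4) F).trace *
        ((x⁻¹ : GL (Fin 4) F) : Matrix (Fin 4) (Fin 4) F).trace ≠ 1 := by
  classical
  have hp : p.Prime := Fact.out
  obtain ⟨σ, hσ⟩ := exists_sigma hF
  have hp2 : p ≠ 2 := by
    rintro rfl
    apply h2
    have := CharP.cast_eq_zero F 2
    exact_mod_cast this
  have h5 : (5 : F) ≠ 0 := by
    intro h
    have h1 : ((5 : ℕ) : F) = 0 := by exact_mod_cast h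
    rw [CharP.cast_eq_zero_iff F p] at h1
    have h6 := (Nat.prime_dvd_prime_iff_eq hp (by norm_num)).mp h1
    omega
  have h4 : (4 : F) ≠ 0 := by
    have h6 : (4 : F) = 2 * 2 := by norm_num
    rw [h6]
    exact mul_ne_zero h2 h2
  -- a square root of 5 in the prime field
  have : Fact (Nat.Prime 5) := ⟨by norm_num⟩
  have hsq5 : IsSquare ((p : ℕ) : ZMod 5) := by
    rw [← ZMod.natCast_mod p 5]
    rcases hp5 with h | h
    · rw [h]
      exact ⟨1, by simp⟩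
    · rw [h]
      exact ⟨2, by push_cast; norm_num⟩
  obtain ⟨s0, hs0⟩ :=
    (ZMod.exists_sq_eq_prime_iff_of_mod_four_eq_one (p := 5) (q := p) (by norm_num) hp2).mp hsq5
  set s : F := ZMod.castHom (dvd_refl p) F s0 with hs
  have hss : s * s = 5 := by
    rw [hs, ← map_mul, ← hs0, map_natCast]
    norm_num
  have hσs : σ s = s := by
    rw [hσ.pow, hs, ← map_pow, ZMod.pow_card]
  set u : F := (s - 1) / 4 with hudef
  have hu : 4 * u ^ 2 + 2 * u - 1 = 0 := by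
    rw [hudef]
    field_simp
    linear_combination hss
  have hσu : σ u = u := by
    rw [hudef, map_div₀, map_sub, map_one, hσs, map_ofNat]
  have ha : σ (1 - u ^ 2) = 1 - u ^ 2 := by
    rw [map_sub, map_one, map_pow, hσu]
  have ha0 : 1 - u ^ 2 ≠ 0 := by
    intro h
    apply h5
    linear_combination -(8 * u - 8) * h - (2 * u - 3) * hu
  obtain ⟨b, hb⟩ := hσ.exists_norm_eq hF (1 - u ^ 2) ha ha0
  obtain ⟨hM1, hM2, hM5, hMdet⟩ := e4u_bad_five_aux u b (σ b) hu hb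
  let x : GL (Fin 4) F := ⟨!![u, b, 0, 0; -σ b, u, 0, 0; 0, 0, 1, 0; 0, 0, 0, 1],
    !![u, -b, 0, 0; σ b, u, 0, 0; 0, 0, 1, 0; 0, 0, 0, 1], hM1, hM2⟩
  have hxval : (x : Matrix (Fin 4) (Fin 4) F) =
      !![u, b, 0, 0; -σ b, u, 0, 0; 0, 0, 1, 0; 0, 0, 0, 1] := rfl
  have hxinv : ((x⁻¹ : GL (Fin 4) F) : Matrix (Fin 4) (Fin 4) F) =
      !![u, -b, 0, 0; σ b, u, 0, 0; 0, 0, 1, 0; 0, 0, 0, 1] := rfl
  refine ⟨x, ⟨?_, ?_⟩, ?_, ?_, ?_⟩
  · apply Cfsg.Agent.Helper97.U9.mem_GU_of_matrix hσ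
    rw [hxval]
    ext i j
    fin_cases i <;> fin_cases j <;>
      simp [Matrix.mul_apply, Fin.sum_univ_four, hσu, hσ.inv] <;>
      first | ring1 | linear_combination hb
  · show Matrix.GeneralLinearGroup.det x = 1
    apply Units.ext
    rw [Matrix.GeneralLinearGroup.val_det_apply, hxval, hMdet, Units.val_one]
  · apply Units.ext
    rw [Units.val_pow_eq_pow_val, hxval, hM5, Units.val_one]
  · intro c' h
    rw [hxval] at h
    have h00 := congrFun (congrFun h 0) 0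
    have h22 := congrFun (congrFun h 2) 2
    simp at h00 h22
    apply h5
    have hu1 : u = 1 := by rw [h00, ← h22]
    linear_combination hu - (4 * u + 6) * hu1
  · intro h
    rw [hxval, hxinv] at h
    have htr : (!![u, b, 0, 0; -σ b, u, 0, 0; 0, 0, 1, 0; 0, 0, 0, 1] :
          Matrix (Fin 4) (Fin 4) F).trace *
        (!![u, -b, 0, 0; σ b, u, 0, 0; 0, 0, 1, 0; 0, 0, 0, 1] : Matrix (Fin 4) (Fin 4) F).trace
        = (2 * u + 2) * (2 * u + 2) := by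
      simp [Matrix.trace, Fin.sum_univ_four]
      ring
    rw [htr] at h
    apply h5
    linear_combination (6 * u - 1) * h - (6 * u + 8) * hu

end Cfsg.Agent.Helper84
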