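-- helper84 library: PIECES CARD and E3 of helper69's CALL S5971 (PSL_3(q) Singer normaliser).
import Mathlib
import Cfsg.Agent.Helper40.SemisimpleMat
import Cfsg.Agent.Helper41.BGLDET
import Cfsg.Agent.S0242

set_option autoImplicit false

namespace Cfsg.Agent.Helper84

theorem sng_card_SL3 {F : Type*} [Field F] [Fintype F]
    (h : Fintype.card F % 9 = 2 ∨ Fintype.card F % 9 = 5) :
    ¬ 9 ∣ Nat.card (Matrix.SpecialLinearGroup (Fin 3) F) := by
  intro h9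
  have hord := Cfsg.Agent.S0242.result (F := F) rfl 3 (by norm_num)
  rw [Fin.prod_univ_three] at hord
  simp only [Fin.val_zero, Fin.val_one, Fin.val_two, pow_zero, pow_one] at hord
  have hdvd : 9 ∣ (Fintype.card F ^ 3 - 1) * (Fintype.card F ^ 3 - Fintype.card F) *
      (Fintype.card F ^ 3 - Fintype.card F ^ 2) := by
    rw [← hord]
    exact Dvd.dvd.mul_left h9 _
  obtain ⟨q, hq⟩ : ∃ q : ℕ, q = Fintype.card F := ⟨_, rfl⟩
  rw [← hq] at h hdvd
  have hmod := Nat.mod_eq_zero_of_dvd hdvd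
  rcases h with h | h
  · obtain ⟨t, ht⟩ : ∃ t : ℕ, q = 9 * t + 2 := ⟨q / 9, by omega⟩
    subst ht
    have e3 : (9 * t + 2) ^ 3 = 9 * (81 * t ^ 3 + 54 * t ^ 2 + 12 * t) + 8 := by ring
    have e2 : (9 * t + 2) ^ 2 = 9 * (9 * t ^ 2 + 4 * t) + 4 := by ring
    have hle : 9 * t ^ 2 + 4 * t ≤ 81 * t ^ 3 + 54 * t ^ 2 + 12 * t := by nlinarith [sq_nonneg t, Nat.zero_le (t ^ 3)]
    have a1 : ((9 * t + 2) ^ 3 - 1) % 9 = 7 := by omega
    have a2 : ((9 * t + 2) ^ 3 - (9 * t + 2)) % 9 = 6 := by omega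
    have a3 : ((9 * t + 2) ^ 3 - (9 * t + 2) ^ 2) % 9 = 4 := by omega
    rw [Nat.mul_mod, Nat.mul_mod ((9 * t + 2) ^ 3 - 1), a1, a2, a3] at hmod
    norm_num at hmod
  · obtain ⟨t, ht⟩ : ∃ t : ℕ, q = 9 * t + 5 := ⟨q / 9, by omega⟩
    subst ht
    have e3 : (9 * t + 5) ^ 3 = 9 * (81 * t ^ 3 + 135 * t ^ 2 + 75 * t + 13) + 8 := by ring
    have e2 : (9 * t + 5) ^ 2 = 9 * (9 * t ^ 2 + 10 * t + 2) + 7 := by ring
    have hle : 9 * t ^ 2 + 10 * t + 2 ≤ 81 * t ^ 3 + 135 * t ^ 2 + 75 * t + 13 := by nlinarith [sq_nonneg t, Nat.zero_le (t ^ 3)]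
    have a1 : ((9 * t + 5) ^ 3 - 1) % 9 = 7 := by omega
    have a2 : ((9 * t + 5) ^ 3 - (9 * t + 5)) % 9 = 3 := by omega
    have a3 : ((9 * t + 5) ^ 3 - (9 * t + 5) ^ 2) % 9 = 1 := by omega
    rw [Nat.mul_mod, Nat.mul_mod ((9 * t + 5) ^ 3 - 1), a1, a2, a3] at hmod
    norm_num at hmod

theorem sng3_scalar_one {F : Type*} [Field F] [Fintype F] (h3 : 3 ∣ Fintype.card F - 1)
    (h9 : ¬ 9 ∣ Fintype.card F - 1) (x : Matrix (Fin 3) (Fin 3) F) (z : F)
    (hx : x ^ 3 = z • (1 : Matrix (Fin 3) (Fin 3) F)) (hdet : x.det = 1) : z = 1 := by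
  classical
  have hz3 : z ^ 3 = 1 := by
    have h1 := congrArg Matrix.det hx
    rw [Matrix.det_pow, hdet, one_pow, Matrix.det_smul, Matrix.det_one, mul_one,
      Fintype.card_fin] at h1
    exact h1.symm
  by_cases hb : ∃ b : F, b ^ 3 = z
  · obtain ⟨b, hb⟩ := hb
    have hb0 : b ≠ 0 := by
      rintro rfl
      rw [← hb] at hz3
      simp at hz3
    have hb9 : b ^ 9 = 1 := by
      have : b ^ 9 = (b ^ 3) ^ 3 := by ring
      rw [this, hb, hz3]
    have hbq : b ^ (Fintype.card F - 1) = 1 := FiniteField.pow_card_sub_one_eq_one b hb0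
    have hg : Nat.gcd 9 (Fintype.card F - 1) = 3 := by
      have hd : Nat.gcd 9 (Fintype.card F - 1) ∣ 9 := Nat.gcd_dvd_left _ _
      have hd' : Nat.gcd 9 (Fintype.card F - 1) ∣ Fintype.card F - 1 := Nat.gcd_dvd_right _ _
      have h3' : 3 ∣ Nat.gcd 9 (Fintype.card F - 1) := Nat.dvd_gcd (by norm_num) h3
      have hle : Nat.gcd 9 (Fintype.card F - 1) ≤ 9 := Nat.le_of_dvd (by norm_num) hd
      obtain ⟨g, hg⟩ : ∃ g : ℕ, g = Nat.gcd 9 (Fintype.card F - 1) := ⟨_, rfl⟩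
      rw [← hg] at hd hd' h3' hle ⊢
      interval_cases g <;> first | rfl | omega
    have hb3 : b ^ 3 = 1 := by
      have := pow_gcd_eq_one.mpr ⟨hb9, hbq⟩
      rwa [hg] at this
    rw [← hb, hb3]
  · push Not at hb
    have hirr : Irreducible (Polynomial.X ^ 3 - Polynomial.C z : Polynomial F) :=
      X_pow_sub_C_irreducible_of_prime Nat.prime_three hb
    have h := (Cfsg.Agent.Helper41.bgl_kummer_det 3 3 Nat.prime_three z hirr x hx).2
    rw [hdet] at h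
    norm_num at h
    exact h.symm

end Cfsg.Agent.Helper84
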