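-- helper84 library: PIECES E1 and E2 of helper69's CALL S5971 (PSL_3(q) Singer normaliser).
import Mathlib

set_option autoImplicit false
set_option linter.unusedVariables false
set_option linter.unusedSimpArgs false
set_option linter.deprecated false

namespace Cfsg.Agent.Helper84

open Matrix

/-- Membership in the kernel of `toLin' y - c • 1`. -/
theorem sng3_mem_ker {F : Type*} [Field F] {n : ℕ} (y : Matrix (Fin n) (Fin n) F) (c : F)
    (v : Fin n → F) :
    v ∈ LinearMap.ker (Matrix.toLin' y - c • 1) ↔ y *ᵥ v = c • v := by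
  rw [LinearMap.mem_ker, LinearMap.sub_apply, Matrix.toLin'_apply, LinearMap.smul_apply,
    Module.End.one_apply, sub_eq_zero]

/-- If `a, b, c` are the three roots of `X^3 - 1`, `y^3 = 1` and the eigenspaces of `y` have
dimension at most one, then `c` is an eigenvalue of `y`. -/
theorem sng3_exists_eigen {F : Type*} [Field F] (a b c : F) (hab : a ≠ b)
    (h1 : a + b + c = 0) (h2 : a * b + b * c + c * a = 0) (h3 : a * b * c = 1)
    (y : Matrix (Fin 3) (Fin 3) F) (hy : y ^ 3 = 1)
    (hker : ∀ c : F, Module.finrank F ↥(LinearMap.ker (Matrix.toLin' y - c • 1)) ≤ 1) :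
    ∃ v : Fin 3 → F, v ≠ 0 ∧ y *ᵥ v = c • v := by
  classical
  by_contra hcon
  have hdet : (y - c • (1 : Matrix (Fin 3) (Fin 3) F)).det ≠ 0 := by
    intro h0
    obtain ⟨v, hv, hv0⟩ := Matrix.exists_mulVec_eq_zero_iff.mpr h0
    apply hcon
    refine ⟨v, hv, ?_⟩
    rw [Matrix.sub_mulVec, Matrix.smul_mulVec, Matrix.one_mulVec, sub_eq_zero] at hv0
    exact hv0
  have hprod : (y - a • (1 : Matrix (Fin 3) (Fin 3) F)) * (y - b • 1) * (y - c • 1) = 0 := by
    have e : (y - a • (1 : Matrix (Fin 3) (Fin 3) F)) * (y - b • 1) * (y - c • 1) =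
        y ^ 3 - (a + b + c) • y ^ 2 + (a * b + b * c + c * a) • y - (a * b * c) • 1 := by
      simp only [sub_mul, mul_sub, Matrix.smul_mul, Matrix.mul_smul, Matrix.one_mul,
        Matrix.mul_one, smul_sub, smul_smul, pow_succ, pow_zero, add_smul, sub_smul]
      module
    rw [e, h1, h2, h3, hy]
    simp
  have hab0 : (y - a • (1 : Matrix (Fin 3) (Fin 3) F)) * (y - b • 1) = 0 := by
    have := Matrix.mul_nonsing_inv_cancel_right (A := y - c • (1 : Matrix (Fin 3) (Fin 3) F))
      ((y - a • (1 : Matrix (Fin 3) (Fin 3) F)) * (y - b • 1)) (isUnit_iff_ne_zero.mpr hdet)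
    rw [hprod, Matrix.zero_mul] at this
    exact this.symm
  have hba0 : (y - b • (1 : Matrix (Fin 3) (Fin 3) F)) * (y - a • 1) = 0 := by
    rw [← hab0]
    simp only [sub_mul, mul_sub, Matrix.smul_mul, Matrix.mul_smul, Matrix.one_mul,
      Matrix.mul_one, smul_sub, smul_smul]
    rw [mul_comm b a]
    abel
  have hsup : (⊤ : Submodule F (Fin 3 → F)) ≤
      LinearMap.ker (Matrix.toLin' y - a • 1) ⊔ LinearMap.ker (Matrix.toLin' y - b • 1) := by
    intro v _
    have hba : b - a ≠ 0 := sub_ne_zero.mpr (Ne.symm hab)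
    have m1 : (b - a)⁻¹ • ((y - b • (1 : Matrix (Fin 3) (Fin 3) F)) *ᵥ v) ∈
        LinearMap.ker (Matrix.toLin' y - a • 1) := by
      apply Submodule.smul_mem
      rw [sng3_mem_ker, ← sub_eq_zero]
      have := congrArg (fun M : Matrix (Fin 3) (Fin 3) F => M *ᵥ v) hab0
      simp only [Matrix.zero_mulVec, ← Matrix.mulVec_mulVec] at this
      rw [Matrix.sub_mulVec, Matrix.smul_mulVec, Matrix.one_mulVec] at this
      exact this
    have m2 : (b - a)⁻¹ • ((y - a • (1 : Matrix (Fin 3) (Fin 3) F)) *ᵥ v) ∈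
        LinearMap.ker (Matrix.toLin' y - b • 1) := by
      apply Submodule.smul_mem
      rw [sng3_mem_ker, ← sub_eq_zero]
      have := congrArg (fun M : Matrix (Fin 3) (Fin 3) F => M *ᵥ v) hba0
      simp only [Matrix.zero_mulVec, ← Matrix.mulVec_mulVec] at this
      rw [Matrix.sub_mulVec, Matrix.smul_mulVec, Matrix.one_mulVec] at this
      exact this
    have hv : v = -((b - a)⁻¹ • ((y - b • (1 : Matrix (Fin 3) (Fin 3) F)) *ᵥ v)) +
        (b - a)⁻¹ • ((y - a • (1 : Matrix (Fin 3) (Fin 3) F)) *ᵥ v) := by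
      rw [neg_add_eq_sub, ← smul_sub, ← Matrix.sub_mulVec, sub_sub_sub_cancel_left,
        ← sub_smul, Matrix.smul_mulVec, Matrix.one_mulVec, smul_smul, inv_mul_cancel₀ hba,
        one_smul]
    rw [hv]
    exact Submodule.add_mem_sup (Submodule.neg_mem _ m1) m2
  have h10 := Submodule.finrank_mono hsup
  rw [finrank_top, Module.finrank_fin_fun] at h10
  have hadd := Submodule.finrank_add_le_finrank_add_finrank
    (LinearMap.ker (Matrix.toLin' y - a • 1)) (LinearMap.ker (Matrix.toLin' y - b • 1))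
  have ha := hker a
  have hb := hker b
  omega

theorem sng3_charpoly {F : Type*} [Field F] (h3 : (3 : F) ≠ 0) (w : F) (hw : w ≠ 1) (hw3 : w ^ 3 = 1)
    (y : Matrix (Fin 3) (Fin 3) F) (hy : y ^ 3 = 1)
    (hker : ∀ c : F, Module.finrank F ↥(LinearMap.ker (Matrix.toLin' y - c • 1)) ≤ 1) :
    y.charpoly = Polynomial.X ^ 3 - 1 := by
  classical
  have hw1 : w - 1 ≠ 0 := sub_ne_zero.mpr hw
  have hsum : 1 + w + w ^ 2 = 0 := by
    have : (w - 1) * (1 + w + w ^ 2) = 0 := by ring_nf; rw [hw3]; ring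
    rcases mul_eq_zero.mp this with h | h
    · exact absurd h hw1
    · exact h
  have hw0 : w ≠ 0 := by
    rintro rfl
    simp at hw3
  have hw2 : w ^ 2 ≠ 1 := by
    intro h
    apply hw
    have : w = w ^ 3 * (w ^ 2)⁻¹ := by field_simp
    rw [this, hw3, h]; simp
  have hw21 : w ^ 2 ≠ w := by
    intro h
    apply hw
    have : w * (w - 1) = 0 := by ring_nf; rw [h]; ring
    rcases mul_eq_zero.mp this with h' | h'
    · exact absurd h' hw0
    · exact sub_eq_zero.mp h'
  -- the three eigenvalues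
  have root : ∀ c : F, (∃ v : Fin 3 → F, v ≠ 0 ∧ y *ᵥ v = c • v) → c ^ 3 = 1 →
      (y.charpoly - (Polynomial.X ^ 3 - 1)).eval c = 0 := by
    rintro c ⟨v, hv, hyv⟩ hc
    rw [Polynomial.eval_sub, Matrix.eval_charpoly]
    have hdet : (Matrix.scalar (Fin 3) c - y).det = 0 := by
      apply Matrix.exists_mulVec_eq_zero_iff.mp
      refine ⟨v, hv, ?_⟩
      rw [Matrix.sub_mulVec, hyv, sub_eq_zero]
      ext i
      simp [Matrix.mulVec, dotProduct, Matrix.scalar_apply, Matrix.diagonal_apply]
    rw [hdet]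
    simp [hc]
  have r1 := root 1 (sng3_exists_eigen w (w ^ 2) 1 (Ne.symm hw21) (by linear_combination hsum)
    (by linear_combination hsum + hw3) (by linear_combination hw3)
    y hy hker) (by ring)
  have r2 := root w (sng3_exists_eigen 1 (w ^ 2) w (Ne.symm hw2) (by linear_combination hsum)
    (by linear_combination hsum + hw3) (by linear_combination hw3) y hy hker) hw3
  have r3 := root (w ^ 2) (sng3_exists_eigen 1 w (w ^ 2) (Ne.symm hw) (by linear_combination hsum)
    (by linear_combination hsum + hw3) (by linear_combination hw3) y hy hker)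
    (by rw [← pow_mul, mul_comm, pow_mul, hw3, one_pow])
  have hdeg : (y.charpoly - (Polynomial.X ^ 3 - 1)).natDegree < 3 := by
    have hX : (Polynomial.X ^ 3 - 1 : Polynomial F) = Polynomial.X ^ 3 - Polynomial.C 1 := by simp
    have hm2 : (Polynomial.X ^ 3 - 1 : Polynomial F).Monic := by
      rw [hX]; exact Polynomial.monic_X_pow_sub_C 1 (by norm_num)
    have hd2 : (Polynomial.X ^ 3 - 1 : Polynomial F).natDegree = 3 := by
      rw [hX]; exact Polynomial.natDegree_X_pow_sub_C
    have hm1 := Matrix.charpoly_monic y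
    have hd1 : y.charpoly.natDegree = 3 := by
      rw [Matrix.charpoly_natDegree_eq_dim]; simp
    by_cases h0 : y.charpoly - (Polynomial.X ^ 3 - 1) = 0
    · rw [h0]; simp
    · have hdeg' : (y.charpoly - (Polynomial.X ^ 3 - 1)).degree < y.charpoly.degree := by
        apply Polynomial.degree_sub_lt
        · rw [Polynomial.degree_eq_natDegree hm1.ne_zero, Polynomial.degree_eq_natDegree hm2.ne_zero,
            hd1, hd2]
        · exact hm1.ne_zero
        · rw [hm1.leadingCoeff, hm2.leadingCoeff]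
      rw [Polynomial.degree_eq_natDegree hm1.ne_zero, hd1] at hdeg'
      exact (Polynomial.natDegree_lt_iff_degree_lt h0).mpr hdeg'
  have hzero : y.charpoly - (Polynomial.X ^ 3 - 1) = 0 := by
    apply Polynomial.eq_zero_of_natDegree_lt_card_of_eval_eq_zero' _ ({1, w, w ^ 2} : Finset F)
    · intro i hi
      simp only [Finset.mem_insert, Finset.mem_singleton] at hi
      rcases hi with rfl | rfl | rfl
      · exact r1
      · exact r2
      · exact r3
    · have hcard : ({1, w, w ^ 2} : Finset F).card = 3 := by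
        rw [Finset.card_insert_of_notMem, Finset.card_insert_of_notMem, Finset.card_singleton]
        · simp only [Finset.mem_singleton]
          exact Ne.symm hw21
        · simp only [Finset.mem_insert, Finset.mem_singleton, not_or]
          exact ⟨Ne.symm hw, Ne.symm hw2⟩
      rw [hcard]
      exact hdeg
  exact sub_eq_zero.mp hzero

theorem sng3_eigen_le_one {F : Type*} [Field F] (h3 : (3 : F) ≠ 0) (x : Matrix (Fin 3) (Fin 3) F)
    (hx : x ^ 3 = 1) (hdet : x.det = 1)
    (hns : ∀ z : F, x ≠ z • (1 : Matrix (Fin 3) (Fin 3) F)) (c : F) :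
    Module.finrank F ↥(LinearMap.ker (Matrix.toLin' x - c • 1)) ≤ 1 := by
  classical
  by_contra hcon
  push Not at hcon
  obtain ⟨T, hT⟩ : ∃ T : Module.End F (Fin 3 → F), T = Matrix.toLin' x - c • 1 := ⟨_, rfl⟩
  rw [← hT] at hcon
  have hTapp : ∀ v : Fin 3 → F, T v = x *ᵥ v - c • v := by
    intro v
    rw [hT, LinearMap.sub_apply, Matrix.toLin'_apply, LinearMap.smul_apply, Module.End.one_apply]
  have hpos : 0 < Module.finrank F (LinearMap.ker T) := by omega
  obtain ⟨⟨v, hvker⟩, hv0⟩ := Module.finrank_pos_iff_exists_ne_zero.mp hpos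
  have hv0' : v ≠ 0 := fun h => hv0 (Subtype.ext h)
  have hxv : x *ᵥ v = c • v := by
    have := LinearMap.mem_ker.mp hvker
    rw [hTapp, sub_eq_zero] at this
    exact this
  have hc3 : c ^ 3 = 1 := by
    have h1 : (x ^ 3) *ᵥ v = c ^ 3 • v := by
      rw [pow_succ, pow_succ, pow_one, ← Matrix.mulVec_mulVec, ← Matrix.mulVec_mulVec, hxv,
        Matrix.mulVec_smul, hxv, Matrix.mulVec_smul, Matrix.mulVec_smul, hxv, smul_smul,
        smul_smul]
      congr 1
      ring
    rw [hx, Matrix.one_mulVec] at h1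
    by_contra hne
    apply hv0'
    have h2 : (c ^ 3 - 1) • v = 0 := by
      rw [sub_smul, one_smul, ← h1, sub_self]
    rcases smul_eq_zero.mp h2 with h | h
    · exact absurd (sub_eq_zero.mp h) hne
    · exact h
  have hc0 : c ≠ 0 := by
    rintro rfl
    simp at hc3
  have hrange : Module.finrank F (LinearMap.range T) ≤ 1 := by
    have := LinearMap.finrank_range_add_finrank_ker T
    rw [Module.finrank_fin_fun] at this
    omega
  obtain ⟨u0, hu0⟩ := finrank_le_one_iff.mp hrange
  have hφ : ∀ j : Fin 3, ∃ a : F, a • (u0 : Fin 3 → F) = T (Pi.single j 1) := by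
    intro j
    obtain ⟨a, ha⟩ := hu0 ⟨T (Pi.single j 1), LinearMap.mem_range_self T _⟩
    exact ⟨a, congrArg Subtype.val ha⟩
  choose φ hφ using hφ
  obtain ⟨u, hu⟩ : ∃ u : Fin 3 → F, u = (u0 : Fin 3 → F) := ⟨_, rfl⟩
  rw [← hu] at hφ
  have hent : ∀ i j, x i j = c * (1 : Matrix (Fin 3) (Fin 3) F) i j + φ j * u i := by
    intro i j
    have h1 := congrFun (hφ j) i
    rw [hTapp, Pi.smul_apply, Pi.sub_apply, Pi.smul_apply, Matrix.mulVec_single_one,
      smul_eq_mul, smul_eq_mul, Matrix.col_apply] at h1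
    have h2 : (Pi.single j (1 : F) : Fin 3 → F) i = (1 : Matrix (Fin 3) (Fin 3) F) i j := by
      rw [Matrix.one_apply, Pi.single_apply]
    rw [h2] at h1
    linear_combination -h1
  have hdet' : x.det = c ^ 3 + c ^ 2 * (φ 0 * u 0 + φ 1 * u 1 + φ 2 * u 2) := by
    rw [Matrix.det_fin_three]
    simp only [hent, Matrix.one_apply]
    simp
    ring
  have hdot : φ 0 * u 0 + φ 1 * u 1 + φ 2 * u 2 = 0 := by
    rw [hdet, hc3] at hdet'
    have h : c ^ 2 * (φ 0 * u 0 + φ 1 * u 1 + φ 2 * u 2) = 0 := by linear_combination -hdet'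
    rcases mul_eq_zero.mp h with h | h
    · exact absurd (pow_eq_zero_iff (by norm_num) |>.mp h) hc0
    · exact h
  obtain ⟨n, hn⟩ : ∃ n : Matrix (Fin 3) (Fin 3) F, n = x - c • 1 := ⟨_, rfl⟩
  have hnent : ∀ i j, n i j = φ j * u i := by
    intro i j
    rw [hn, Matrix.sub_apply, Matrix.smul_apply, smul_eq_mul, hent i j]
    ring
  have hnn : n * n = 0 := by
    ext i k
    rw [Matrix.mul_apply, Fin.sum_univ_three]
    simp only [hnent, Matrix.zero_apply]
    linear_combination (u i * φ k) * hdot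
  have hxe : x = c • (1 : Matrix (Fin 3) (Fin 3) F) + n := by rw [hn]; abel
  have hx3 : x ^ 3 = (c ^ 3) • (1 : Matrix (Fin 3) (Fin 3) F) + (3 * c ^ 2) • n := by
    have e : (c • (1 : Matrix (Fin 3) (Fin 3) F) + n) ^ 3 =
        (c ^ 3) • (1 : Matrix (Fin 3) (Fin 3) F) + (3 * c ^ 2) • n + (3 * c) • (n * n) +
          n * n * n := by
      simp only [pow_succ, pow_zero, one_mul, add_mul, mul_add, Matrix.smul_mul, Matrix.mul_smul,
        Matrix.one_mul, Matrix.mul_one, smul_add, smul_smul]
      module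
    rw [hxe, e, hnn]
    simp
  rw [hx, hc3, one_smul] at hx3
  have hn0 : n = 0 := by
    have h : (3 * c ^ 2) • n = 0 := by
      have h' := hx3.symm
      rwa [add_eq_left] at h'
    rcases smul_eq_zero.mp h with h | h
    · exfalso
      rcases mul_eq_zero.mp h with h' | h'
      · exact h3 h'
      · exact hc0 (pow_eq_zero_iff (by norm_num) |>.mp h')
    · exact h
  apply hns c
  rw [hxe, hn0, add_zero]

end Cfsg.Agent.Helper84
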