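import Mathlib
import Cfsg.Prelude.Def_GeometricClasses
import Cfsg.Prelude.Def_LieClassical
import Cfsg.Agent.Helper69.E4Def
import Cfsg.Agent.Helper69.E4UDef
import Cfsg.Agent.Helper97.UForm
import Cfsg.Agent.Helper40.SemisimpleMat

set_option autoImplicit false

/-!
# Piece DICH3 of S6001 (helper84): a unitary element of order 3 of `GL_4(F_{p^2})`, `p ≡ 1 (mod 3)`,
is diagonalisable with eigenvalues `ω, ω², ω, ω²` or `ω, ω², 1, 1`.
-/

namespace Cfsg.Agent.Helper84
open Cfsg.Agent.Helper69 Cfsg.Agent.Helper97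
open scoped Matrix
open Polynomial

/-- diagonalisation of a matrix of order 3 when the field contains the cube roots of unity -/
theorem e4u_diag_three {F : Type*} [Field F] (h3 : (3 : F) ≠ 0) (ω : F)
    (hω : ω ^ 2 + ω + 1 = 0) (y : Matrix (Fin 4) (Fin 4) F) (hy : y ^ 3 = 1) :
    ∃ (Q : Matrix (Fin 4) (Fin 4) F) (d : Fin 4 → F), Q.det ≠ 0 ∧
      (∀ i, d i = 1 ∨ d i = ω ∨ d i = ω ^ 2) ∧ y * Q = Q * Matrix.diagonal d := by
  classical
  have hyyy : y * y * y = 1 := by rw [← pow_two, ← pow_succ, hy]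
  have hω3 : ω ^ 3 = 1 := by linear_combination (ω - 1) * hω
  set s : Set (Fin 4 → F) := {w | y *ᵥ w = w ∨ y *ᵥ w = ω • w ∨ y *ᵥ w = ω ^ 2 • w} with hs
  have hy3v : ∀ w : Fin 4 → F, y *ᵥ (y *ᵥ (y *ᵥ w)) = w := by
    intro w
    rw [Matrix.mulVec_mulVec, Matrix.mulVec_mulVec, hyyy, Matrix.one_mulVec]
  have hspan : Submodule.span F s = ⊤ := by
    rw [eq_top_iff]
    intro w _
    have hb := hy3v w
    have h1 : w + y *ᵥ w + y *ᵥ (y *ᵥ w) ∈ s := by
      left
      rw [Matrix.mulVec_add, Matrix.mulVec_add, hb]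
      abel
    have h2 : w + ω ^ 2 • y *ᵥ w + ω • y *ᵥ (y *ᵥ w) ∈ s := by
      right; left
      rw [Matrix.mulVec_add, Matrix.mulVec_add, Matrix.mulVec_smul, Matrix.mulVec_smul, hb]
      funext j
      simp only [Pi.add_apply, Pi.smul_apply, smul_eq_mul]
      linear_combination (-((y *ᵥ w) j)) * hω3
    have h3' : w + ω • y *ᵥ w + ω ^ 2 • y *ᵥ (y *ᵥ w) ∈ s := by
      right; right
      rw [Matrix.mulVec_add, Matrix.mulVec_add, Matrix.mulVec_smul, Matrix.mulVec_smul, hb]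
      funext j
      simp only [Pi.add_apply, Pi.smul_apply, smul_eq_mul]
      linear_combination (-((y *ᵥ w) j) - ω * (y *ᵥ (y *ᵥ w)) j) * hω3
    have hw : w = (3 : F)⁻¹ • ((w + y *ᵥ w + y *ᵥ (y *ᵥ w)) +
        (w + ω ^ 2 • y *ᵥ w + ω • y *ᵥ (y *ᵥ w)) + (w + ω • y *ᵥ w + ω ^ 2 • y *ᵥ (y *ᵥ w))) := by
      have : (w + y *ᵥ w + y *ᵥ (y *ᵥ w)) + (w + ω ^ 2 • y *ᵥ w + ω • y *ᵥ (y *ᵥ w)) +
          (w + ω • y *ᵥ w + ω ^ 2 • y *ᵥ (y *ᵥ w)) = (3 : F) • w := by
        funext j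
        simp only [Pi.add_apply, Pi.smul_apply, smul_eq_mul]
        linear_combination ((y *ᵥ w) j + (y *ᵥ (y *ᵥ w)) j) * hω
      rw [this, smul_smul, inv_mul_cancel₀ h3, one_smul]
    rw [hw]
    exact Submodule.smul_mem _ _ (Submodule.add_mem _ (Submodule.add_mem _
      (Submodule.subset_span h1) (Submodule.subset_span h2)) (Submodule.subset_span h3'))
  obtain ⟨b, hbs, hbspan, hbli⟩ := exists_linearIndependent F s
  have hbtop : ⊤ ≤ Submodule.span F (Set.range ((↑) : b → (Fin 4 → F))) := by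
    rw [Subtype.range_coe, hbspan, hspan]
  let B0 : Module.Basis b F (Fin 4 → F) := Module.Basis.mk hbli hbtop
  let e : b ≃ Fin 4 := B0.indexEquiv (Pi.basisFun F (Fin 4))
  let B : Module.Basis (Fin 4) F (Fin 4 → F) := B0.reindex e
  have hBs : ∀ i, B i ∈ s := by
    intro i
    have : B i = ((e.symm i : b) : Fin 4 → F) := by
      simp [B, B0]
    rw [this]
    exact hbs (e.symm i).2
  let d : Fin 4 → F := fun i => if y *ᵥ (B i) = B i then 1 else
    if y *ᵥ (B i) = ω • B i then ω else ω ^ 2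
  have hdB : ∀ i, y *ᵥ (B i) = d i • B i := by
    intro i
    by_cases h : y *ᵥ (B i) = B i
    · simp only [d, if_pos h, one_smul]; exact h
    · by_cases h' : y *ᵥ (B i) = ω • B i
      · simp only [d, if_neg h, if_pos h']; exact h'
      · simp only [d, if_neg h, if_neg h']
        exact ((hBs i).resolve_left h).resolve_left h'
  refine ⟨(Matrix.of (fun i => B i))ᵀ, d, ?_, ?_, ?_⟩
  · rw [Matrix.det_transpose]
    have hli : LinearIndependent F (Matrix.of (fun i => B i) : Matrix (Fin 4) (Fin 4) F).row := by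
      have : (Matrix.of (fun i => B i) : Matrix (Fin 4) (Fin 4) F).row = fun i => B i := rfl
      rw [this]
      exact B.linearIndependent
    have hu := Matrix.linearIndependent_rows_iff_isUnit.mp hli
    exact (Matrix.isUnit_iff_isUnit_det _).mp hu |>.ne_zero
  · intro i
    by_cases h : y *ᵥ (B i) = B i
    · left; simp only [d, if_pos h]
    · by_cases h' : y *ᵥ (B i) = ω • B i
      · right; left; simp only [d, if_neg h, if_pos h']
      · right; right; simp only [d, if_neg h, if_neg h']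
  · ext j i
    have h1 := congrFun (hdB i) j
    rw [Matrix.mul_diagonal]
    simp only [Matrix.transpose_apply, Matrix.of_apply]
    rw [Pi.smul_apply, smul_eq_mul] at h1
    rw [mul_comm, ← h1]
    rfl

set_option maxHeartbeats 4000000 in
/-- the case analysis on four cube roots of unity with `∑ d² = ∑ d` -/
theorem e4u_three_cases {F : Type*} [Field F] (h2 : (2 : F) ≠ 0) (h3 : (3 : F) ≠ 0) (ω : F)
    (hω : ω ^ 2 + ω + 1 = 0) (d0 d1 d2 d3 : F)
    (k0 : d0 = 1 ∨ d0 = ω ∨ d0 = ω ^ 2) (k1 : d1 = 1 ∨ d1 = ω ∨ d1 = ω ^ 2)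
    (k2 : d2 = 1 ∨ d2 = ω ∨ d2 = ω ^ 2) (k3 : d3 = 1 ∨ d3 = ω ∨ d3 = ω ^ 2)
    (htr : d0 * d0 + d1 * d1 + d2 * d2 + d3 * d3 = d0 + d1 + d2 + d3)
    (hall : ¬ (d0 = 1 ∧ d1 = 1 ∧ d2 = 1 ∧ d3 = 1)) :
    (X - C d0) * (X - C d1) * (X - C d2) * (X - C d3) =
        (X - C ω) * (X - C (ω ^ 2)) * (X - C ω) * (X - C (ω ^ 2)) ∨
      (X - C d0) * (X - C d1) * (X - C d2) * (X - C d3) =
        (X - C ω) * (X - C (ω ^ 2)) * (X - C 1) * (X - C 1) := by
  have hω3 : ω ^ 3 = 1 := by linear_combination (ω - 1) * hω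
  have hω4 : ω ^ 2 * ω ^ 2 = ω := by linear_combination ω * hω3
  have hωne : ω ^ 2 - ω ≠ 0 := by
    intro h
    have h1 : ω * (ω - 1) = 0 := by linear_combination h
    rcases mul_eq_zero.mp h1 with h0 | h0
    · rw [h0] at hω
      norm_num at hω
    · have h5 : ω = 1 := sub_eq_zero.mp h0
      rw [h5] at hω
      apply h3
      linear_combination hω
  have hbad : ∀ k : F, (k = 1 ∨ k = 2 ∨ k = 3 ∨ k = 4) → k * (ω ^ 2 - ω) ≠ 0 := by
    rintro k (rfl | rfl | rfl | rfl) <;> refine mul_ne_zero ?_ hωne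
    · exact one_ne_zero
    · exact h2
    · exact h3
    · have h4 : (4 : F) = 2 * 2 := by norm_num
      rw [h4]
      exact mul_ne_zero h2 h2
  rcases k0 with rfl | rfl | rfl <;> rcases k1 with rfl | rfl | rfl <;>
    rcases k2 with rfl | rfl | rfl <;> rcases k3 with rfl | rfl | rfl <;>
    first
    | exact absurd ⟨rfl, rfl, rfl, rfl⟩ hall
    | (exfalso; try simp only [hω4] at htr
       first
       | exact hbad 1 (Or.inl rfl) (by linear_combination htr)
       | exact hbad 1 (Or.inl rfl) (by linear_combination -htr)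
       | exact hbad 2 (Or.inr (Or.inl rfl)) (by linear_combination htr)
       | exact hbad 2 (Or.inr (Or.inl rfl)) (by linear_combination -htr)
       | exact hbad 3 (Or.inr (Or.inr (Or.inl rfl))) (by linear_combination htr)
       | exact hbad 3 (Or.inr (Or.inr (Or.inl rfl))) (by linear_combination -htr)
       | exact hbad 4 (Or.inr (Or.inr (Or.inr rfl))) (by linear_combination htr)
       | exact hbad 4 (Or.inr (Or.inr (Or.inr rfl))) (by linear_combination -htr))
    | (left; ring1)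
    | (right; ring1)


theorem e4u_order_three_split {F : Type*} [Field F] [Fintype F] {p : ℕ} [Fact p.Prime]
    [CharP F p] (hF : Fintype.card F = p ^ 2) (hp3 : p % 3 = 1) (h2 : (2 : F) ≠ 0)
    (σ : F ≃+* F) (hσ : IsSigma p σ) (ω : F) (hω : ω ^ 2 + ω + 1 = 0) (hσω : σ ω = ω)
    (y : Matrix (Fin 4) (Fin 4) F) (hU : yᵀ * y.map σ = 1) (hy : y ^ 3 = 1) (hy1 : y ≠ 1) :
    ∃ B₀ : Matrix (Fin 4) (Fin 4) F, B₀.det ≠ 0 ∧
      (y * B₀ = B₀ * e4uD1 ω ∨ y * B₀ = B₀ * e4uD2 ω) := by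
  classical
  have hp : p.Prime := Fact.out
  have h3 : (3 : F) ≠ 0 := by
    intro h
    have h1 : ((3 : ℕ) : F) = 0 := by exact_mod_cast h
    rw [CharP.cast_eq_zero_iff F p] at h1
    have h2' := Nat.le_of_dvd (by norm_num) h1
    have := hp.two_le
    interval_cases p <;> omega
  have hcop : Nat.Coprime 3 p := by
    rw [Nat.coprime_primes Nat.prime_three hp]
    intro h
    rw [← h] at hp3
    norm_num at hp3
  have hω3 : ω ^ 3 = 1 := by linear_combination (ω - 1) * hω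
  have hω4 : ω ^ 2 * ω ^ 2 = ω := by linear_combination ω * hω3
  have hωne : ω ^ 2 - ω ≠ 0 := by
    intro h
    have h1 : ω * (ω - 1) = 0 := by linear_combination h
    rcases mul_eq_zero.mp h1 with h0 | h0
    · rw [h0] at hω
      norm_num at hω
    · have h5 : ω = 1 := sub_eq_zero.mp h0
      rw [h5] at hω
      apply h3
      linear_combination hω
  obtain ⟨Q, d, hQ, hd, hyQ⟩ := e4u_diag_three h3 ω hω y hy
  have hQu : IsUnit Q.det := isUnit_iff_ne_zero.mpr hQ
  have hyeq : y = Q * Matrix.diagonal d * Q⁻¹ := by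
    rw [← hyQ, Matrix.mul_assoc, Matrix.mul_nonsing_inv _ hQu, Matrix.mul_one]
  have htr1 : y.trace = ∑ i, d i := by
    rw [hyeq, Matrix.trace_mul_comm, ← Matrix.mul_assoc, Matrix.nonsing_inv_mul _ hQu,
      Matrix.one_mul, Matrix.trace_diagonal]
  have hy2Q : y * y * Q = Q * (Matrix.diagonal d * Matrix.diagonal d) := by
    rw [Matrix.mul_assoc, hyQ, ← Matrix.mul_assoc, hyQ, Matrix.mul_assoc]
  have htr2 : (y * y).trace = ∑ i, d i * d i := by
    have h5 : y * y = Q * (Matrix.diagonal d * Matrix.diagonal d) * Q⁻¹ := by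
      rw [← hy2Q, Matrix.mul_assoc, Matrix.mul_nonsing_inv _ hQu, Matrix.mul_one]
    rw [h5, Matrix.trace_mul_comm, ← Matrix.mul_assoc, Matrix.nonsing_inv_mul _ hQu,
      Matrix.one_mul, Matrix.diagonal_mul_diagonal, Matrix.trace_diagonal]
  have hU' : (y.map σ)ᵀ * y = 1 := by
    have h5 := congrArg Matrix.transpose hU
    rwa [Matrix.transpose_mul, Matrix.transpose_transpose, Matrix.transpose_one] at h5
  have hyy : y * y = (y.map σ)ᵀ := by
    have h5 : (y.map σ)ᵀ * (y * (y * y)) = (y.map σ)ᵀ := by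
      have h6 : y * (y * y) = 1 := by rw [← pow_two, ← pow_succ', hy]
      rw [h6, Matrix.mul_one]
    rw [← Matrix.mul_assoc, hU', Matrix.one_mul] at h5
    exact h5
  have htr3 : ((y.map σ)ᵀ).trace = σ y.trace := by
    rw [Matrix.trace_transpose]
    simp [Matrix.trace, map_sum]
  have hσd : ∀ i, σ (d i) = d i := by
    intro i
    rcases hd i with h | h | h
    · rw [h, map_one]
    · rw [h, hσω]
    · rw [h, map_pow, hσω]
  have htr : ∑ i, d i * d i = ∑ i, d i := by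
    rw [← htr2, hyy, htr3, htr1, map_sum]
    exact Finset.sum_congr rfl (fun i _ => hσd i)
  have hcp : y.charpoly = (X - C (d 0)) * (X - C (d 1)) * (X - C (d 2)) * (X - C (d 3)) := by
    rw [hyeq, Matrix.charpoly_mul_comm, ← Matrix.mul_assoc, Matrix.nonsing_inv_mul _ hQu,
      Matrix.one_mul, Matrix.charpoly_diagonal, Fin.prod_univ_four]
  have hD1 : (e4uD1 ω).charpoly = (X - C ω) * (X - C (ω ^ 2)) * (X - C ω) * (X - C (ω ^ 2)) := by
    unfold e4uD1
    rw [Matrix.charpoly_diagonal, Fin.prod_univ_four]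
    rfl
  have hD2 : (e4uD2 ω).charpoly = (X - C ω) * (X - C (ω ^ 2)) * (X - C 1) * (X - C 1) := by
    unfold e4uD2
    rw [Matrix.charpoly_diagonal, Fin.prod_univ_four]
    rfl
  have hω6 : (ω ^ 2) ^ 3 = 1 := by linear_combination (ω ^ 3 + 1) * hω3
  have hD1p : e4uD1 ω ^ 3 = 1 := by
    unfold e4uD1
    rw [Matrix.diagonal_pow, ← Matrix.diagonal_one]
    congr 1
    funext i
    fin_cases i <;> simp [hω3, hω6]
  have hD2p : e4uD2 ω ^ 3 = 1 := by
    unfold e4uD2
    rw [Matrix.diagonal_pow, ← Matrix.diagonal_one]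
    congr 1
    funext i
    fin_cases i <;> simp [hω3, hω6]
  have hall : ¬ ∀ i, d i = 1 := by
    intro h
    apply hy1
    have h5 : Matrix.diagonal d = 1 := by
      rw [← Matrix.diagonal_one]
      congr 1
      funext i
      exact h i
    rw [hyeq, h5, Matrix.mul_one, Matrix.mul_nonsing_inv _ hQu]
  have hcases : y.charpoly = (e4uD1 ω).charpoly ∨ y.charpoly = (e4uD2 ω).charpoly := by
    rw [hcp, hD1, hD2]
    rw [Fin.sum_univ_four, Fin.sum_univ_four] at htr
    refine e4u_three_cases h2 h3 ω hω (d 0) (d 1) (d 2) (d 3) (hd 0) (hd 1) (hd 2) (hd 3) htr ?_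
    rintro ⟨e0, e1, e2, e3⟩
    apply hall
    intro i
    fin_cases i
    · exact e0
    · exact e1
    · exact e2
    · exact e3
  have hfin : ∀ D : Matrix (Fin 4) (Fin 4) F, D ^ 3 = 1 → y.charpoly = D.charpoly →
      ∃ B₀ : Matrix (Fin 4) (Fin 4) F, B₀.det ≠ 0 ∧ y * B₀ = B₀ * D := by
    intro D hD hc
    obtain ⟨P, hP, hPy⟩ := Cfsg.Agent.Helper40.exists_conj_matrix p hcop hcop y D hy hD hc
    have hPu : IsUnit P.det := by rw [hP]; exact isUnit_one
    refine ⟨P⁻¹, ?_, ?_⟩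
    · rw [Matrix.det_nonsing_inv, hP]
      simp
    · calc y * P⁻¹ = P⁻¹ * (P * y) * P⁻¹ := by
            rw [← Matrix.mul_assoc, Matrix.nonsing_inv_mul _ hPu, Matrix.one_mul]
        _ = P⁻¹ * (D * P) * P⁻¹ := by rw [hPy]
        _ = P⁻¹ * D := by
            rw [Matrix.mul_assoc, Matrix.mul_assoc, Matrix.mul_nonsing_inv _ hPu, Matrix.mul_one]
  rcases hcases with hc | hc
  · obtain ⟨B₀, hB, hyB⟩ := hfin _ hD1p hc
    exact ⟨B₀, hB, Or.inl hyB⟩
  · obtain ⟨B₀, hB, hyB⟩ := hfin _ hD2p hc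
    exact ⟨B₀, hB, Or.inr hyB⟩

end Cfsg.Agent.Helper84
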