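import Mathlib
import Cfsg.Agent.Helper9.BRDefs
import Cfsg.Agent.Helper9.BRSimple
import Cfsg.Agent.Helper75.BRNF
import Cfsg.Agent.Helper75.BRT1
import Cfsg.Agent.Helper75.BRT3
import Cfsg.Agent.Helper75.BRT4
import Cfsg.Agent.Helper3.CharBasic
import Cfsg.Agent.Helper81.CharBasic

/-!
# PIECE POS of CALL S0997 (helper84): in case (α) an exceptional character has absolute value
at most one on the `p`-regular elements where it is smaller than its degree.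
-/

set_option autoImplicit false
open Cfsg
open scoped ComplexConjugate

universe u

namespace Cfsg.Agent.Helper84

theorem s997_re_im (a b : ℝ) (h : (a : ℂ) = (b : ℂ) * Complex.I) : a = 0 ∧ b = 0 := by
  have h1 := congrArg Complex.re h
  have h2 := congrArg Complex.im h
  simp at h1 h2
  exact ⟨h1, h2.symm⟩

theorem s997_pos_alg (Gc N1 N2 e : ℕ) (he : 3 ≤ e) (hG : 0 < Gc) (τ : ℂ)
    (h2 : (N2 : ℂ) * (2 * (e : ℂ) * ((e : ℂ) + 1))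
      = (Gc : ℂ) * (2 * (e : ℂ) + 1) * ((e : ℂ) + τ * conj τ - ((e : ℂ) + 1) * conj τ))
    (h1 : (N1 : ℂ) * (2 * (e : ℂ) * ((e : ℂ) + 1))
      = (Gc : ℂ) * (2 * (e : ℂ) + 1) * ((e : ℂ) + τ * conj τ + ((e : ℂ) + 1) * conj τ))
    (hlt : ‖τ‖ < (e : ℝ)) : ‖τ‖ ≤ 1 := by
  obtain ⟨x, v, rfl⟩ : ∃ x v : ℝ, τ = (x : ℂ) + (v : ℂ) * Complex.I :=
    ⟨τ.re, τ.im, (Complex.re_add_im τ).symm⟩
  have hc : conj ((x : ℂ) + (v : ℂ) * Complex.I) = (x : ℂ) - (v : ℂ) * Complex.I := by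
    rw [map_add, map_mul, Complex.conj_ofReal, Complex.conj_ofReal, Complex.conj_I]
    ring
  rw [hc] at h1 h2
  have hI : Complex.I ^ 2 = -1 := Complex.I_sq
  have k2 : (((N2 : ℝ) * (2 * e * (e + 1))
      - (Gc : ℝ) * (2 * e + 1) * (e + x ^ 2 + v ^ 2 - (e + 1) * x) : ℝ) : ℂ)
      = (((Gc : ℝ) * (2 * e + 1) * (e + 1) * v : ℝ) : ℂ) * Complex.I := by
    push_cast
    linear_combination h2 - ((Gc : ℂ) * (2 * (e : ℂ) + 1) * (v : ℂ) ^ 2) * hI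
  have k1 : (((N1 : ℝ) * (2 * e * (e + 1))
      - (Gc : ℝ) * (2 * e + 1) * (e + x ^ 2 + v ^ 2 + (e + 1) * x) : ℝ) : ℂ)
      = ((-((Gc : ℝ) * (2 * e + 1) * (e + 1) * v) : ℝ) : ℂ) * Complex.I := by
    push_cast
    linear_combination h1 - ((Gc : ℂ) * (2 * (e : ℂ) + 1) * (v : ℂ) ^ 2) * hI
  obtain ⟨a2, b2⟩ := s997_re_im _ _ k2
  obtain ⟨a1, b1⟩ := s997_re_im _ _ k1
  have hGr : (0 : ℝ) < Gc := by exact_mod_cast hG
  have her : (3 : ℝ) ≤ e := by exact_mod_cast he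
  have hv : v = 0 := by
    have h0 : (Gc : ℝ) * (2 * e + 1) * (e + 1) ≠ 0 := by positivity
    exact (mul_eq_zero.mp b2).resolve_left h0
  subst hv
  have hN2 : (0 : ℝ) ≤ N2 := Nat.cast_nonneg _
  have hN1 : (0 : ℝ) ≤ N1 := Nat.cast_nonneg _
  have hnorm : ‖((x : ℂ) + ((0 : ℝ) : ℂ) * Complex.I)‖ = |x| := by
    rw [Complex.ofReal_zero, zero_mul, add_zero, Complex.norm_real, Real.norm_eq_abs]
  rw [hnorm] at hlt ⊢
  have hx := abs_lt.mp hlt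
  have hpos : 0 < (Gc : ℝ) * (2 * e + 1) := by positivity
  have p2 : 0 ≤ (x - 1) * (x - e) := by
    have h : (Gc : ℝ) * (2 * e + 1) * ((x - 1) * (x - e)) = (N2 : ℝ) * (2 * e * (e + 1)) := by
      linear_combination -a2
    have h' : 0 ≤ (Gc : ℝ) * (2 * e + 1) * ((x - 1) * (x - e)) := by
      rw [h]
      positivity
    exact (mul_nonneg_iff_of_pos_left hpos).mp h'
  have p1 : 0 ≤ (x + 1) * (x + e) := by
    have h : (Gc : ℝ) * (2 * e + 1) * ((x + 1) * (x + e)) = (N1 : ℝ) * (2 * e * (e + 1)) := by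
      linear_combination -a1
    have h' : 0 ≤ (Gc : ℝ) * (2 * e + 1) * ((x + 1) * (x + e)) := by
      rw [h]
      positivity
    exact (mul_nonneg_iff_of_pos_left hpos).mp h'
  rw [abs_le]
  constructor
  · by_contra hcon
    rw [not_le] at hcon
    have h3 := mul_neg_of_neg_of_pos (by linarith : x + 1 < 0) (by linarith : 0 < x + e)
    linarith
  · by_contra hcon
    rw [not_le] at hcon
    have h3 := mul_neg_of_pos_of_neg (by linarith : 0 < x - 1) (by linarith : x - e < 0)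
    linarith

theorem s997_irr_inv {G : Type u} [Group G] [Finite G] (χ : Cfsg.IrrCharacter G) (x : G) :
    (χ : G → ℂ) x⁻¹ = conj ((χ : G → ℂ) x) := by
  obtain ⟨n, ρ, -, hχ⟩ := χ.2
  rw [← hχ]
  exact Cfsg.Agent.Helper3.character_inv ρ x

/-- POS -/
theorem s997_alpha_pos {G : Type u} [Group G] [Fintype G] {p : ℕ} [Fact p.Prime]
    {M : Ideal Cfsg.AlgInt} (hM : Cfsg.IsPModular p M) (P : Sylow p G)
    (hP : Nat.card (P : Subgroup G) = p) (e : ℕ)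
    (T : Cfsg.Agent.Helper9.BRTab p M P e) (hε : T.ε = 1) (hp : p = 2 * e + 1) (he3 : 3 ≤ e)
    (hX1 : ∀ χ ∈ T.X1, Cfsg.charDegree (χ : G → ℂ) = p + 1)
    (hX2 : ∀ χ ∈ T.X2, Cfsg.charDegree (χ : G → ℂ) = p - 1)
    (hf : ∀ θ ∈ T.Y, Cfsg.charDegree (θ : G → ℂ) = e)
    (θ : Cfsg.IrrCharacter G) (hθ : θ ∈ T.Y)
    (hexd : ∀ g : G, (θ : G → ℂ) g * conj ((θ : G → ℂ) g) = 1 + ∑ ψ ∈ T.X1, (ψ : G → ℂ) g)
    (y : G) (hy : y ∈ (P : Subgroup G)) (hy1 : y ≠ 1)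
    (hsq : ∑ θ' ∈ T.Y, (θ' : G → ℂ) y ^ 2 = -(e : ℂ))
    (hcc : ∀ s : G, s ∈ (P : Subgroup G) → s ≠ 1 → ∀ g : G,
      (Nat.card {gh : G × G // gh.1 * y * gh.1⁻¹ * (gh.2 * s * gh.2⁻¹) = g} : ℂ)
        = (Nat.card G : ℂ) * (1
          + ∑ ψ ∈ T.X1, conj ((ψ : G → ℂ) g) / (ψ : G → ℂ) 1
          + ∑ ψ ∈ T.X2, conj ((ψ : G → ℂ) g) / (ψ : G → ℂ) 1
          + ∑ θ' ∈ T.Y, (θ' : G → ℂ) y * (θ' : G → ℂ) s * conj ((θ' : G → ℂ) g)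
              / (θ' : G → ℂ) 1))
    (g : G) (hg : ¬ p ∣ orderOf g) (hlt : ‖(θ : G → ℂ) g‖ < (e : ℝ)) :
    ‖(θ : G → ℂ) g‖ ≤ 1 := by
  classical
  have hYτ : ∀ θ' ∈ T.Y, (θ' : G → ℂ) g = (θ : G → ℂ) g :=
    fun θ' h => T.hYreg θ' h θ hθ g hg
  have hS1 : ∑ ψ ∈ T.X1, (ψ : G → ℂ) g = (θ : G → ℂ) g * conj ((θ : G → ℂ) g) - 1 := by
    rw [hexd g]
    ring
  have hS2 : ∑ ψ ∈ T.X2, (ψ : G → ℂ) g
      = (θ : G → ℂ) g * conj ((θ : G → ℂ) g) - (θ : G → ℂ) g := by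
    have h := T.hrel θ hθ g hg
    rw [hε, hS1] at h
    push_cast at h
    linear_combination h
  have he0 : (e : ℂ) ≠ 0 := by exact_mod_cast (by omega : e ≠ 0)
  have he1 : (2 * (e : ℂ) + 2) ≠ 0 := by exact_mod_cast (by omega : 2 * e + 2 ≠ 0)
  have hdeg1 : ∀ ψ ∈ T.X1, (ψ : G → ℂ) 1 = 2 * (e : ℂ) + 2 := by
    intro ψ hψ
    rw [Cfsg.Agent.Helper81.irr_one_eq_charDegree, hX1 ψ hψ, hp]
    push_cast
    ring
  have hdeg2 : ∀ ψ ∈ T.X2, (ψ : G → ℂ) 1 = 2 * (e : ℂ) := by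
    intro ψ hψ
    rw [Cfsg.Agent.Helper81.irr_one_eq_charDegree, hX2 ψ hψ, hp]
    have h : 2 * e + 1 - 1 = 2 * e := by omega
    rw [h]
    push_cast
    ring
  have hdegY : ∀ θ' ∈ T.Y, (θ' : G → ℂ) 1 = (e : ℂ) := by
    intro θ' hθ'
    rw [Cfsg.Agent.Helper81.irr_one_eq_charDegree, hf θ' hθ']
  have hA : ∑ ψ ∈ T.X1, conj ((ψ : G → ℂ) g) / (ψ : G → ℂ) 1
      = ((θ : G → ℂ) g * conj ((θ : G → ℂ) g) - 1) / (2 * (e : ℂ) + 2) := by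
    rw [Finset.sum_congr rfl (fun ψ hψ => by rw [hdeg1 ψ hψ] :
      ∀ ψ ∈ T.X1, conj ((ψ : G → ℂ) g) / (ψ : G → ℂ) 1
        = conj ((ψ : G → ℂ) g) / (2 * (e : ℂ) + 2)), ← Finset.sum_div, ← map_sum, hS1, map_sub,
      map_mul, Complex.conj_conj, map_one, mul_comm]
  have hB : ∑ ψ ∈ T.X2, conj ((ψ : G → ℂ) g) / (ψ : G → ℂ) 1
      = ((θ : G → ℂ) g * conj ((θ : G → ℂ) g) - conj ((θ : G → ℂ) g)) / (2 * (e : ℂ)) := by
    rw [Finset.sum_congr rfl (fun ψ hψ => by rw [hdeg2 ψ hψ] :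
      ∀ ψ ∈ T.X2, conj ((ψ : G → ℂ) g) / (ψ : G → ℂ) 1
        = conj ((ψ : G → ℂ) g) / (2 * (e : ℂ))), ← Finset.sum_div, ← map_sum, hS2, map_sub,
      map_mul, Complex.conj_conj, mul_comm]
  have hC : ∀ s : G, ∑ θ' ∈ T.Y, (θ' : G → ℂ) y * (θ' : G → ℂ) s * conj ((θ' : G → ℂ) g)
        / (θ' : G → ℂ) 1
      = (∑ θ' ∈ T.Y, (θ' : G → ℂ) y * (θ' : G → ℂ) s) * conj ((θ : G → ℂ) g) / (e : ℂ) := by
    intro s
    rw [Finset.sum_mul, Finset.sum_div]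
    apply Finset.sum_congr rfl
    intro θ' hθ'
    rw [hYτ θ' hθ', hdegY θ' hθ']
  have hsum2 : ∑ θ' ∈ T.Y, (θ' : G → ℂ) y * (θ' : G → ℂ) y = -(e : ℂ) := by
    rw [← hsq]
    apply Finset.sum_congr rfl
    intro θ' _
    ring
  have hsum1 : ∑ θ' ∈ T.Y, (θ' : G → ℂ) y * (θ' : G → ℂ) y⁻¹ = (e : ℂ) + 1 := by
    have h := Cfsg.Agent.Helper75.br_block_sq_sum hM hP T y hy hy1
    have hpc : (p : ℂ) = 2 * (e : ℂ) + 1 := by
      rw [hp]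
      push_cast
      ring
    rw [hpc] at h
    rw [Finset.sum_congr rfl (fun θ' _ => by rw [s997_irr_inv θ' y] :
      ∀ θ' ∈ T.Y, (θ' : G → ℂ) y * (θ' : G → ℂ) y⁻¹
        = (θ' : G → ℂ) y * conj ((θ' : G → ℂ) y)), h]
    ring
  have hyi : y⁻¹ ∈ (P : Subgroup G) := inv_mem hy
  have hyi1 : y⁻¹ ≠ 1 := inv_ne_one.mpr hy1
  have h2 := hcc y hy hy1 g
  have h1 := hcc y⁻¹ hyi hyi1 g
  rw [hA, hB, hC, hsum2] at h2
  rw [hA, hB, hC, hsum1] at h1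
  refine s997_pos_alg (Nat.card G)
    (Nat.card {gh : G × G // gh.1 * y * gh.1⁻¹ * (gh.2 * y⁻¹ * gh.2⁻¹) = g})
    (Nat.card {gh : G × G // gh.1 * y * gh.1⁻¹ * (gh.2 * y * gh.2⁻¹) = g})
    e he3 Nat.card_pos ((θ : G → ℂ) g) ?_ ?_ hlt
  · rw [h2]
    field_simp
    ring
  · rw [h1]
    field_simp
    ring

end Cfsg.Agent.Helper84
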