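import Mathlib

/-!
# Piece NA of CALL S0998 (helper84): the numerical analysis of case α (`e = r`).
-/

set_option autoImplicit false

namespace Cfsg.Agent.Helper84

/-- NA -/
theorem s998_num_alpha {ι : Type*} (X1 X2 : Finset ι) (d : ι → ℕ) (p q r b t : ℕ)
    (hp : p.Prime) (hq : q.Prime) (hr : r.Prime) (hpq : p ≠ q) (hpr : p ≠ r) (hqr : q ≠ r)
    (hr3 : 3 ≤ r) (het : r * t = p - 1)
    (hd1 : ∀ χ ∈ X1, ((d χ : ℤ) ≡ 1 [ZMOD p]) ∧ 2 ≤ d χ ∧ d χ ∣ p * r * q ^ b)
    (hd2 : ∀ χ ∈ X2, ((d χ : ℤ) ≡ -1 [ZMOD p]) ∧ 2 ≤ d χ ∧ d χ ∣ p * r * q ^ b)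
    (hcount : 1 + X1.card + X2.card = r)
    (hB1 : (p : ℤ) + ∑ χ ∈ X1, ((d χ : ℤ) + ((p : ℤ) - 1))
        ≤ (r : ℤ) ^ 2 + (r : ℤ) * ((p : ℤ) - (r : ℤ)))
    (hB2 : ∑ χ ∈ X2, ((d χ : ℤ) - ((p : ℤ) - 1)) ≤ (r : ℤ) ^ 2 - (r : ℤ) ^ 2)
    (hB4 : ∑ χ ∈ X2, (d χ : ℤ) ≤ (r : ℤ) ^ 2) : r = 3 := by
  have hp2 := hp.two_le
  have hpZ : (0 : ℤ) < p := by exact_mod_cast hp.pos
  have hrZ : (0 : ℤ) < r := by exact_mod_cast hr.pos
  have hetZ : (r : ℤ) * t = p - 1 := by
    have h1 : ((r * t : ℕ) : ℤ) = ((p - 1 : ℕ) : ℤ) := by rw [het]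
    rw [Nat.cast_sub (by omega)] at h1
    push_cast at h1
    exact h1
  -- lower bounds for the degrees
  have hX2ge : ∀ χ ∈ X2, (p : ℤ) - 1 ≤ d χ := by
    intro χ hχ
    obtain ⟨hmod, -, -⟩ := hd2 χ hχ
    have hdvd : (p : ℤ) ∣ (d χ : ℤ) + 1 := by
      have h1 := Int.ModEq.dvd hmod
      have h' : (d χ : ℤ) + 1 = -(-1 - (d χ : ℤ)) := by ring
      rw [h']
      exact (dvd_neg).mpr h1
    have h2 := Int.le_of_dvd (by positivity) hdvd
    linarith
  have hX1ge : ∀ χ ∈ X1, (p : ℤ) + 1 ≤ d χ := by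
    intro χ hχ
    obtain ⟨hmod, h2, -⟩ := hd1 χ hχ
    have hdvd : (p : ℤ) ∣ (d χ : ℤ) - 1 := by
      have h1 := Int.ModEq.dvd hmod
      have h' : (d χ : ℤ) - 1 = -(1 - (d χ : ℤ)) := by ring
      rw [h']
      exact (dvd_neg).mpr h1
    have h2' : (2 : ℤ) ≤ d χ := by exact_mod_cast h2
    have h3 := Int.le_of_dvd (by linarith) hdvd
    linarith
  -- the degrees in `X2` are `p - 1`
  have hX2eq : ∀ χ ∈ X2, (d χ : ℤ) = p - 1 := by
    have hnn : ∀ χ ∈ X2, (0 : ℤ) ≤ (d χ : ℤ) - ((p : ℤ) - 1) :=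
      fun χ hχ => by linarith [hX2ge χ hχ]
    have hsum0 : ∑ χ ∈ X2, ((d χ : ℤ) - ((p : ℤ) - 1)) = 0 := by
      apply le_antisymm
      · linarith [hB2]
      · exact Finset.sum_nonneg hnn
    intro χ hχ
    have h1 := (Finset.sum_eq_zero_iff_of_nonneg hnn).mp hsum0 χ hχ
    linarith
  have hc : (X2.card : ℤ) * t ≤ r := by
    have h1 : ∑ χ ∈ X2, (d χ : ℤ) = (X2.card : ℤ) * ((p : ℤ) - 1) := by
      rw [Finset.sum_congr rfl hX2eq, Finset.sum_const, nsmul_eq_mul]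
    rw [h1, ← hetZ] at hB4
    by_contra hcon
    rw [not_le] at hcon
    have h2 : (r : ℤ) + 1 ≤ (X2.card : ℤ) * t := by linarith
    have h3 : (r : ℤ) * ((r : ℤ) + 1) ≤ (r : ℤ) * ((X2.card : ℤ) * t) :=
      mul_le_mul_of_nonneg_left h2 hrZ.le
    nlinarith
  have ha : 1 + 2 * (X1.card : ℤ) ≤ r := by
    have h1 : (X1.card : ℤ) * (2 * (p : ℤ)) ≤ ∑ χ ∈ X1, ((d χ : ℤ) + ((p : ℤ) - 1)) := by
      have h2 : ∑ χ ∈ X1, (2 * (p : ℤ)) ≤ ∑ χ ∈ X1, ((d χ : ℤ) + ((p : ℤ) - 1)) :=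
        Finset.sum_le_sum (fun χ hχ => by linarith [hX1ge χ hχ])
      rwa [Finset.sum_const, nsmul_eq_mul] at h2
    by_contra hcon
    rw [not_le] at hcon
    have h2 : (r : ℤ) + 1 ≤ 1 + 2 * (X1.card : ℤ) := by linarith
    have h3 : (p : ℤ) * ((r : ℤ) + 1) ≤ (p : ℤ) * (1 + 2 * (X1.card : ℤ)) :=
      mul_le_mul_of_nonneg_left h2 hpZ.le
    nlinarith
  have haN : 1 + 2 * X1.card ≤ r := by exact_mod_cast ha
  have hcN : X2.card * t ≤ r := by exact_mod_cast hc
  have hrodd : r % 2 = 1 := by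
    rcases hr.eq_two_or_odd with h | h
    · omega
    · exact h
  rcases Nat.lt_or_ge t 3 with ht | ht
  · interval_cases t
    · -- t = 0
      exfalso
      simp at het
      omega
    · -- t = 1
      exfalso
      rcases hp.eq_two_or_odd with h | h
      · omega
      · omega
    · -- t = 2
      have hp2r : p = 2 * r + 1 := by omega
      have ha2 : 2 * X1.card = r - 1 := by omega
      have hX1eq : ∀ χ ∈ X1, (d χ : ℤ) = p + 1 := by
        have hnn : ∀ χ ∈ X1, (0 : ℤ) ≤ (d χ : ℤ) + ((p : ℤ) - 1) - 2 * p :=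
          fun χ hχ => by linarith [hX1ge χ hχ]
        have hsum0 : ∑ χ ∈ X1, ((d χ : ℤ) + ((p : ℤ) - 1) - 2 * p) = 0 := by
          apply le_antisymm
          · rw [Finset.sum_sub_distrib, Finset.sum_const, nsmul_eq_mul]
            have h1 : 2 * (X1.card : ℤ) = r - 1 := by
              have h2 : ((2 * X1.card : ℕ) : ℤ) = ((r - 1 : ℕ) : ℤ) := by rw [ha2]
              rw [Nat.cast_sub (by omega)] at h2
              push_cast at h2
              exact h2
            have e1 : (X1.card : ℤ) * (2 * (p : ℤ)) = ((r : ℤ) - 1) * p := by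
              rw [← h1]
              ring
            linarith [hB1]
          · exact Finset.sum_nonneg hnn
        intro χ hχ
        have h1 := (Finset.sum_eq_zero_iff_of_nonneg hnn).mp hsum0 χ hχ
        linarith
      have hne : X1.Nonempty := by
        rw [← Finset.card_pos]
        omega
      obtain ⟨χ, hχ⟩ := hne
      have hdχ : d χ = 2 * r + 2 := by
        have h1 := hX1eq χ hχ
        have h2 : (d χ : ℤ) = ((2 * r + 2 : ℕ) : ℤ) := by
          rw [h1, hp2r]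
          push_cast
          ring
        exact_mod_cast h2
      have hdvd : 2 * r + 2 ∣ p * r * q ^ b := by
        rw [← hdχ]
        exact (hd1 χ hχ).2.2
      have hcp : Nat.Coprime (2 * r + 2) p := by
        apply Nat.Coprime.symm
        apply (Nat.Prime.coprime_iff_not_dvd hp).mpr
        intro h
        have h1 := Nat.eq_of_dvd_of_lt_two_mul (by omega) h (by omega)
        omega
      have hcr : Nat.Coprime (2 * r + 2) r := by
        apply Nat.Coprime.symm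
        apply (Nat.Prime.coprime_iff_not_dvd hr).mpr
        intro h
        have h1 : r ∣ 2 := (Nat.dvd_add_right (dvd_mul_left r 2)).mp h
        have := Nat.le_of_dvd (by norm_num) h1
        omega
      have hdq : 2 * r + 2 ∣ q ^ b := by
        rw [mul_assoc] at hdvd
        exact hcr.dvd_of_dvd_mul_left (hcp.dvd_of_dvd_mul_left hdvd)
      have h2q : 2 ∣ q ^ b := Dvd.dvd.trans (by omega : 2 ∣ 2 * r + 2) hdq
      have hq2 : q = 2 :=
        ((Nat.prime_dvd_prime_iff_eq Nat.prime_two hq).mp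
          (Nat.prime_two.dvd_of_dvd_pow h2q)).symm
      subst hq2
      obtain ⟨j, -, hj⟩ := (Nat.dvd_prime_pow Nat.prime_two).mp hdq
      obtain ⟨k, rfl⟩ : ∃ k, j = k + 1 := by
        rcases j with _ | j
        · simp at hj
        · exact ⟨j, rfl⟩
      have hk : r + 1 = 2 ^ k := by
        rw [pow_succ] at hj
        omega
      rcases Nat.even_or_odd k with ⟨m, hm⟩ | ⟨m, hm⟩
      · have h1 : 2 ^ k % 3 = 1 := by
          rw [hm, ← two_mul, pow_mul]
          norm_num [Nat.pow_mod]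
        have h4 : 3 ∣ r := by omega
        exact ((Nat.prime_dvd_prime_iff_eq Nat.prime_three hr).mp h4).symm
      · exfalso
        have h1 : 2 ^ (k + 1) % 3 = 1 := by
          rw [hm, show 2 * m + 1 + 1 = 2 * (m + 1) by ring, pow_mul]
          norm_num [Nat.pow_mod]
        have h4 : 3 ∣ p := by omega
        have h5 := (Nat.prime_dvd_prime_iff_eq Nat.prime_three hp).mp h4
        omega
  · -- t ≥ 3
    have h1 : X2.card * 3 ≤ X2.card * t := Nat.mul_le_mul_left _ ht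
    omega

end Cfsg.Agent.Helper84
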