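import Mathlib

/-!
# Piece NB2 of CALL S0998 (helper84): the case `e = 2` of the numerical analysis.
-/

set_option autoImplicit false

namespace Cfsg.Agent.Helper84

/-- NB2 -/
theorem s998_num_beta_two {ι : Type*} (X1 X2 : Finset ι) (d : ι → ℕ) (p q r b : ℕ)
    (hp : p.Prime) (hq : q.Prime) (hr : r.Prime) (hpq : p ≠ q) (hpr : p ≠ r) (hqr : q ≠ r)
    (hr3 : 3 ≤ r) (hep : 2 + r = p)
    (hd1 : ∀ χ ∈ X1, ((d χ : ℤ) ≡ 1 [ZMOD p]) ∧ 2 ≤ d χ ∧ d χ ∣ p * r * q ^ b)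
    (hd2 : ∀ χ ∈ X2, ((d χ : ℤ) ≡ -1 [ZMOD p]) ∧ 2 ≤ d χ ∧ d χ ∣ p * r * q ^ b)
    (hcount : 1 + X1.card + X2.card = 2)
    (hrel : -(r : ℤ) = 1 + ∑ χ ∈ X1, (d χ : ℤ) - ∑ χ ∈ X2, (d χ : ℤ)) : r = 3 := by
  -- the degree `r + 1` occurs in `X2`
  have hdeg : ∃ χ ∈ X2, d χ = r + 1 := by
    have hc : (X1.card = 0 ∧ X2.card = 1) ∨ (X1.card = 1 ∧ X2.card = 0) := by omega
    rcases hc with ⟨h1, h2⟩ | ⟨h1, h2⟩
    · rw [Finset.card_eq_zero] at h1
      obtain ⟨χ, hχ⟩ := Finset.card_eq_one.mp h2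
      rw [h1, hχ, Finset.sum_empty, Finset.sum_singleton] at hrel
      refine ⟨χ, by rw [hχ]; exact Finset.mem_singleton_self χ, ?_⟩
      omega
    · exfalso
      rw [Finset.card_eq_zero] at h2
      obtain ⟨χ, hχ⟩ := Finset.card_eq_one.mp h1
      rw [h2, hχ, Finset.sum_empty, Finset.sum_singleton] at hrel
      omega
  obtain ⟨χ, hχ, hdχ⟩ := hdeg
  have hdvd : r + 1 ∣ p * r * q ^ b := by
    rw [← hdχ]
    exact (hd2 χ hχ).2.2
  have hcp : Nat.Coprime (r + 1) p :=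
    Nat.Coprime.symm ((Nat.Prime.coprime_iff_not_dvd hp).mpr
      (Nat.not_dvd_of_pos_of_lt (by omega) (by omega)))
  have hcr : Nat.Coprime (r + 1) r := by
    apply Nat.Coprime.symm
    apply (Nat.Prime.coprime_iff_not_dvd hr).mpr
    intro h
    have h1 : r ∣ 1 := (Nat.dvd_add_right (dvd_refl r)).mp h
    have := Nat.le_of_dvd one_pos h1
    omega
  have hdq : r + 1 ∣ q ^ b := by
    rw [mul_assoc] at hdvd
    exact hcr.dvd_of_dvd_mul_left (hcp.dvd_of_dvd_mul_left hdvd)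
  have hrodd : r % 2 = 1 := by
    rcases hr.eq_two_or_odd with h | h
    · omega
    · exact h
  have h2q : 2 ∣ q ^ b := Dvd.dvd.trans (by omega : 2 ∣ r + 1) hdq
  have hq2 : q = 2 :=
    ((Nat.prime_dvd_prime_iff_eq Nat.prime_two hq).mp (Nat.prime_two.dvd_of_dvd_pow h2q)).symm
  subst hq2
  have h3 : ¬ 3 ∣ r + 1 := by
    intro h
    have h4 : 3 ∣ 2 ^ b := Dvd.dvd.trans h hdq
    have h5 := Nat.prime_three.dvd_of_dvd_pow h4
    omega
  have hcase : r % 3 = 0 ∨ r % 3 = 1 := by omega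
  rcases hcase with h | h
  · have h4 : 3 ∣ r := Nat.dvd_of_mod_eq_zero h
    exact ((Nat.prime_dvd_prime_iff_eq Nat.prime_three hr).mp h4).symm
  · exfalso
    have h4 : 3 ∣ p := by omega
    have h5 := (Nat.prime_dvd_prime_iff_eq Nat.prime_three hp).mp h4
    omega

end Cfsg.Agent.Helper84
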