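import Mathlib

/-!
# Piece NB3O of CALL S0998 (helper84): the order of `q` modulo `p` when `p ∣ q ^ b + 1`.
-/

set_option autoImplicit false

namespace Cfsg.Agent.Helper84

/-- NB3O -/
theorem s998_nb3_order (p q b : ℕ) (hp : p.Prime) (hp3 : 3 ≤ p) (hb : p ∣ q ^ b + 1) :
    ∃ h : ℕ, 1 ≤ h ∧ p ∣ q ^ h + 1 ∧
      (∀ j : ℕ, p ∣ q ^ j + 1 → ∃ m : ℕ, j = h + 2 * h * m) ∧
      (∀ j : ℕ, p ∣ q ^ j - 1 → ∃ m : ℕ, j = 2 * h * m) := by
  classical
  have : Fact p.Prime := ⟨hp⟩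
  have hb1 : 1 ≤ b := by
    by_contra hb0
    have hb' : b = 0 := by omega
    subst hb'
    have h2 : p ∣ 2 := by simpa using hb
    have := Nat.le_of_dvd (by norm_num) h2
    omega
  have hq1 : 1 ≤ q := by
    by_contra hq0
    have hq' : q = 0 := by omega
    subst hq'
    rw [zero_pow (by omega)] at hb
    have := Nat.le_of_dvd (by norm_num) hb
    omega
  have hplus : ∀ j : ℕ, p ∣ q ^ j + 1 ↔ (q : ZMod p) ^ j = -1 := by
    intro j
    rw [← ZMod.natCast_eq_zero_iff]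
    push_cast
    exact add_eq_zero_iff_eq_neg
  have hminus : ∀ j : ℕ, p ∣ q ^ j - 1 ↔ (q : ZMod p) ^ j = 1 := by
    intro j
    rw [← ZMod.natCast_eq_zero_iff, Nat.cast_sub (Nat.one_le_pow _ _ hq1)]
    push_cast
    exact sub_eq_zero
  have hne : (-1 : ZMod p) ≠ 1 := by
    intro h
    have h2 : ((2 : ℕ) : ZMod p) = 0 := by
      push_cast
      linear_combination -h
    rw [ZMod.natCast_eq_zero_iff] at h2
    have := Nat.le_of_dvd (by norm_num) h2
    omega
  have hex : ∃ h : ℕ, 1 ≤ h ∧ p ∣ q ^ h + 1 := ⟨b, hb1, hb⟩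
  obtain ⟨hh1, hph⟩ := Nat.find_spec hex
  have hmin : ∀ k, 1 ≤ k → p ∣ q ^ k + 1 → Nat.find hex ≤ k :=
    fun k hk1 hk => Nat.find_min' hex ⟨hk1, hk⟩
  generalize Nat.find hex = h at hh1 hph hmin
  have huh : (q : ZMod p) ^ h = -1 := (hplus h).mp hph
  have hu2h : (q : ZMod p) ^ (2 * h) = 1 := by
    rw [mul_comm, pow_mul, huh]
    norm_num
  have hord : orderOf (q : ZMod p) = 2 * h := by
    have hdvd : orderOf (q : ZMod p) ∣ 2 * h := orderOf_dvd_of_pow_eq_one hu2h
    have hopos : 0 < orderOf (q : ZMod p) := Nat.pos_of_dvd_of_pos hdvd (by omega)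
    by_contra hne2
    obtain ⟨k, hk⟩ := hdvd
    have hk2 : 2 ≤ k := by
      rcases k with _ | _ | k
      · omega
      · omega
      · omega
    have hole : orderOf (q : ZMod p) ≤ h := by nlinarith
    have hmod : (q : ZMod p) ^ (h % orderOf (q : ZMod p)) = -1 := by
      rw [pow_mod_orderOf, huh]
    have hmodpos : 1 ≤ h % orderOf (q : ZMod p) := by
      by_contra h0
      have h0' : h % orderOf (q : ZMod p) = 0 := by omega
      rw [h0', pow_zero] at hmod
      exact hne hmod.symm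
    have hlt : h % orderOf (q : ZMod p) < orderOf (q : ZMod p) := Nat.mod_lt _ hopos
    have := hmin _ hmodpos ((hplus _).mpr hmod)
    omega
  refine ⟨h, hh1, hph, ?_, ?_⟩
  · intro j hj
    have huj : (q : ZMod p) ^ j = -1 := (hplus j).mp hj
    have h1 : (q : ZMod p) ^ (j + h) = 1 := by
      rw [pow_add, huj, huh]
      norm_num
    have h2 : 2 * h ∣ j + h := by
      rw [← hord]
      exact orderOf_dvd_of_pow_eq_one h1
    obtain ⟨k, hk⟩ := h2
    obtain ⟨k', rfl⟩ : ∃ k', k = k' + 1 := by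
      rcases k with _ | k
      · omega
      · exact ⟨k, rfl⟩
    refine ⟨k', ?_⟩
    have h3 : j + h = 2 * h * k' + 2 * h := by rw [hk]; ring
    omega
  · intro j hj
    have huj : (q : ZMod p) ^ j = 1 := (hminus j).mp hj
    have h2 : 2 * h ∣ j := by
      rw [← hord]
      exact orderOf_dvd_of_pow_eq_one huj
    obtain ⟨m, hm⟩ := h2
    exact ⟨m, hm⟩

end Cfsg.Agent.Helper84
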