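import Mathlib

/-!
# Piece NB3S of CALL S0998 (helper84): `e` is a power of `q` and `p ∣ q ^ b + 1`.
-/

set_option autoImplicit false

namespace Cfsg.Agent.Helper84

/-- NB3S -/
theorem s998_nb3_setup (p q r b e n : ℕ) (hp : p.Prime) (hq : q.Prime) (hr : r.Prime)
    (hpq : p ≠ q) (hpr : p ≠ r) (hqr : q ≠ r) (hr3 : 3 ≤ r) (he3 : 3 ≤ e) (hep : e + r = p)
    (hcard : r * q ^ b = e * (1 + n * p)) :
    ∃ c : ℕ, 1 ≤ c ∧ e = q ^ c ∧ p ∣ q ^ b + 1 := by
  have hcop : Nat.Coprime e r := by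
    rw [Nat.coprime_comm]
    apply (Nat.Prime.coprime_iff_not_dvd hr).mpr
    intro hre
    have h1 : r ∣ p := by
      rw [← hep]
      exact Dvd.dvd.add hre (dvd_refl r)
    have h2 := (Nat.prime_dvd_prime_iff_eq hr hp).mp h1
    exact hpr h2.symm
  have hedvd : e ∣ q ^ b := by
    have h1 : e ∣ r * q ^ b := by
      rw [hcard]
      exact dvd_mul_right _ _
    exact hcop.dvd_of_dvd_mul_left h1
  obtain ⟨c, -, hc⟩ := (Nat.dvd_prime_pow hq).mp hedvd
  have hc1 : 1 ≤ c := by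
    by_contra h0
    have h0' : c = 0 := by omega
    rw [h0', pow_zero] at hc
    omega
  refine ⟨c, hc1, hc, ?_⟩
  have h1 : e * (q ^ b + 1) + e * n * p = p * q ^ b := by
    calc e * (q ^ b + 1) + e * n * p = e * q ^ b + e * (1 + n * p) := by ring
      _ = e * q ^ b + r * q ^ b := by rw [hcard]
      _ = (e + r) * q ^ b := by ring
      _ = p * q ^ b := by rw [hep]
  have h3 : p ∣ e * (q ^ b + 1) + e * n * p := by
    rw [h1]
    exact dvd_mul_right _ _
  have h2 : p ∣ e * (q ^ b + 1) := (Nat.dvd_add_iff_left (dvd_mul_left p (e * n))).mpr h3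
  have hpe : ¬ p ∣ e := Nat.not_dvd_of_pos_of_lt (by omega) (by omega)
  exact ((Nat.Prime.dvd_mul hp).mp h2).resolve_left hpe

end Cfsg.Agent.Helper84
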