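import Cfsg.Statements.S1383
import Cfsg.Agent.Helper1.Gen

set_option autoImplicit false

/-! CALL BG83 (helper25, row S1383), piece GEN (double): a noncyclic abelian `q`-group acting
coprimely on `X ≠ 1` has a non-identity element with a non-identity fixed point. -/

namespace Cfsg.Agent.Helper84

open Cfsg Subgroup

universe u

variable {G : Type u} [Group G] [Finite G]

/-- GEN (pure). A noncyclic abelian `q`-group acting coprimely on `X ≠ 1` has a non-identity
element with a non-identity fixed point.  (`Helper1.gen_by_centralizers`, file Helper1/Gen.lean.) -/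
theorem bg83_fixed_point {q : ℕ} (hq : q.Prime) (Q X : Subgroup G)
    (hQX : Q ≤ normalizer (X : Set G)) (hQq : IsPGroup q Q)
    (hQab : ∀ a ∈ Q, ∀ b ∈ Q, a * b = b * a) (hQnc : ¬ IsCyclic ↥Q)
    (hcop : (Nat.card X).Coprime q) (hX : X ≠ ⊥) :
    ∃ b ∈ Q, b ≠ 1 ∧ X ⊓ centralizer ({b} : Set G) ≠ ⊥ := by
  by_contra hcon
  push_neg at hcon
  have : Fact q.Prime := ⟨hq⟩
  have : IsMulCommutative Q := ⟨⟨fun a b => Subtype.ext (hQab a a.2 b b.2)⟩⟩
  obtain ⟨n, hn⟩ := IsPGroup.iff_card.mp hQq
  have hc : (Nat.card Q).Coprime (Nat.card X) := by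
    rw [hn]; exact (Nat.Coprime.pow_left n hcop.symm)
  have h := Cfsg.Agent.Helper1.gen_by_centralizers Q X hQnc hQX hc
  apply hX
  rw [← h]
  simp only [iSup_eq_bot]
  intro a ha
  exact hcon a ha.1 ha.2

end Cfsg.Agent.Helper84
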