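import Mathlib
import Cfsg.Agent.Helper43.CycFactors

/-!
CALL C3O (helper43), piece POLY: `n` is a square modulo the `r`-th cyclotomic polynomial when the
order of `q` modulo `r` is even.
-/

set_option autoImplicit false

namespace Cfsg.Agent.Helper84

open Matrix Module Polynomial
open Cfsg.Agent.Helper43.CycFactors (cycJ)

universe u

/-- PIECE POLY (POLY1 and POLYCRT are hypotheses) -/
theorem c3o_poly {F : Type u} [Field F] [Fintype F] {p : ℕ} [Fact p.Prime] [CharP F p] {q : ℕ}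
    (hq : Fintype.card F = q) (hodd : Odd q) (r : ℕ) (hr : r.Prime) (hrp : r ≠ p)
    (hi : Even (orderOf (q : ZMod r))) (n : F)
    (h1 : ∀ P : F[X], Irreducible P → Even P.natDegree → ∃ f : F[X], P ∣ f ^ 2 - C n)
    (hcrt : ∀ s : Finset F[X], (∀ P ∈ s, ∀ P' ∈ s, P ≠ P' → IsCoprime P P') →
      (∀ P ∈ s, ∃ f : F[X], P ∣ f ^ 2 - C n) → ∃ f : F[X], (∏ P ∈ s, P) ∣ f ^ 2 - C n) :
    ∃ f : F[X], cyclotomic r F ∣ f ^ 2 - C n := by
  classical
  have hrF : (r : F) ≠ 0 := Cfsg.Agent.Helper43.CycFactors.natCast_ne_zero_of_ne hr hrp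
  have : NeZero (r : F) := ⟨hrF⟩
  have hsq : Squarefree (cyclotomic r F) := (separable_cyclotomic r F).squarefree
  have hnd : (UniqueFactorizationMonoid.normalizedFactors (cyclotomic r F)).Nodup :=
    (UniqueFactorizationMonoid.squarefree_iff_nodup_normalizedFactors
      (cyclotomic_ne_zero r F)).mp hsq
  have hco : ∀ P ∈ cycJ F r, ∀ P' ∈ cycJ F r, P ≠ P' → IsCoprime P P' := by
    intro P hP P' hP' hne
    have hPm := Cfsg.Agent.Helper43.CycFactors.mem_cycJ.mp hP
    have hPm' := Cfsg.Agent.Helper43.CycFactors.mem_cycJ.mp hP'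
    exact Cfsg.Agent.Helper43.CycFactors.isCoprime_of_ne hPm.1 hPm.2.1 hPm'.1 hPm'.2.1 hne
  have hf : ∀ P ∈ cycJ F r, ∃ f : F[X], P ∣ f ^ 2 - C n := by
    intro P hP
    have hPm := Cfsg.Agent.Helper43.CycFactors.mem_cycJ.mp hP
    apply h1 P hPm.2.1
    rw [Cfsg.Agent.Helper43.CycFactors.cycJ_natDegree hq hr hrp hP]
    exact hi
  obtain ⟨f, hfd⟩ := hcrt (cycJ F r) hco hf
  refine ⟨f, dvd_trans ?_ hfd⟩
  have hprod : ∏ P ∈ cycJ F r, P
      = (UniqueFactorizationMonoid.normalizedFactors (cyclotomic r F)).prod := by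
    unfold Cfsg.Agent.Helper43.CycFactors.cycJ
    rw [Finset.prod_eq_multiset_prod, Multiset.toFinset_val, Multiset.dedup_eq_self.mpr hnd,
      Multiset.map_id']
  rw [hprod]
  exact (UniqueFactorizationMonoid.prod_normalizedFactors (cyclotomic_ne_zero r F)).symm.dvd

end Cfsg.Agent.Helper84
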