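import Mathlib

/-!
CALL C3O (helper43), piece ZEX: a central element of order `r` in a nontrivial `r`-group.
-/

set_option autoImplicit false

namespace Cfsg.Agent.Helper84

open Matrix Module Polynomial

universe u

/-- PIECE ZEX -/
theorem c3o_zex {G : Type*} [Group G] (S : Subgroup G) (r : ℕ) [Fact r.Prime] (k : ℕ)
    (h : Nat.card S = r ^ (k + 1)) : ∃ z ∈ S, z ≠ 1 ∧ z ^ r = 1 ∧ ∀ s ∈ S, s * z = z * s := by
  have hr : r.Prime := Fact.out
  have hfin : Finite S := by
    apply Nat.finite_of_card_ne_zero
    rw [h]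
    exact pow_ne_zero _ hr.ne_zero
  have hS : IsPGroup r S := IsPGroup.of_card h
  have hnt : Nontrivial S := by
    rw [← Finite.one_lt_card_iff_nontrivial, h]
    exact Nat.one_lt_pow (by omega) hr.one_lt
  have hZ : Nontrivial (Subgroup.center S) := hS.center_nontrivial
  have hZp : IsPGroup r (Subgroup.center S) := hS.to_subgroup (Subgroup.center S)
  obtain ⟨j, hj⟩ := IsPGroup.iff_card.mp hZp
  have hj0 : j ≠ 0 := by
    rintro rfl
    rw [pow_zero] at hj
    have := Finite.one_lt_card_iff_nontrivial.mpr hZ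
    omega
  have hdvd : r ∣ Nat.card (Subgroup.center S) := by
    rw [hj]
    exact dvd_pow_self r hj0
  obtain ⟨x, hx⟩ := exists_prime_orderOf_dvd_card' r hdvd
  refine ⟨((x : S) : G), (x : S).2, ?_, ?_, ?_⟩
  · intro h1
    have hx1 : x = 1 := by
      apply Subtype.ext
      apply Subtype.ext
      exact h1
    rw [hx1, orderOf_one] at hx
    exact hr.one_lt.ne hx
  · have h2 : x ^ r = 1 := by
      rw [← hx]
      exact pow_orderOf_eq_one x
    have h3 := congrArg (fun y : Subgroup.center S => ((y : S) : G)) h2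
    simpa using h3
  · intro s hs
    have h2 := (Subgroup.mem_center_iff.mp x.2) ⟨s, hs⟩
    have h3 := congrArg (fun y : S => (y : G)) h2
    simpa using h3

end Cfsg.Agent.Helper84
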