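import Mathlib
import Cfsg.Agent.Helper84.C3OFC

/-!
CALL C3O (helper43), piece ZJ: `A = f(z)` with `f ^ 2 ≡ n` modulo the cyclotomic polynomial is
self-adjoint on `range (z - 1)` when `4 ∣ ord_r(q)`.
-/

set_option autoImplicit false

namespace Cfsg.Agent.Helper84

open Matrix Module Polynomial

universe u

/-- PIECE ZJ (POLY, FROBPOW, FD4, ZADJ are hypotheses) -/
theorem c3o_zj {F : Type*} [Field F] [Fintype F] {q : ℕ} (hq : Fintype.card F = q) (hodd : Odd q)
    (r : ℕ) (hr : r.Prime) (hr2 : r ≠ 2) (n : F) (hn : n ≠ 0) {V : Type*} [AddCommGroup V]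
    [Module F V] (B : LinearMap.BilinForm F V) (z : V →ₗ[F] V) (hz : z ^ r = 1)
    (hpoly : ∃ f : F[X], cyclotomic r F ∣ f ^ 2 - C n)
    (hfrob : ∀ (R : F[X]) (m : ℕ), (aeval z R) ^ (q ^ m) = aeval (z ^ (q ^ m)) R)
    (hfd : ∃ m, orderOf (q : ZMod r) = 4 * m ∧ r ∣ q ^ (2 * m) + 1)
    (hadj : ∀ (R : F[X]) (u v : V), B (aeval z R u) v = B u (aeval (z ^ (r - 1)) R v)) :
    ∃ A : V →ₗ[F] V, (∀ T : V →ₗ[F] V, T ∘ₗ z = z ∘ₗ T → T ∘ₗ A = A ∘ₗ T) ∧
      (∀ v, A (A (z v - v)) = n • (z v - v)) ∧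
      ∀ u v, B (A (z u - u)) (z v - v) = B (z u - u) (A (z v - v)) := by
  have : Fact r.Prime := ⟨hr⟩
  obtain ⟨m, -, t, ht⟩ := hfd
  obtain ⟨f, g, hfg⟩ := hpoly
  -- `z ^ (q ^ (2 m)) = z ^ (r - 1)`
  have hzN : z ^ (q ^ (2 * m)) = z ^ (r - 1) := by
    have h1 : z ^ (q ^ (2 * m)) * z = 1 := by
      rw [← pow_succ, ht, pow_mul, hz, one_pow]
    have h2 : z * z ^ (r - 1) = 1 := by
      rw [← pow_succ', Nat.sub_add_cancel hr.one_le, hz]
    calc z ^ (q ^ (2 * m)) = z ^ (q ^ (2 * m)) * (z * z ^ (r - 1)) := by rw [h2, mul_one]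
      _ = (z ^ (q ^ (2 * m)) * z) * z ^ (r - 1) := by rw [mul_assoc]
      _ = z ^ (r - 1) := by rw [h1, one_mul]
  set A : V →ₗ[F] V := aeval z f with hA
  -- the cyclotomic polynomial kills `range (z - 1)`
  have hcyc : ∀ v, aeval z (cyclotomic r F) (z v - v) = 0 := by
    intro v
    have h1 : aeval z (cyclotomic r F * (X - 1)) = 0 := by
      rw [cyclotomic_prime_mul_X_sub_one F r]
      simp [hz]
    have h2 : aeval z (cyclotomic r F * (X - 1)) v = aeval z (cyclotomic r F) (z v - v) := by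
      rw [map_mul]
      simp [Module.End.mul_apply]
    rw [← h2, h1]
    rfl
  have hA2 : ∀ v, A (A (z v - v)) = n • (z v - v) := by
    intro v
    have h1 : f ^ 2 = C n + g * cyclotomic r F := by
      rw [mul_comm g, ← hfg]; ring
    have h2 : A * A = aeval z (f ^ 2) := by
      rw [pow_two, map_mul]
    have h3 : A (A (z v - v)) = (A * A) (z v - v) := rfl
    rw [h3, h2, h1, map_add, map_mul, LinearMap.add_apply, Module.End.mul_apply, hcyc, map_zero,
      add_zero, aeval_C]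
    rfl
  have hpow : ∀ (K : ℕ) (v : V), (A ^ (2 * K)) (z v - v) = n ^ K • (z v - v) := by
    intro K
    induction K with
    | zero => intro v; simp
    | succ K ih =>
      intro v
      have h1 : A ^ (2 * (K + 1)) = A ^ (2 * K) * (A * A) := by
        rw [show 2 * (K + 1) = 2 * K + 2 by ring, pow_add, pow_two]
      rw [h1, Module.End.mul_apply, Module.End.mul_apply, hA2, map_smul, ih, smul_smul, pow_succ,
        mul_comm]
  -- arithmetic: `q ^ (2 m) = 2 K + 1` with `n ^ K = 1`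
  obtain ⟨h, hh⟩ := hodd
  have hgeo := c3o_fc_geom (q ^ 2) m (Nat.one_le_pow _ _ (by omega))
  set S := ∑ i ∈ Finset.range m, (q ^ 2) ^ i with hS
  have hK : q ^ (2 * m) = 2 * ((q - 1) * ((h + 1) * S)) + 1 := by
    rw [pow_mul, ← hgeo]
    have h3 : q ^ 2 - 1 = 2 * ((q - 1) * (h + 1)) := by
      rw [hh]
      have : (2 * h + 1) ^ 2 = 2 * ((2 * h + 1 - 1) * (h + 1)) + 1 := by
        simp only [Nat.add_sub_cancel]; ring
      omega
    rw [h3]
    ring
  have hnK : n ^ ((q - 1) * ((h + 1) * S)) = 1 := by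
    rw [pow_mul, ← hq, FiniteField.pow_card_sub_one_eq_one n hn, one_pow]
  have hAN : ∀ v, ((aeval z f) ^ (q ^ (2 * m))) (z v - v) = A (z v - v) := by
    intro v
    rw [hK, pow_succ', Module.End.mul_apply, ← hA, hpow, hnK, one_smul]
  refine ⟨A, ?_, hA2, ?_⟩
  · intro T hT
    have hTz : T * z = z * T := hT
    have hmem : A ∈ Subalgebra.centralizer F ({T} : Set (V →ₗ[F] V)) := by
      have h1 : Algebra.adjoin F ({z} : Set (V →ₗ[F] V))
          ≤ Subalgebra.centralizer F ({T} : Set (V →ₗ[F] V)) := by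
        apply Algebra.adjoin_le
        intro x hx
        rw [Set.mem_singleton_iff] at hx
        rw [hx]
        rw [SetLike.mem_coe, Subalgebra.mem_centralizer_iff]
        intro y hy
        rw [Set.mem_singleton_iff] at hy
        rw [hy]
        exact hTz
      exact h1 (aeval_mem_adjoin_singleton F z)
    rw [Subalgebra.mem_centralizer_iff] at hmem
    exact hmem T rfl
  · intro u v
    rw [hadj f (z u - u) (z v - v), ← hzN, ← hfrob f (2 * m), hAN]

end Cfsg.Agent.Helper84
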