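import Mathlib
import Cfsg.Prelude.Def_Characters
import Cfsg.Prelude.Def_Blocks
import Cfsg.Agent.Helper77.D1Defs2
import Cfsg.Agent.Helper16.BlockCore
import Cfsg.Agent.Helper81.CharBasic
import Cfsg.Agent.Helper29.D1SE
import Cfsg.Agent.Helper65.D1II

/-!
# CALL S4442B, piece SB (helper84): S4507 from the main theorem — core version with the
statement of piece SF as a hypothesis.
-/

universe u
set_option autoImplicit false
open Cfsg Cfsg.Agent.Helper77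
open scoped ComplexConjugate

namespace Cfsg.Agent.Helper84

/-- fixing `exp(2πi/n)` is the same as fixing all `n`-th roots of unity. -/
theorem d1sb_gal_iff {G : Type u} (n : ℕ) (hn : n ≠ 0) (χ ψ : G → ℂ) :
    (∃ σ : ℂ ≃+* ℂ, σ (Complex.exp (2 * Real.pi * Complex.I / (n : ℕ))) =
        Complex.exp (2 * Real.pi * Complex.I / (n : ℕ)) ∧ ψ = fun g => σ (χ g)) ↔
      galRel n χ ψ := by
  have hprim := Complex.isPrimitiveRoot_exp n hn
  constructor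
  · rintro ⟨σ, hσ, hψ⟩
    refine ⟨σ, ?_, fun g => congrFun hψ g⟩
    intro w hw
    have : NeZero n := ⟨hn⟩
    obtain ⟨i, -, rfl⟩ := hprim.eq_pow_of_pow_eq_one hw
    rw [map_pow, hσ]
  · rintro ⟨τ, hτ, hψ⟩
    exact ⟨τ, hτ _ hprim.pow_eq_one, funext hψ⟩

theorem s4507_of_main_core {G : Type u} [Group G] [Finite G] (p : ℕ) [Fact p.Prime]
    (hmain : Cfsg.Agent.Helper77.D1MainStmt G p) (hcc : Cfsg.Agent.Helper77.D1CCStmt G p)
    (hSF : ∀ (M : Ideal Cfsg.AlgInt), Cfsg.IsPModular p M → ∀ (x : G) (K : Subgroup G),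
      D1Hyp p x K → ∀ (B : Set (Cfsg.IrrCharacter G)), Cfsg.IsPBlock M B →
      ∀ χ : Cfsg.IrrCharacter G, χ ∈ B → ∀ θ : Cfsg.IrrCharacter K,
      (∀ g : G, Cfsg.MemLocalIdeal M
        (Cfsg.centralChar (χ : G → ℂ) g - omTheta p x K (θ : K → ℂ) g)) →
      B = blkTheta K x (θ : K → ℂ))
    (M : Ideal Cfsg.AlgInt) (hM : Cfsg.IsPModular p M) (hdiv : p ∣ Nat.card G) (hsq : ¬ p ^ 2 ∣ Nat.card G) (B : Set (Cfsg.IrrCharacter G)) (hB : Cfsg.IsPBlock M B) (hd : 0 < Cfsg.blockDefect p B) : ∃ Y : Set (Cfsg.IrrCharacter G), Y ⊆ B ∧ Y.Nonempty ∧ (∀ θ ∈ Y, ∀ ψ : Cfsg.IrrCharacter G, (∃ σ : ℂ ≃+* ℂ, σ (Complex.exp (2 * Real.pi * Complex.I / ((Nat.card G / p ^ (Nat.card G).factorization p) : ℕ))) = Complex.exp (2 * Real.pi * Complex.I / ((Nat.card G / p ^ (Nat.card G).factorization p) : ℕ)) ∧ (ψ : G → ℂ) = fun g => σ ((θ : G → ℂ) g)) ↔ ψ ∈ Y) ∧ (∀ χ ∈ B, χ ∉ Y → ∀ ψ : Cfsg.IrrCharacter G, (∃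 σ : ℂ ≃+* ℂ, σ (Complex.exp (2 * Real.pi * Complex.I / ((Nat.card G / p ^ (Nat.card G).factorization p) : ℕ))) = Complex.exp (2 * Real.pi * Complex.I / ((Nat.card G / p ^ (Nat.card G).factorization p) : ℕ)) ∧ (ψ : G → ℂ) = fun g => σ ((χ : G → ℂ) g)) → ψ = χ) ∧ Nat.card Y ∣ p - 1 ∧ Nat.card B = Nat.card Y + (p - 1) / Nat.card Y ∧ ∃ δ : Cfsg.IrrCharacter G → ℤ, (∀ χ ∈ B, δ χ = 1 ∨ δ χ = -1) ∧ ∀ x : G, ¬ p ∣ orderOf x → ∀ θ ∈ Y, (∑ᶠ χ ∈ B \ Y, (δ χ : ℂ) * (χ : G → ℂ) x) + (δ θ : ℂ) * (θ : G → ℂ) x = 0 := by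
  classical
  have hpp : p.Prime := Fact.out
  have hG0 : Nat.card G ≠ 0 := Nat.card_pos.ne'
  have hfac : (Nat.card G).factorization p = 1 := by
    have h1 : 1 ≤ (Nat.card G).factorization p := by
      rw [← hpp.pow_dvd_iff_le_factorization hG0, pow_one]
      exact hdiv
    have h2 : ¬ 2 ≤ (Nat.card G).factorization p := by
      rw [← hpp.pow_dvd_iff_le_factorization hG0]
      exact hsq
    omega
  obtain ⟨M₀, hM₀def⟩ : ∃ M₀ : ℕ, M₀ = Nat.card G / p ^ (Nat.card G).factorization p := ⟨_, rfl⟩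
  rw [← hM₀def]
  have hM₀ : Nat.card G = p * M₀ := by
    rw [hM₀def, hfac, pow_one]
    exact (Nat.mul_div_cancel' hdiv).symm
  have hpM₀ : ¬ p ∣ M₀ := by
    intro h
    apply hsq
    rw [hM₀, sq]
    exact Nat.mul_dvd_mul_left p h
  have hGM : Nat.card G ∣ p * M₀ := by rw [← hM₀]
  have hM₀ne : M₀ ≠ 0 := by
    intro h
    rw [h, mul_zero] at hM₀
    exact hG0 hM₀
  obtain ⟨x, K, h⟩ := Cfsg.Agent.Helper29.d1_setup (G := G) p hdiv hsq
  -- a character of `B` of degree prime to `p`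
  obtain ⟨χ₀, hχ₀⟩ := hB
  have hχ₀B : χ₀ ∈ B := by
    rw [hχ₀]
    have : Fintype G := Fintype.ofFinite G
    exact Cfsg.Agent.Helper16.sameBlock_refl hM.2.1 _
  have hne : ((fun χ : Cfsg.IrrCharacter G =>
      (Cfsg.charDegree (χ : G → ℂ)).factorization p) '' B).Nonempty := ⟨_, χ₀, hχ₀B, rfl⟩
  have hinf : sInf ((fun χ : Cfsg.IrrCharacter G =>
      (Cfsg.charDegree (χ : G → ℂ)).factorization p) '' B) = 0 := by
    unfold Cfsg.blockDefect at hd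
    rw [hfac] at hd
    omega
  obtain ⟨χ, hχB, hχv⟩ := Nat.sInf_mem hne
  rw [hinf] at hχv
  have hχv' : (Cfsg.charDegree (χ : G → ℂ)).factorization p = 0 := hχv
  have hχp : ¬ p ∣ Cfsg.charDegree (χ : G → ℂ) := by
    intro hdvd
    have h1 := (hpp.dvd_iff_one_le_factorization
      (Cfsg.Agent.Helper81.charDegree_pos χ).ne').1 hdvd
    omega
  obtain ⟨θ, hθ⟩ := Cfsg.Agent.Helper65.d1_blk_exists p x K h χ hχp
  have hBeq : B = blkTheta K x (θ : K → ℂ) :=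
    hSF M hM x K h B ⟨χ₀, hχ₀⟩ χ hχB θ (hcc M x K hM h θ χ hθ)
  obtain ⟨hediv, X, Y, c, ε, hXY, hdisj, hcX, hcY, hc, hε, hXfix, hYorb, hrel, -, -⟩ :=
    hmain x K M₀ h hpM₀ hGM θ
  obtain ⟨e, he⟩ : ∃ e : ℕ, e = Nat.card (stabUnits p x K (θ : K → ℂ)) := ⟨_, rfl⟩
  rw [← he] at hediv hcX hcY
  have hp1 : 0 < p - 1 := by have := hpp.two_le; omega
  have he0 : 0 < e := Nat.pos_of_dvd_of_pos hediv hp1
  have hYpos : 0 < (p - 1) / e := Nat.div_pos (Nat.le_of_dvd hp1 hediv) he0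
  have hBXY : B = X ∪ Y := hBeq.trans hXY
  have hXY' : ∀ χ, χ ∈ X → χ ∉ Y := fun χ hX hY => (Set.disjoint_left.1 hdisj) hX hY
  have hBY : B \ Y = X := by
    rw [hBXY]
    ext χ
    constructor
    · rintro ⟨h1 | h1, h2⟩
      · exact h1
      · exact absurd h1 h2
    · intro h1
      exact ⟨Or.inl h1, hXY' χ h1⟩
  refine ⟨Y, ?_, ?_, ?_, ?_, ?_, ?_, ?_⟩
  · rw [hBXY]
    exact Set.subset_union_right
  · have h1 : Nat.card Y ≠ 0 := by rw [hcY]; exact hYpos.ne'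
    by_contra hempty
    rw [Set.not_nonempty_iff_eq_empty] at hempty
    apply h1
    rw [hempty]
    simp
  · intro ψ hψ ψ'
    rw [d1sb_gal_iff M₀ hM₀ne]
    exact hYorb ψ hψ ψ'
  · intro χ' hχ'B hχ'Y ψ
    rw [d1sb_gal_iff M₀ hM₀ne]
    have hχ'X : χ' ∈ X := by
      rw [hBXY] at hχ'B
      rcases hχ'B with h1 | h1
      · exact h1
      · exact absurd h1 hχ'Y
    exact hXfix χ' hχ'X ψ
  · rw [hcY]
    exact Nat.div_dvd_of_dvd hediv
  · have h1 : Nat.card B = Nat.card X + Nat.card Y := by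
      rw [hBXY]
      rw [Nat.card_congr (Equiv.Set.union hdisj), Nat.card_sum]
    rw [h1, hcX, hcY, Nat.div_div_self hediv hp1.ne']
    omega
  · obtain ⟨δ, hδ⟩ : ∃ δ : Cfsg.IrrCharacter G → ℤ, ∀ χ, δ χ = if χ ∈ Y then -ε else c χ :=
      ⟨_, fun _ => rfl⟩
    refine ⟨δ, ?_, ?_⟩
    · intro χ' hχ'B
      rw [hδ]
      by_cases hY : χ' ∈ Y
      · rw [if_pos hY]
        rcases hε with h1 | h1
        · right; rw [h1]
        · left; rw [h1]; norm_num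
      · rw [if_neg hY]
        apply hc
        rw [hBXY] at hχ'B
        rcases hχ'B with h1 | h1
        · exact h1
        · exact absurd h1 hY
    · intro g hg ψ hψ
      rw [hBY, hδ ψ, if_pos hψ]
      have h1 : ∑ᶠ χ ∈ X, (δ χ : ℂ) * (χ : G → ℂ) g =
          ∑ᶠ χ ∈ X, (c χ : ℂ) * (χ : G → ℂ) g := by
        refine finsum_mem_congr rfl fun χ' hχ' => ?_
        rw [hδ, if_neg (hXY' χ' hχ')]
      rw [h1, hrel ψ hψ g hg]
      push_cast
      ring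

end Cfsg.Agent.Helper84
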