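import Mathlib
import Cfsg.Statements.S4507
import Cfsg.Agent.Helper77.D1Defs2
import Cfsg.Agent.Helper84.D1SBCore
import Cfsg.Agent.Helper14.D1SF

/-!
# CALL S4442B, piece SB (helper84): S4507 from the main theorem.
-/

universe u
set_option autoImplicit false
open Cfsg Cfsg.Agent.Helper77
open scoped ComplexConjugate

namespace Cfsg.Agent.Helper84

theorem s4507_of_main {G : Type*} [Group G] [Finite G] (p : ℕ) [Fact p.Prime] (hmain : Cfsg.Agent.Helper77.D1MainStmt G p) (hcc : Cfsg.Agent.Helper77.D1CCStmt G p) (hinj : Cfsg.Agent.Helper77.D1InjStmt G p) (M : Ideal Cfsg.AlgInt) (hM : Cfsg.IsPModular p M) (hdiv : p ∣ Nat.card G) (hsq : ¬ p ^ 2 ∣ Nat.card G) (B : Set (Cfsg.IrrCharacter G)) (hB : Cfsg.IsPBlock M B) (hd : 0 < Cfsg.blockDefect p B) : ∃ Y : Set (Cfsg.IrrCharacter G), Y ⊆ B ∧ Y.Nonempty ∧ (∀ θ ∈ Y, ∀ ψ : Cfsg.IrrCharacter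 G, (∃ σ : ℂ ≃+* ℂ, σ (Complex.exp (2 * Real.pi * Complex.I / ((Nat.card G / p ^ (Nat.card G).factorization p) : ℕ))) = Complex.exp (2 * Real.pi * Complex.I / ((Nat.card G / p ^ (Nat.card G).factorization p) : ℕ)) ∧ (ψ : G → ℂ) = fun g => σ ((θ : G → ℂ) g)) ↔ ψ ∈ Y) ∧ (∀ χ ∈ B, χ ∉ Y → ∀ ψ : Cfsg.IrrCharacter G, (∃ σ : ℂ ≃+* ℂ, σ (Complex.exp (2 * Real.pi * Complex.I / ((Nat.card G / p ^ (Nat.card G).factorization p) : ℕ))) = Complex.exp (2 * Real.pi * Complex.I / ((Nat.card G / p ^ (Nat.card G).factorization p) : ℕ)) ∧ (ψ : G → ℂ) = fun g => σ ((χ : G → ℂ) g)) → ψ = χ) ∧ Nat.card Y ∣ p - 1 ∧ Nat.card B = Nat.card Y + (p - 1) / Nat.card Y ∧ ∃ δ : Cfsg.IrrCharacter G → ℤ, (∀ χ ∈ B, δ χ = 1 ∨ δ χ = -1) ∧ ∀ x : G, ¬ p ∣ orderOf x → ∀ θ ∈ Y, (∑ᶠ χ ∈ B \ Y, (δ χ : ℂ) * (χ : G → ℂ) x) + (δ θ : ℂ) * (θ : G → ℂ) x = 0 :=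
  s4507_of_main_core p hmain hcc
    (fun M hM x K h B hB χ hχB θ hχ =>
      Cfsg.Agent.Helper14.d1_block_eq p hcc hinj M hM x K h B hB χ hχB θ hχ)
    M hM hdiv hsq B hB hd

end Cfsg.Agent.Helper84
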