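-- helper84 library: PIECE DIAG3 of helper69's CALL S5999: a matrix with `y^3 = 1` is diagonalisable,
-- with the eigenvalues either pairwise distinct or the last two equal.
import Mathlib
import Cfsg.Prelude.Def_GeometricClasses
import Cfsg.Agent.Helper69.E3Def
import Cfsg.Agent.Helper84.E3BASE
import Cfsg.Agent.Helper84.E3CUBE

set_option autoImplicit false

open Matrix Cfsg.Agent.Helper69

namespace Cfsg.Agent.Helper84

/-- reorder three scalars so that they are pairwise distinct or the last two agree -/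
theorem e3u_perm3 {F : Type*} (μ : Fin 3 → F) :
    ∃ π : Equiv.Perm (Fin 3), (μ (π 0) ≠ μ (π 1) ∧ μ (π 0) ≠ μ (π 2) ∧ μ (π 1) ≠ μ (π 2)) ∨
      μ (π 1) = μ (π 2) := by
  by_cases h12 : μ 1 = μ 2
  · exact ⟨1, Or.inr h12⟩
  by_cases h01 : μ 0 = μ 1
  · exact ⟨⟨![2, 0, 1], ![1, 2, 0], by decide, by decide⟩, Or.inr h01⟩
  by_cases h02 : μ 0 = μ 2
  · exact ⟨⟨![1, 0, 2], ![1, 0, 2], by decide, by decide⟩, Or.inr h02⟩
  · exact ⟨1, Or.inl ⟨h01, h02, h12⟩⟩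

theorem e3u_diag3 {F : Type*} [Field F] [Fintype F] (h3 : (3 : F) ≠ 0) (ω : F) (hω1 : ω ≠ 1)
    (hω3 : ω ^ 3 = 1) (y : Matrix (Fin 3) (Fin 3) F) (hy : y ^ 3 = 1) :
    ∃ (Q : Matrix (Fin 3) (Fin 3) F) (a b c : F), Q.det ≠ 0 ∧ a ^ 3 = 1 ∧ b ^ 3 = 1 ∧ c ^ 3 = 1 ∧
      ((a ≠ b ∧ a ≠ c ∧ b ≠ c) ∨ b = c) ∧ y * Q = Q * Matrix.diagonal ![a, b, c] := by
  have hyT : yᵀ ^ 3 = 1 := by rw [← Matrix.transpose_pow, hy, Matrix.transpose_one]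
  obtain ⟨Q0, hQ0, hrows⟩ := e3_exists_rows _ (e3_eigen_span h3 ω hω1 hω3 yᵀ hyT)
  choose μ hμ3 hμ using hrows
  obtain ⟨π, hπ⟩ := e3u_perm3 μ
  refine ⟨(Q0.submatrix π id)ᵀ, μ (π 0), μ (π 1), μ (π 2), ?_, hμ3 _, hμ3 _, hμ3 _, hπ, ?_⟩
  · rw [Matrix.det_transpose]
    have hu : IsUnit (Q0.submatrix π (Equiv.refl (Fin 3))) :=
      (Matrix.isUnit_submatrix_equiv π (Equiv.refl _)).mpr ((Matrix.isUnit_iff_isUnit_det _).mpr hQ0)
    exact ((Matrix.isUnit_iff_isUnit_det _).mp hu).ne_zero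
  · ext i j
    have h1 : (y * (Q0.submatrix π id)ᵀ) i j = (Q0 (π j) ᵥ* yᵀ) i := by
      rw [Matrix.vecMul_transpose]
      rfl
    rw [h1, hμ (π j), Matrix.mul_diagonal]
    fin_cases j <;> simp [mul_comm]

end Cfsg.Agent.Helper84
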