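import Mathlib
import Cfsg.Prelude.Def_GeometricClasses
import Cfsg.Prelude.Def_Classical
import Cfsg.Agent.Helper96.OHDefs

set_option autoImplicit false
set_option linter.unusedSectionVars false
set_option linter.unusedVariables false

/-!
# CALL NP (helper13, row S5989), piece ISOSUM (helper84)

Orthogonal direct sums of isometric subspaces are isometric.
-/

namespace Cfsg.Agent.Helper84.NP5989

open Module Cfsg Cfsg.Geo Cfsg.Agent.Helper96.OH
open scoped MatrixGroups

variable {ι : Type} [Fintype ι] [DecidableEq ι] {F : Type*} [Field F] [Fintype F]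
  (Q : (ι → F) → F)

omit [Fintype ι] [DecidableEq ι] [Fintype F] in
/-- the parametrisation `A × B ≃ A ⊔ B` of a direct sum -/
theorem npisosum_param (A B : Submodule F (ι → F)) (hAB : A ⊓ B = ⊥) :
    ∃ φ : (A × B) ≃ₗ[F] ↥(A ⊔ B), ∀ x : A × B,
      ((φ x : ↥(A ⊔ B)) : ι → F) = (x.1 : ι → F) + (x.2 : ι → F) := by
  have hmem : ∀ x : A × B, (LinearMap.coprod A.subtype B.subtype) x ∈ A ⊔ B := by
    intro x
    rw [LinearMap.coprod_apply]
    exact Submodule.add_mem _ (Submodule.mem_sup_left x.1.2) (Submodule.mem_sup_right x.2.2)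
  let f : (A × B) →ₗ[F] ↥(A ⊔ B) :=
    (LinearMap.coprod A.subtype B.subtype).codRestrict (A ⊔ B) hmem
  have hf : ∀ x : A × B, ((f x : ↥(A ⊔ B)) : ι → F) = (x.1 : ι → F) + (x.2 : ι → F) := by
    intro x
    show (LinearMap.coprod A.subtype B.subtype) x = _
    rw [LinearMap.coprod_apply]
    rfl
  have hinj : Function.Injective f := by
    rw [← LinearMap.ker_eq_bot, LinearMap.ker_eq_bot']
    intro x hx
    have h1 : (x.1 : ι → F) + (x.2 : ι → F) = 0 := by
      rw [← hf x, hx]; rfl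
    have h2 : (x.1 : ι → F) ∈ A ⊓ B := by
      refine ⟨x.1.2, ?_⟩
      have h3 : (x.1 : ι → F) = -(x.2 : ι → F) := eq_neg_of_add_eq_zero_left h1
      rw [h3]
      exact B.neg_mem x.2.2
    rw [hAB, Submodule.mem_bot] at h2
    have h4 : (x.2 : ι → F) = 0 := by
      rw [h2, zero_add] at h1
      exact h1
    exact Prod.ext (Subtype.ext h2) (Subtype.ext h4)
  have hsurj : Function.Surjective f := by
    rintro ⟨w, hw⟩
    obtain ⟨a, ha, b, hb, hab⟩ := Submodule.mem_sup.1 hw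
    refine ⟨(⟨a, ha⟩, ⟨b, hb⟩), Subtype.ext ?_⟩
    rw [hf]
    exact hab
  exact ⟨LinearEquiv.ofBijective f ⟨hinj, hsurj⟩, fun x => hf x⟩

omit [Fintype ι] [DecidableEq ι] [Fintype F] in
/-- `Q (a + b) = Q a + Q b` for orthogonal vectors -/
theorem npisosum_add (a b : ι → F) (h : QuadraticMap.polar Q a b = 0) :
    Q (a + b) = Q a + Q b := by
  unfold QuadraticMap.polar at h
  have h1 : Q (a + b) = Q (a + b) - Q a - Q b + Q a + Q b := by ring
  rw [h1, h, zero_add]

/-- ISOSUM -/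
theorem np_iso_sum (A B A' B' : Submodule F (ι → F)) (horth : OOrth Q A B)
    (horth' : OOrth Q A' B') (hAB : A ⊓ B = ⊥) (hAB' : A' ⊓ B' = ⊥)
    (h1 : AreIsometricFor Q A A') (h2 : AreIsometricFor Q B B') :
    AreIsometricFor Q (A ⊔ B) (A' ⊔ B') := by
  obtain ⟨e1, he1⟩ := h1
  obtain ⟨e2, he2⟩ := h2
  obtain ⟨φ, hφ⟩ := npisosum_param A B hAB
  obtain ⟨φ', hφ'⟩ := npisosum_param A' B' hAB'
  refine ⟨φ.symm.trans ((e1.prodCongr e2).trans φ'), fun w => ?_⟩
  have hw : (w : ι → F) = ((φ.symm w).1 : ι → F) + ((φ.symm w).2 : ι → F) := by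
    rw [← hφ, LinearEquiv.apply_symm_apply]
  have hew : (((φ.symm.trans ((e1.prodCongr e2).trans φ')) w : ↥(A' ⊔ B')) : ι → F) =
      ((e1 (φ.symm w).1 : A') : ι → F) + ((e2 (φ.symm w).2 : B') : ι → F) := by
    rw [LinearEquiv.trans_apply, LinearEquiv.trans_apply, hφ']
    rfl
  rw [hew, hw, npisosum_add Q _ _ (horth' _ (e1 (φ.symm w).1).2 _ (e2 (φ.symm w).2).2),
    npisosum_add Q _ _ (horth _ (φ.symm w).1.2 _ (φ.symm w).2.2), he1, he2]

end Cfsg.Agent.Helper84.NP5989
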