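import Mathlib
import Cfsg.Prelude.Def_GeometricClasses
import Cfsg.Prelude.Def_Classical
import Cfsg.Agent.Helper96.OHDefs
import Cfsg.Agent.Helper84.NPISOND
import Cfsg.Agent.Helper84.OEETRANSFIXCore

set_option autoImplicit false
set_option linter.unusedSectionVars false
set_option linter.unusedVariables false

/-!
# CALL NP (helper13, row S5989), piece TRANS (helper84)

`oetransfix_core` (the Witt half of OTRANSFIX, `Cfsg.Agent.Helper84.OE5993`) + transport of
nondegeneracy along the given isometry (`np_iso_nd`).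
-/

namespace Cfsg.Agent.Helper84.NP5989

open Module Cfsg Cfsg.Geo Cfsg.Agent.Helper96.OH
open scoped MatrixGroups

variable {ι : Type} [Fintype ι] [DecidableEq ι] {F : Type*} [Field F] [Fintype F]
  (Q : (ι → F) → F)

/-- TRANS -/
theorem np_trans_fix (hQ : IsNondegenerateQuadraticForm Q) (h2 : (2 : F) ≠ 0)
    (K W W' : Submodule F (ι → F)) (hK : ONd Q K) (hW : ONd Q W) (hWK : W ≤ K) (hW'K : W' ≤ K)
    (hiso : AreIsometricFor Q W W') :
    ∃ g : Module.End F (ι → F), OPres Q g ∧ Function.Bijective g ∧ W.map g = W' ∧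
      ∀ v, (∀ u ∈ K, QuadraticMap.polar Q u v = 0) → g v = v :=
  Cfsg.Agent.Helper84.OE5993.oetransfix_core Q hQ K W W' hK hW
    (np_iso_nd Q W' W (npisond_symm Q W W' hiso) hW).1 hWK hW'K hiso

end Cfsg.Agent.Helper84.NP5989
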