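-- helper84 library: PIECE F5P of helper88's CALL S5850 (Omega_10^-(q) maximal subgroups):
-- a skew K-linear map `a` whose square is a square `s * s` in the degree-5 field `K` forces plus type.
import Cfsg.Agent.Helper95.O12Row
import Cfsg.Agent.Helper30.OZA2P

set_option autoImplicit false
set_option linter.unusedSectionVars false
set_option linter.unusedVariables false
open Cfsg Cfsg.Geo Matrix

namespace Cfsg.Agent.Helper84

variable {F : Type*} [Field F] [Fintype F]

/-- A matrix whose range is totally isotropic for the polar form of a non-degenerate quadratic form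
in odd characteristic has a totally singular range of dimension at most half. -/
theorem o10_range_ts (h2 : (2 : F) ≠ 0) {n : ℕ} (Q : (Fin n → F) → F)
    (hQ : IsNondegenerateQuadraticForm Q) (c : Matrix (Fin n) (Fin n) F)
    (hc : ∀ u w : Fin n → F, QuadraticMap.polar Q (c *ᵥ u) (c *ᵥ w) = 0) :
    IsTotallySingularQuad Q (LinearMap.range c.mulVecLin) ∧
      2 * Module.finrank F (LinearMap.range c.mulVecLin) ≤ n := by
  have hsym : IsSymmetricForm (QuadraticMap.polar Q) := Helper95.O12.polar_symmetric hQ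
  constructor
  · rintro w ⟨u, rfl⟩
    have h1 : QuadraticMap.polar Q (c *ᵥ u) (c *ᵥ u) = 2 * Q (c *ᵥ u) := by
      have h1 : c *ᵥ u + c *ᵥ u = (2 : F) • (c *ᵥ u) := (two_smul F _).symm
      rw [QuadraticMap.polar, h1, hQ.smul]
      ring
    rw [hc u u] at h1
    rcases mul_eq_zero.mp h1.symm with h | h
    · exact absurd h h2
    · exact h
  · have hts : IsTotallySingularFor (QuadraticMap.polar Q) (LinearMap.range c.mulVecLin) := by
      rintro x ⟨u, rfl⟩ y ⟨w, rfl⟩
      exact hc u w
    have := Helper94.OA.finrank_ts hsym _ hts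
    simpa using this

theorem o10_skew_square_plus (h2 : (2 : F) ≠ 0) (Q : (Fin 10 → F) → F)
    (hQ : IsNondegenerateQuadraticForm Q) (K : Subalgebra F (Matrix (Fin 10) (Fin 10) F))
    (hK : IsFieldSubalgebra 5 K) (hsa : IsSelfAdjointFor (QuadraticMap.polar Q) K)
    (a : Matrix (Fin 10) (Fin 10) F) (ha0 : a ≠ 0) (haK : ∀ k ∈ K, k * a = a * k)
    (hskew : ∀ u v : Fin 10 → F,
      QuadraticMap.polar Q (a *ᵥ u) v = - QuadraticMap.polar Q u (a *ᵥ v))
    (s : Matrix (Fin 10) (Fin 10) F) (hs : s ∈ K) (hδ : a * a = s * s) :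
    IsPlusTypeOn Q ⊤ := by
  classical
  have hsym : IsSymmetricForm (QuadraticMap.polar Q) := Helper95.O12.polar_symmetric hQ
  have htop : Module.finrank F (⊤ : Submodule F (Fin 10 → F)) = 10 := by
    rw [finrank_top]; simp
  by_cases hs0 : s = 0
  · -- `a * a = 0`: the range of `a` is totally singular, `K`-invariant and non-zero
    have haa : a * a = 0 := by rw [hδ, hs0, mul_zero]
    have hc : ∀ u w : Fin 10 → F, QuadraticMap.polar Q (a *ᵥ u) (a *ᵥ w) = 0 := by
      intro u w
      rw [hskew, Matrix.mulVec_mulVec, haa, Matrix.zero_mulVec, Helper94.OA.zero_right hsym,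
        neg_zero]
    obtain ⟨hts, hle⟩ := o10_range_ts h2 Q hQ a hc
    refine ⟨LinearMap.range a.mulVecLin, le_top, hts, ?_⟩
    rw [htop]
    -- a non-zero vector in the range
    obtain ⟨u, hu⟩ : ∃ u : Fin 10 → F, a *ᵥ u ≠ 0 := by
      by_contra hcon
      push Not at hcon
      apply ha0
      ext i j
      have := congrFun (hcon (Pi.single j 1)) i
      simpa using this
    -- `k ↦ k (a u)` embeds `K` into the range
    let φ : K →ₗ[F] LinearMap.range a.mulVecLin :=
      { toFun := fun k => ⟨(k : Matrix (Fin 10) (Fin 10) F) *ᵥ (a *ᵥ u),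
          ⟨(k : Matrix (Fin 10) (Fin 10) F) *ᵥ u, by
            show a *ᵥ ((k : Matrix (Fin 10) (Fin 10) F) *ᵥ u) = _
            rw [Matrix.mulVec_mulVec, Matrix.mulVec_mulVec, haK _ k.2]⟩⟩
        map_add' := fun k k' => by
          apply Subtype.ext
          show ((k : Matrix (Fin 10) (Fin 10) F) + (k' : Matrix (Fin 10) (Fin 10) F)) *ᵥ (a *ᵥ u) = _
          rw [Matrix.add_mulVec]; rfl
        map_smul' := fun r k => by
          apply Subtype.ext
          show (r • (k : Matrix (Fin 10) (Fin 10) F)) *ᵥ (a *ᵥ u) = _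
          rw [Matrix.smul_mulVec]; rfl }
    have hφ : Function.Injective φ := by
      rw [← LinearMap.ker_eq_bot, LinearMap.ker_eq_bot']
      intro k hk
      have hk' : (k : Matrix (Fin 10) (Fin 10) F) *ᵥ (a *ᵥ u) = 0 := congrArg Subtype.val hk
      have := Helper97.Gen.eq_zero_of_mulVec_eq_zero_of_inv K hK.inv k.2 hu hk'
      exact Subtype.ext this
    have h5 : Module.finrank F K ≤ Module.finrank F (LinearMap.range a.mulVecLin) :=
      LinearMap.finrank_le_finrank_of_injective hφ
    rw [hK.finrank_eq] at h5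
    omega
  · -- `s` invertible: ranges of `a - s` and `a + s`
    obtain ⟨y, hyK, hy⟩ := hK.inv s hs hs0
    have hsa' : s * a = a * s := haK s hs
    have hprod1 : (a + s) * (a - s) = 0 := by
      rw [add_mul, mul_sub, mul_sub, hδ, hsa']
      abel
    have hprod2 : (a - s) * (a + s) = 0 := by
      rw [sub_mul, mul_add, mul_add, hδ, hsa']
      abel
    have hsadj : ∀ u v : Fin 10 → F,
        QuadraticMap.polar Q (s *ᵥ u) v = QuadraticMap.polar Q u (s *ᵥ v) := hsa s hs
    have hc1 : ∀ u w : Fin 10 → F,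
        QuadraticMap.polar Q ((a - s) *ᵥ u) ((a - s) *ᵥ w) = 0 := by
      intro u w
      rw [Matrix.sub_mulVec a s u, Helper94.OA.sub_left hsym, hskew, hsadj,
        ← neg_add', ← hsym.bilinear.add_right, ← Matrix.add_mulVec, Matrix.mulVec_mulVec, hprod1,
        Matrix.zero_mulVec, Helper94.OA.zero_right hsym, neg_zero]
    have hc2 : ∀ u w : Fin 10 → F,
        QuadraticMap.polar Q ((a + s) *ᵥ u) ((a + s) *ᵥ w) = 0 := by
      intro u w
      rw [Matrix.add_mulVec a s u, hsym.bilinear.add_left, hskew, hsadj,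
        neg_add_eq_sub, ← Helper94.OA.sub_right hsym, ← Matrix.sub_mulVec, ← neg_sub,
        Matrix.neg_mulVec, Helper94.OA.neg_right hsym, Matrix.mulVec_mulVec, hprod2,
        Matrix.zero_mulVec, Helper94.OA.zero_right hsym, neg_zero]
    obtain ⟨hts1, hle1⟩ := o10_range_ts h2 Q hQ (a - s) hc1
    obtain ⟨hts2, hle2⟩ := o10_range_ts h2 Q hQ (a + s) hc2
    refine ⟨LinearMap.range (a - s).mulVecLin, le_top, hts1, ?_⟩
    rw [htop]
    have hsup : (⊤ : Submodule F (Fin 10 → F)) ≤
        LinearMap.range (a - s).mulVecLin ⊔ LinearMap.range (a + s).mulVecLin := by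
      intro v _
      obtain ⟨w, hw⟩ : ∃ w : Fin 10 → F, w = (2 : F)⁻¹ • (y *ᵥ v) := ⟨_, rfl⟩
      have hv : v = -((a - s) *ᵥ w) + (a + s) *ᵥ w := by
        rw [neg_add_eq_sub, ← Matrix.sub_mulVec, add_sub_sub_cancel, hw, Matrix.mulVec_smul,
          Matrix.mulVec_mulVec, add_mul, hy, ← two_smul F (1 : Matrix (Fin 10) (Fin 10) F),
          Matrix.smul_mulVec, Matrix.one_mulVec, smul_smul, inv_mul_cancel₀ h2, one_smul]
      have m1 : (a + s) *ᵥ w ∈ LinearMap.range (a + s).mulVecLin := ⟨w, rfl⟩
      have m2 : (a - s) *ᵥ w ∈ LinearMap.range (a - s).mulVecLin := ⟨w, rfl⟩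
      rw [hv]
      exact Submodule.add_mem_sup (Submodule.neg_mem _ m2) m1
    have h10 := Submodule.finrank_mono hsup
    rw [htop] at h10
    have hadd := Submodule.finrank_add_le_finrank_add_finrank
      (LinearMap.range (a - s).mulVecLin) (LinearMap.range (a + s).mulVecLin)
    omega

end Cfsg.Agent.Helper84
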