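-- helper84 library: PIECE SA2 of helper88's CALL S5850 (Omega_10^-(q) maximal subgroups):
-- in characteristic 2 there is no self-adjoint field of degree 2 with `B (k v) v = 0`
-- when the dimension is 2 mod 4.
import Cfsg.Agent.Helper95.O12Row
import Cfsg.Agent.Helper30.OZA2P

set_option autoImplicit false
set_option linter.unusedSectionVars false
set_option linter.unusedVariables false
open Cfsg Cfsg.Geo Matrix

namespace Cfsg.Agent.Helper84

variable {F : Type*} [Field F]

/-- A subspace invariant under a field subalgebra of degree 2 has even dimension. -/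
theorem o10_even_finrank_of_inv {n : ℕ} (hn0 : 0 < n)
    (K : Subalgebra F (Matrix (Fin n) (Fin n) F)) (hK : IsFieldSubalgebra 2 K)
    (L : Submodule F (Fin n → F)) (hL : ∀ k ∈ K, ∀ v ∈ L, k *ᵥ v ∈ L) :
    2 ∣ Module.finrank F L := by
  have : Nonempty (Fin n) := ⟨⟨0, hn0⟩⟩
  let _i1 := (Helper98.IsFS.of hK).field
  let _i2 := Helper98.subModule K
  have : IsScalarTower F K (Fin n → F) := ⟨fun c k x => by
    show ((c • k : K) : Matrix (Fin n) (Fin n) F) *ᵥ x = c • ((k : Matrix (Fin n) (Fin n) F) *ᵥ x)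
    rw [Subalgebra.coe_smul, Matrix.smul_mulVec]⟩
  let LK : Submodule K (Fin n → F) :=
    { carrier := L
      add_mem' := L.add_mem
      zero_mem' := L.zero_mem
      smul_mem' := fun k v hv => hL k.1 k.2 v hv }
  have h1 : LK.restrictScalars F = L := by ext; rfl
  have hfree : Module.Free K LK := Module.Free.of_divisionRing K LK
  have h2 := Module.finrank_mul_finrank F K LK
  rw [hK.finrank_eq] at h2
  have h3 : Module.finrank F LK = Module.finrank F L := by
    have e := LinearEquiv.finrank_eq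
      ((Submodule.restrictScalarsEquiv F K _ LK).restrictScalars F)
    rw [← e, h1]
  rw [← h3, ← h2]
  exact dvd_mul_right _ _

theorem o10_no_sa_two [Fintype F] (h2 : (2 : F) = 0) {n : ℕ} (hn : n % 4 = 2) (Q : (Fin n → F) → F)
    (hQ : IsNondegenerateQuadraticForm Q) (K : Subalgebra F (Matrix (Fin n) (Fin n) F))
    (hK : IsFieldSubalgebra 2 K) (hsa : IsSelfAdjointFor (QuadraticMap.polar Q) K)
    (hK0 : ∀ k ∈ K, ∀ v : Fin n → F, QuadraticMap.polar Q (k *ᵥ v) v = 0) : False := by
  classical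
  have hsp : IsSymplecticForm (QuadraticMap.polar Q) := Helper95.O12.polar_symplectic h2 hQ
  let P : Submodule F (Fin n → F) → Prop := fun L =>
    (∀ k ∈ K, ∀ v ∈ L, k *ᵥ v ∈ L) ∧ IsTotallySingularFor (QuadraticMap.polar Q) L
  have hP0 : P ⊥ := by
    refine ⟨fun k _ v hv => ?_, fun u hu v hv => ?_⟩
    · rw [(Submodule.mem_bot F).mp hv, Matrix.mulVec_zero]
      exact Submodule.zero_mem _
    · rw [(Submodule.mem_bot F).mp hu]
      exact Helper96.Sy.zero_left hsp v
  have : Nonempty {L // P L} := ⟨⟨⊥, hP0⟩⟩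
  have : Finite (Submodule F (Fin n → F)) := inferInstance
  obtain ⟨⟨L, hLinv, hLts⟩, hLmax⟩ :=
    Finite.exists_max (fun L : {L // P L} => Module.finrank F L.1)
  have hperp : Helper96.Sy.perp hsp L ≤ L := by
    intro v hv
    let T : K →ₗ[F] (Fin n → F) :=
      { toFun := fun k => (k : Matrix (Fin n) (Fin n) F) *ᵥ v
        map_add' := fun a b => by rw [Subalgebra.coe_add, Matrix.add_mulVec]
        map_smul' := fun c a => by
          rw [Subalgebra.coe_smul, Matrix.smul_mulVec, RingHom.id_apply] }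
    have hT : ∀ k : K, T k = (k : Matrix (Fin n) (Fin n) F) *ᵥ v := fun _ => rfl
    have hL'P : P (L ⊔ LinearMap.range T) := by
      constructor
      · intro k hk x hx
        obtain ⟨l, hl, y, ⟨k', rfl⟩, rfl⟩ := Submodule.mem_sup.mp hx
        rw [Matrix.mulVec_add]
        refine Submodule.add_mem_sup (hLinv k hk l hl) ⟨⟨k, hk⟩ * k', ?_⟩
        rw [hT, hT, Subalgebra.coe_mul, ← Matrix.mulVec_mulVec]
      · intro x hx y hy
        obtain ⟨l, hl, _, ⟨k, rfl⟩, rfl⟩ := Submodule.mem_sup.mp hx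
        obtain ⟨l', hl', _, ⟨k', rfl⟩, rfl⟩ := Submodule.mem_sup.mp hy
        rw [hT, hT]
        have e1 : QuadraticMap.polar Q l l' = 0 := hLts l hl l' hl'
        have e2 : QuadraticMap.polar Q l ((k' : Matrix (Fin n) (Fin n) F) *ᵥ v) = 0 := by
          rw [← hsa k'.1 k'.2]
          exact (Helper96.Sy.mem_perp hsp L v).mp hv _ (hLinv k'.1 k'.2 l hl)
        have e3 : QuadraticMap.polar Q ((k : Matrix (Fin n) (Fin n) F) *ᵥ v) l' = 0 := by
          rw [hsa k.1 k.2]
          exact (Helper96.Sy.mem_perp' hsp L v).mp hv _ (hLinv k.1 k.2 l' hl')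
        have e4 : QuadraticMap.polar Q ((k : Matrix (Fin n) (Fin n) F) *ᵥ v)
            ((k' : Matrix (Fin n) (Fin n) F) *ᵥ v) = 0 := by
          rw [← hsa k'.1 k'.2, Matrix.mulVec_mulVec]
          exact hK0 _ (K.mul_mem k'.2 k.2) v
        rw [hsp.bilinear.add_left, hsp.bilinear.add_right, hsp.bilinear.add_right, e1, e2, e3, e4]
        simp
    have hle : L ≤ L ⊔ LinearMap.range T := le_sup_left
    have hfr : Module.finrank F (L ⊔ LinearMap.range T : Submodule F (Fin n → F)) ≤
        Module.finrank F L := hLmax ⟨L ⊔ LinearMap.range T, hL'P⟩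
    have heq : L = L ⊔ LinearMap.range T := Submodule.eq_of_le_of_finrank_le hle hfr
    rw [heq]
    refine Submodule.mem_sup_right ⟨1, ?_⟩
    rw [hT, Subalgebra.coe_one, Matrix.one_mulVec]
  have hLle : L ≤ Helper96.Sy.perp hsp L := (Helper96.Sy.ts_iff hsp L).mp hLts
  have heq : Helper96.Sy.perp hsp L = L := le_antisymm hperp hLle
  have hfr := Helper96.Sy.finrank_perp hsp L
  rw [heq, Fintype.card_fin] at hfr
  have hev := o10_even_finrank_of_inv (by omega) K hK L hLinv
  obtain ⟨m, hm⟩ := hev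
  omega

end Cfsg.Agent.Helper84
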