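import Mathlib
import Cfsg.Agent.Helper96.OHDefs
import Cfsg.Agent.Helper69.ODDefs
import Cfsg.Agent.Helper31.OHOPERP
import Cfsg.Agent.Helper96.OHCDVD
import Cfsg.Agent.Helper73.OHONDSUBCARD
import Cfsg.Agent.Helper84.OEETRANSFIXCore

set_option autoImplicit false
set_option linter.unusedSectionVars false
set_option linter.unusedVariables false

/-!
# CALL OD (helper69, rows S5989 + S5991), piece DNDSUBCARD (helper84)

Twin of ENDSUBCARD / ONDSUBCARD (helper73's proof, Cfsg/Agent/Helper73/OHONDSUBCARD.lean) for the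
orbit of subspaces isometric to `W₀`; transitivity from `oetransfix_core`.
-/

namespace Cfsg.Agent.Helper84.OD59

open Module Polynomial Cfsg Cfsg.Geo
open Cfsg.Agent.Helper13.TIu Cfsg.Agent.Helper96.OH Cfsg.Agent.Helper69.OD
open Cfsg.Agent.Helper73.OH5992 (oFixPerp ofp_polar)
open scoped MatrixGroups

variable {ι : Type} [Fintype ι] [DecidableEq ι] {F : Type*} [Field F] (Q : (ι → F) → F)

/-- the inverse isometry -/
theorem odnd_iso_symm (W W' : Submodule F (ι → F)) (hiso : AreIsometricFor Q W W') :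
    AreIsometricFor Q W' W := by
  obtain ⟨e, he⟩ := hiso
  refine ⟨e.symm, fun w => ?_⟩
  have h := he (e.symm w)
  rw [LinearEquiv.apply_symm_apply] at h
  exact h.symm

/-- composition of isometries -/
theorem odnd_iso_trans (W W' W'' : Submodule F (ι → F)) (h1 : AreIsometricFor Q W W')
    (h2 : AreIsometricFor Q W' W'') : AreIsometricFor Q W W'' := by
  obtain ⟨e1, he1⟩ := h1
  obtain ⟨e2, he2⟩ := h2
  refine ⟨e1.trans e2, fun w => ?_⟩
  rw [LinearEquiv.trans_apply, he2, he1]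

/-- DNDSUBCARD -/
theorem od_nd_sub_card [Fintype F] (hQ : IsNondegenerateQuadraticForm Q) (h2 : (2 : F) ≠ 0)
    (r : ℕ) [Fact r.Prime] (hr2 : 2 < r) (hrF : (r : F) ≠ 0) (i c : ℕ)
    (hi : i = orderOf ((Fintype.card F : ℕ) : ZMod r)) (hc : c = if Even i then i else 2 * i)
    (m : ℕ) (K : Submodule F (ι → F)) (hK : ONd Q K) (hKc : finrank F K < c)
    (W₀ W₁ : Submodule F (ι → F))
    (hW₁ : (finrank F W₁ = m ∧ ONd Q W₁ ∧ AreIsometricFor Q W₁ W₀) ∧ W₁ ≤ K) :
    ¬ r ∣ Nat.card {W : Submodule F (ι → F) //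
      (finrank F W = m ∧ ONd Q W ∧ AreIsometricFor Q W W₀) ∧ W ≤ K} := by
  classical
  have hrpr : r.Prime := Fact.out
  haveI : Finite ((ι → F) ≃ₗ[F] (ι → F)) :=
    Finite.of_injective (fun g => (g : (ι → F) → (ι → F))) DFunLike.coe_injective
  -- the complement of K
  obtain ⟨P, -, -, hPnd, hdisj, hsup, hKP, hPdim⟩ := Cfsg.Agent.Helper31.OH5992.o_perp Q hQ
    (1 : Module.End F (ι → F)) (opres_one Q) 1 Nat.one_pos (one_pow 1)
    ⊤ K (ond_top Q hQ) hK le_top le_top (by rintro _ ⟨v, hv, rfl⟩; exact hv)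
  rw [finrank_top, Module.finrank_fintype_fun_eq_card] at hPdim
  have hfixP : ∀ g ∈ oFixPerp Q K, ∀ y ∈ P, g y = y := by
    intro g hg y hy
    exact hg.2 y (fun u hu => hKP u hu y hy)
  -- elements of the subgroup preserve K
  have hKinv : ∀ g ∈ oFixPerp Q K, ∀ w ∈ K, g w ∈ K := by
    intro g hg w hw
    have h1 : g w ∈ K ⊔ P := by rw [hsup]; exact Submodule.mem_top
    obtain ⟨k, hk, y, hy, hky⟩ := Submodule.mem_sup.mp h1
    have hy0 : y = 0 := by
      by_contra hy0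
      obtain ⟨-, y', hy', hne⟩ := hPnd y hy hy0
      apply hne
      have h3 : pB Q hQ (g w) y' = 0 := by
        rw [pB_apply, ← hfixP g hg y' hy', ofp_polar Q g hg.1]
        exact hKP w hw y' hy'
      rw [← hky, map_add, LinearMap.add_apply, pB_apply, pB_apply, hKP k hk y' hy', zero_add] at h3
      exact h3
    rw [hy0, add_zero] at hky
    rw [← hky]
    exact hk
  -- the action
  have hpres : ∀ g ∈ oFixPerp Q K, ∀ W : Submodule F (ι → F),
      ((finrank F W = m ∧ ONd Q W ∧ AreIsometricFor Q W W₀) ∧ W ≤ K) →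
      ((finrank F (W.map (g : (ι → F) →ₗ[F] (ι → F))) = m ∧
        ONd Q (W.map (g : (ι → F) →ₗ[F] (ι → F))) ∧
        AreIsometricFor Q (W.map (g : (ι → F) →ₗ[F] (ι → F))) W₀) ∧
        W.map (g : (ι → F) →ₗ[F] (ι → F)) ≤ K) := by
    rintro g hg W ⟨⟨hW1, hW2, hW4⟩, hW3⟩
    have hfr : ∀ U : Submodule F (ι → F),
        finrank F (U.map (g : (ι → F) →ₗ[F] (ι → F))) = finrank F U := fun U =>
      (Submodule.equivMapOfInjective (g : (ι → F) →ₗ[F] (ι → F)) g.injective U).symm.finrank_eq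
    refine ⟨⟨?_, ?_, ?_⟩, ?_⟩
    · rw [hfr, hW1]
    · rintro _ ⟨u₀, hu₀, rfl⟩ hne
      have hu0 : u₀ ≠ 0 := by
        rintro rfl
        exact hne (map_zero _)
      obtain ⟨⟨x, hx, hx1⟩, ⟨x', hx', hx1'⟩⟩ := hW2 u₀ hu₀ hu0
      refine ⟨⟨g x, Submodule.mem_map_of_mem hx, ?_⟩, ⟨g x', Submodule.mem_map_of_mem hx', ?_⟩⟩
      · show QuadraticMap.polar Q (g x) (g u₀) ≠ 0
        rw [ofp_polar Q g hg.1]
        exact hx1
      · show QuadraticMap.polar Q (g u₀) (g x') ≠ 0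
        rw [ofp_polar Q g hg.1]
        exact hx1'
    · have hiso : AreIsometricFor Q W (W.map (g : (ι → F) →ₗ[F] (ι → F))) :=
        ⟨Submodule.equivMapOfInjective (g : (ι → F) →ₗ[F] (ι → F)) g.injective W,
          fun w => hg.1 (w : ι → F)⟩
      exact odnd_iso_trans Q _ W W₀ (odnd_iso_symm Q W _ hiso) hW4
    · rintro _ ⟨w, hw, rfl⟩
      exact hKinv g hg w (hW3 hw)
  letI inst : MulAction (oFixPerp Q K) {W : Submodule F (ι → F) //
      (finrank F W = m ∧ ONd Q W ∧ AreIsometricFor Q W W₀) ∧ W ≤ K} :=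
    { smul := fun g W => ⟨W.1.map (g.1 : (ι → F) →ₗ[F] (ι → F)), hpres g.1 g.2 W.1 W.2⟩
      one_smul := by
        intro W
        apply Subtype.ext
        show W.1.map (((1 : (ι → F) ≃ₗ[F] (ι → F))) : (ι → F) →ₗ[F] (ι → F)) = W.1
        exact Submodule.map_id _
      mul_smul := by
        intro g h W
        apply Subtype.ext
        show W.1.map ((g.1 * h.1 : (ι → F) ≃ₗ[F] (ι → F)) :
            (ι → F) →ₗ[F] (ι → F)) =
          (W.1.map (h.1 : (ι → F) →ₗ[F] (ι → F))).map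
            (g.1 : (ι → F) →ₗ[F] (ι → F))
        exact Submodule.map_comp _ _ _ }
  haveI : MulAction.IsPretransitive (oFixPerp Q K) {W : Submodule F (ι → F) //
      (finrank F W = m ∧ ONd Q W ∧ AreIsometricFor Q W W₀) ∧ W ≤ K} := by
    refine ⟨fun W W' => ?_⟩
    obtain ⟨g, hg0, hgb, hg1, hg2⟩ := Cfsg.Agent.Helper84.OE5993.oetransfix_core Q hQ K W.1 W'.1 hK
      W.2.1.2.1 W'.2.1.2.1 W.2.2 W'.2.2
      (odnd_iso_trans Q W.1 W₀ W'.1 W.2.1.2.2 (odnd_iso_symm Q W'.1 W₀ W'.2.1.2.2))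
    refine ⟨⟨LinearEquiv.ofBijective g hgb, fun v => hg0 v, fun v hv => hg2 v hv⟩, Subtype.ext ?_⟩
    show W.1.map ((LinearEquiv.ofBijective g hgb : (ι → F) ≃ₗ[F] (ι → F)) :
      (ι → F) →ₗ[F] (ι → F)) = W'.1
    rw [← hg1]
    rfl
  have hdvd : Nat.card {W : Submodule F (ι → F) //
      (finrank F W = m ∧ ONd Q W ∧ AreIsometricFor Q W W₀) ∧ W ≤ K} ∣ Nat.card (oFixPerp Q K) := by
    rw [← MulAction.index_stabilizer_of_transitive (G := oFixPerp Q K)
      (x := (⟨W₁, hW₁⟩ : {W : Submodule F (ι → F) //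
      (finrank F W = m ∧ ONd Q W ∧ AreIsometricFor Q W W₀) ∧ W ≤ K}))]
    exact Subgroup.index_dvd_card _
  intro hr
  have hr' : r ∣ Nat.card (oFixPerp Q K) := dvd_trans hr hdvd
  obtain ⟨g, hg⟩ := exists_prime_orderOf_dvd_card' r hr'
  have hgr : g.1 ^ r = 1 := by
    have h1 : g ^ r = 1 := by rw [← hg]; exact pow_orderOf_eq_one g
    have h3 := congrArg Subtype.val h1
    simpa using h3
  obtain ⟨T, hTdef⟩ : ∃ T : Module.End F (ι → F),
      T = (g.1 : (ι → F) →ₗ[F] (ι → F)) := ⟨_, rfl⟩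
  have hTapp : ∀ v, T v = g.1 v := fun v => by rw [hTdef]; rfl
  have hTpow : ∀ k : ℕ, ∀ v, (T ^ k) v = (g.1 ^ k) v := by
    intro k
    induction k with
    | zero => intro v; rfl
    | succ k ih =>
      intro v
      rw [pow_succ, pow_succ, Module.End.mul_apply, LinearEquiv.mul_apply, hTapp, ih]
  have hTr : T ^ r = 1 := by
    apply LinearMap.ext
    intro v
    rw [hTpow, hgr]
    rfl
  have hT : OPres Q T := by
    intro v
    rw [hTapp]
    exact g.2.1 v
  have h1 := Cfsg.Agent.Helper96.OH5992.o_cdvd Q hQ h2 T hT r hr2 hrF hTr i c hi hc ⊤ le_top (ond_top Q hQ)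
  rw [top_inf_eq, finrank_top, Module.finrank_fintype_fun_eq_card] at h1
  have hPle : P ≤ LinearMap.ker (T - 1) := by
    intro y hy
    rw [LinearMap.mem_ker, LinearMap.sub_apply, Module.End.one_apply, hTapp,
      hfixP g.1 g.2 y hy, sub_self]
  have h4 := Submodule.finrank_mono hPle
  have h5 : finrank F (LinearMap.ker (T - 1)) ≤ Fintype.card ι := by
    have h := Submodule.finrank_le (LinearMap.ker (T - 1))
    rw [Module.finrank_fintype_fun_eq_card] at h
    exact h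
  have h6 := Nat.eq_zero_of_dvd_of_lt h1 (by omega)
  have h7 : LinearMap.ker (T - 1) = ⊤ := by
    apply Submodule.eq_top_of_finrank_eq
    rw [Module.finrank_fintype_fun_eq_card]
    omega
  have h8 : T - 1 = 0 := LinearMap.ker_eq_top.mp h7
  have h9 : T = 1 := sub_eq_zero.mp h8
  have h10 : g = 1 := by
    apply Subtype.ext
    apply LinearEquiv.ext
    intro v
    rw [← hTapp, h9]
    rfl
  rw [h10, orderOf_one] at hg
  exact hrpr.ne_one hg.symm

end Cfsg.Agent.Helper84.OD59
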