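import Mathlib
import Cfsg.Agent.Helper96.OHDefs
import Cfsg.Agent.Helper69.ODDefs
import Cfsg.Agent.Helper80.TSNONSCAL

set_option autoImplicit false
set_option linter.unusedSectionVars false
set_option linter.unusedVariables false

/-!
# CALL OD (helper69, rows S5989 + S5991), piece NSCAL (helper84)

From helper80's `ts_nonscalar` (Cfsg/Agent/Helper80/TSNONSCAL.lean).
-/

namespace Cfsg.Agent.Helper84.OD59

open Module Polynomial Cfsg Cfsg.Geo
open Cfsg.Agent.Helper13.TIu Cfsg.Agent.Helper96.OH Cfsg.Agent.Helper69.OD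
open scoped MatrixGroups

variable {ι : Type} [Fintype ι] [DecidableEq ι] {F : Type*} [Field F] (Q : (ι → F) → F)

/-- NSCAL -/
theorem od_nscal (hQ : IsNondegenerateQuadraticForm Q) (hne : Nonempty ι)
    (g : GL ι F) (hg : g ∈ Cfsg.isometryGroup F Q) (r : ℕ) [Fact r.Prime] (hr2 : 2 < r)
    (hgr : orderOf g = r) : ∀ z : F, (g : Matrix ι ι F) ≠ z • (1 : Matrix ι ι F) := by
  have hrpr : r.Prime := Fact.out
  have hodd : Odd r := hrpr.odd_of_ne_two (by omega)
  refine Cfsg.Agent.Helper80.TS5973.ts_nonscalar Q hQ r hodd g hg ?_ ?_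
  · rw [← hgr]; exact pow_orderOf_eq_one g
  · rintro rfl
    rw [orderOf_one] at hgr
    omega

end Cfsg.Agent.Helper84.OD59
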