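import Mathlib
import Cfsg.Agent.Helper96.OHDefs
import Cfsg.Agent.Helper69.ODDefs
import Cfsg.Agent.Helper80.TSNONSCAL
import Cfsg.Agent.Helper52.ODDSKEVEN
import Cfsg.Agent.Helper33.ODDSISO2

set_option autoImplicit false
set_option linter.unusedSectionVars false
set_option linter.unusedVariables false

/-!
# CALL OD (helper69, rows S5989 + S5991), piece R2GEN, core (helper84)

`odr2gen_core`: the statement of R2GEN (`od_two_iff`) with DGOOD2 (`od_good_two`, for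
`b := ODs Q W₀`) as a hypothesis `hgood`.  Uses DSKEVEN (`Cfsg.Agent.Helper52.OD59.od_skew_even`),
DSISO2 (`Cfsg.Agent.Helper33.OD59.iso_of_ods`) and helper80's `ts_scalar_sq`.
-/

namespace Cfsg.Agent.Helper84.OD59

open Module Polynomial Cfsg Cfsg.Geo
open Cfsg.Agent.Helper13.TIu Cfsg.Agent.Helper96.OH Cfsg.Agent.Helper69.OD
open scoped MatrixGroups

variable {ι : Type} [Fintype ι] [DecidableEq ι] {F : Type*} [Field F] (Q : (ι → F) → F)

/-- R2GEN with DGOOD2 as a hypothesis -/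
theorem odr2gen_core [Fintype F] (hQ : IsNondegenerateQuadraticForm Q) (h2 : (2 : F) ≠ 0)
    (d m : ℕ) (hcard : Fintype.card ι = 2 * d) (hmo : Odd m) (hmd : m < d)
    (W₀ : Submodule F (ι → F)) (hW₀ : finrank F W₀ = m ∧ ONd Q W₀)
    (hgood : ∀ M : Matrix ι ι F, (∀ v, Q (M.mulVec v) = Q v) → M * M = 1 →
      ∃ W : Submodule F (ι → F), (finrank F W = m ∧ ONd Q W ∧ (ODs Q W ↔ ODs Q W₀)) ∧
        W.map (Matrix.toLin' M) ≤ W) :
    (∀ x : GL ι F, x ∈ Cfsg.Geo.omegaGL Q →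
      (∃ z : F, ((x ^ 2 : GL ι F) : Matrix ι ι F) = z • (1 : Matrix ι ι F)) →
      (∀ z : F, (x : Matrix ι ι F) ≠ z • (1 : Matrix ι ι F)) →
      ∃ W : Submodule F (ι → F), (finrank F W = m ∧ ONd Q W ∧ AreIsometricFor Q W W₀) ∧
        W.map (Matrix.toLin' (x : Matrix ι ι F)) ≤ W) ↔
    ¬ ∃ g : ↥(Cfsg.isometryGroup F Q), g ∈ Cfsg.Omega F Q ∧
      ((g : GL ι F) : Matrix ι ι F) * ((g : GL ι F) : Matrix ι ι F) = -1 := by
  classical
  haveI hne : Nonempty ι := by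
    rw [← Fintype.card_pos_iff, hcard]
    omega
  constructor
  · rintro hall ⟨g, hgΩ, hg2⟩
    have hx : (g : GL ι F) ∈ Cfsg.Geo.omegaGL Q := by
      unfold Cfsg.Geo.omegaGL
      exact Subgroup.mem_map.2 ⟨g, hgΩ, rfl⟩
    have hz : (((g : GL ι F) ^ 2 : GL ι F) : Matrix ι ι F) = (-1 : F) • (1 : Matrix ι ι F) := by
      rw [Units.val_pow_eq_pow_val, pow_two, hg2, neg_smul, one_smul]
    have hns : ∀ z : F, ((g : GL ι F) : Matrix ι ι F) ≠ z • (1 : Matrix ι ι F) := by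
      intro z hzz
      have h1 := Cfsg.Agent.Helper80.TS5973.ts_scalar_sq Q hQ (g : GL ι F) g.2 z hzz
      have h3 := hg2
      rw [hzz, Matrix.smul_mul, Matrix.one_mul, smul_smul] at h3
      obtain ⟨i⟩ := hne
      have h4 := congrFun (congrFun h3 i) i
      rw [Matrix.smul_apply, Matrix.one_apply_eq, Matrix.neg_apply, Matrix.one_apply_eq,
        smul_eq_mul, mul_one] at h4
      apply h2
      have h5 : (2 : F) = 1 - (-1) := by ring
      rw [h5, ← h4, ← h1]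
      ring
    obtain ⟨W, ⟨hW1, hW2, -⟩, hW3⟩ := hall (g : GL ι F) hx ⟨-1, hz⟩ hns
    have hev := Cfsg.Agent.Helper52.OD59.od_skew_even Q hQ h2 ((g : GL ι F) : Matrix ι ι F)
      (fun v => g.2 v v) hg2 W hW3 hW2
    rw [hW1] at hev
    exact (Nat.not_even_iff_odd.mpr hmo) hev
  · intro hno x hx hz hns
    unfold Cfsg.Geo.omegaGL at hx
    obtain ⟨g, hgΩ, rfl⟩ := Subgroup.mem_map.1 hx
    obtain ⟨z, hz⟩ := hz
    have hxI : ((Cfsg.isometryGroup F Q).subtype g) ∈ Cfsg.isometryGroup F Q := g.2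
    have hz2 := Cfsg.Agent.Helper80.TS5973.ts_scalar_sq Q hQ
      (((Cfsg.isometryGroup F Q).subtype g) ^ 2)
      ((Cfsg.isometryGroup F Q).pow_mem hxI 2) z hz
    have hz' : z = 1 ∨ z = -1 := by
      have h1 : (z - 1) * (z + 1) = 0 := by linear_combination hz2
      rcases mul_eq_zero.mp h1 with h3 | h3
      · exact Or.inl (sub_eq_zero.mp h3)
      · exact Or.inr (eq_neg_of_add_eq_zero_left h3)
    have hsq : ((g : GL ι F) : Matrix ι ι F) * ((g : GL ι F) : Matrix ι ι F) =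
        z • (1 : Matrix ι ι F) := by
      rw [← hz, Units.val_pow_eq_pow_val, pow_two]
      rfl
    rcases hz' with rfl | rfl
    · rw [one_smul] at hsq
      obtain ⟨W, ⟨hW1, hW2, hW4⟩, hW3⟩ := hgood ((g : GL ι F) : Matrix ι ι F)
        (fun v => g.2 v v) hsq
      refine ⟨W, ⟨hW1, hW2, ?_⟩, hW3⟩
      exact Cfsg.Agent.Helper33.OD59.iso_of_ods Q hQ h2 W W₀ hW2 hW₀.2 (by rw [hW1, hW₀.1]) hW4
    · exfalso
      apply hno
      refine ⟨g, hgΩ, ?_⟩
      rw [hsq, neg_smul, one_smul]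

end Cfsg.Agent.Helper84.OD59
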