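import Mathlib
import Cfsg.Agent.Helper96.OHDefs
import Cfsg.Agent.Helper69.ODDefs
import Cfsg.Agent.Helper80.TSNONSCAL

set_option autoImplicit false
set_option linter.unusedSectionVars false
set_option linter.unusedVariables false

/-!
# CALL OD (helper69, rows S5989 + S5991), piece SCAL (helper84)

From helper80's `ts_scalar_sq` (Cfsg/Agent/Helper80/TSNONSCAL.lean).
-/

namespace Cfsg.Agent.Helper84.OD59

open Module Polynomial Cfsg Cfsg.Geo
open Cfsg.Agent.Helper13.TIu Cfsg.Agent.Helper96.OH Cfsg.Agent.Helper69.OD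
open scoped MatrixGroups

variable {ι : Type} [Fintype ι] [DecidableEq ι] {F : Type*} [Field F] (Q : (ι → F) → F)

/-- SCAL -/
theorem od_scal (hQ : IsNondegenerateQuadraticForm Q) (hne : Nonempty ι) (h2 : (2 : F) ≠ 0)
    (x : GL ι F) (hx : x ∈ Cfsg.isometryGroup F Q) (r : ℕ) (hr : Odd r) (z : F)
    (hz : ((x ^ r : GL ι F) : Matrix ι ι F) = z • (1 : Matrix ι ι F)) :
    ∃ T : Module.End F (ι → F), OPres Q T ∧ T ^ r = 1 ∧
      ∀ W : Submodule F (ι → F), W.map T ≤ W ↔ W.map (Matrix.toLin' (x : Matrix ι ι F)) ≤ W := by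
  have hz2 := Cfsg.Agent.Helper80.TS5973.ts_scalar_sq Q hQ (x ^ r)
    ((Cfsg.isometryGroup F Q).pow_mem hx r) z hz
  have hz' : z = 1 ∨ z = -1 := by
    have h1 : (z - 1) * (z + 1) = 0 := by linear_combination hz2
    rcases mul_eq_zero.mp h1 with h3 | h3
    · exact Or.inl (sub_eq_zero.mp h3)
    · exact Or.inr (eq_neg_of_add_eq_zero_left h3)
  have hxQ : ∀ u, Q ((x : Matrix ι ι F).mulVec u) = Q u := fun u => hx u u
  have hpow : (Matrix.toLin' (x : Matrix ι ι F)) ^ r = z • (1 : Module.End F (ι → F)) := by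
    have h1 := map_pow (Matrix.toLinAlgEquiv' (R := F) (n := ι)) (x : Matrix ι ι F) r
    have h3 : Matrix.toLinAlgEquiv' ((x : Matrix ι ι F) ^ r) =
        z • (1 : Module.End F (ι → F)) := by
      rw [← Units.val_pow_eq_pow_val, hz, map_smul, map_one]
    rw [h3] at h1
    exact h1.symm
  rcases hz' with rfl | rfl
  · refine ⟨Matrix.toLin' (x : Matrix ι ι F), ?_, ?_, fun W => Iff.rfl⟩
    · intro v
      rw [Matrix.toLin'_apply]
      exact hxQ v
    · rw [hpow, one_smul]
  · refine ⟨(-1 : F) • Matrix.toLin' (x : Matrix ι ι F), ?_, ?_, fun W => ?_⟩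
    · intro v
      rw [LinearMap.smul_apply, Matrix.toLin'_apply, hQ.smul, hxQ v]
      ring
    · rw [_root_.smul_pow, hpow, hr.neg_one_pow, smul_smul]
      have h6 : ((-1 : F) * (-1 : F)) = 1 := by ring
      rw [h6, one_smul]
    · constructor
      · rintro h _ ⟨w, hw, rfl⟩
        have h1 : ((-1 : F) • Matrix.toLin' (x : Matrix ι ι F)) w ∈ W :=
          h (Submodule.mem_map_of_mem hw)
        rw [LinearMap.smul_apply] at h1
        have h3 := W.smul_mem (-1 : F) h1
        rw [smul_smul] at h3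
        have h6 : ((-1 : F) * (-1 : F)) = 1 := by ring
        rwa [h6, one_smul] at h3
      · rintro h _ ⟨w, hw, rfl⟩
        have h1 : (Matrix.toLin' (x : Matrix ι ι F)) w ∈ W := h (Submodule.mem_map_of_mem hw)
        show ((-1 : F) • Matrix.toLin' (x : Matrix ι ι F)) w ∈ W
        rw [LinearMap.smul_apply]
        exact W.smul_mem (-1 : F) h1

end Cfsg.Agent.Helper84.OD59
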