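import Mathlib
import Cfsg.Agent.Helper96.OHDefs
import Cfsg.Agent.Helper66.OHOTRANSFIX
import Cfsg.Agent.Helper43.OrthEven

set_option autoImplicit false
set_option linter.unusedSectionVars false
set_option linter.unusedVariables false

/-!
# CALL S5993 (helper69), piece EISO (helper84; double, route B)

Two nondegenerate subspaces of the same even dimension and the same type are isometric.
Plus type: `Cfsg.Agent.Helper66.OH5992.otransfix_iso`.  Minus type: both are isometric to a standard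
minus space `quadFormMinus (m - 1) F 1 ζ` resp. `ζ'` (`exists_minus_of_not_hasTS`), and the two
anisotropic binary forms are isometric by `w₁ = z₁ + u z₂`, `w₂ = t z₂` with
`t ^ 2 * (1 - 4 ζ') = 1 - 4 ζ` (a quotient of two nonsquares is a square), `2 u = 1 - t`.
-/

namespace Cfsg.Agent.Helper84.OE5993

open Module Polynomial Cfsg Cfsg.Geo
open Cfsg.Agent.Helper13.TIu Cfsg.Agent.Helper96.OH

section Binary

variable {F : Type*} [Field F]

/-- the change of coordinates on the standard minus space -/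
def oeisoTh (n : ℕ) (u t : F) :
    ((Fin n ⊕ Fin n) ⊕ Fin 2 → F) →ₗ[F] ((Fin n ⊕ Fin n) ⊕ Fin 2 → F) where
  toFun z := Sum.elim (fun x => z (Sum.inl x))
    (fun j => if j = 0 then z (Sum.inr 0) + u * z (Sum.inr 1) else t * z (Sum.inr 1))
  map_add' z w := by
    funext s
    rcases s with x | j
    · simp
    · simp only [Sum.elim_inr, Pi.add_apply]
      split_ifs <;> ring
  map_smul' c z := by
    funext s
    rcases s with x | j
    · simp
    · simp only [Sum.elim_inr, Pi.smul_apply, smul_eq_mul, RingHom.id_apply]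
      split_ifs <;> ring

theorem oeisoTh_inl (n : ℕ) (u t : F) (z : (Fin n ⊕ Fin n) ⊕ Fin 2 → F) (x : Fin n ⊕ Fin n) :
    oeisoTh n u t z (Sum.inl x) = z (Sum.inl x) := rfl

theorem oeisoTh_zero (n : ℕ) (u t : F) (z : (Fin n ⊕ Fin n) ⊕ Fin 2 → F) :
    oeisoTh n u t z (Sum.inr 0) = z (Sum.inr 0) + u * z (Sum.inr 1) := rfl

theorem oeisoTh_one (n : ℕ) (u t : F) (z : (Fin n ⊕ Fin n) ⊕ Fin 2 → F) :
    oeisoTh n u t z (Sum.inr 1) = t * z (Sum.inr 1) := rfl

theorem oeisoTh_inj (n : ℕ) (u t : F) (ht0 : t ≠ 0) :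
    Function.Injective (oeisoTh (F := F) n u t) := by
  rw [injective_iff_map_eq_zero]
  intro z hz
  have e0 := congrFun hz (Sum.inr 0)
  have e1 := congrFun hz (Sum.inr 1)
  rw [oeisoTh_zero] at e0
  rw [oeisoTh_one] at e1
  have h1 : z (Sum.inr 1) = 0 := by
    rcases mul_eq_zero.mp e1 with h | h
    · exact absurd h ht0
    · exact h
  have h0 : z (Sum.inr 0) = 0 := by
    rw [h1, mul_zero, add_zero] at e0
    exact e0
  funext s
  rcases s with x | j
  · have := congrFun hz (Sum.inl x)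
    rw [oeisoTh_inl] at this
    exact this
  · fin_cases j
    · exact h0
    · exact h1

theorem oeisoTh_form (n : ℕ) (ζ ζ' u t : F) (h4 : (4 : F) ≠ 0) (hu : 2 * u = 1 - t)
    (ht : t ^ 2 * (1 - 4 * ζ') = 1 - 4 * ζ) (z : (Fin n ⊕ Fin n) ⊕ Fin 2 → F) :
    Cfsg.quadFormMinus n F 1 ζ' (oeisoTh n u t z) = Cfsg.quadFormMinus n F 1 ζ z := by
  have hbin : ∀ z1 z2 : F, (z1 + u * z2) ^ 2 + 1 * (z1 + u * z2) * (t * z2) + ζ' * (t * z2) ^ 2 =
      z1 ^ 2 + 1 * z1 * z2 + ζ * z2 ^ 2 := by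
    intro z1 z2
    apply mul_left_cancel₀ h4
    linear_combination (4 * z1 * z2 + z2 ^ 2 * (2 * u + t + 1)) * hu - z2 ^ 2 * ht
  unfold Cfsg.quadFormMinus
  simp only [oeisoTh_inl, oeisoTh_zero, oeisoTh_one]
  rw [hbin]

/-- the discriminant of an irreducible `t² + t + ζ` is a nonsquare -/
theorem oeiso_disc (h2 : (2 : F) ≠ 0) (ζ : F) (hζ : ∀ t : F, t ^ 2 + t + ζ ≠ 0) :
    ¬ IsSquare (1 - 4 * ζ) := by
  rintro ⟨s, hs⟩
  have h4 : (4 : F) ≠ 0 := by
    have h : (4 : F) = 2 * 2 := by norm_num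
    rw [h]
    exact mul_ne_zero h2 h2
  have hr : 2 * ((s - 1) / 2) = s - 1 := mul_div_cancel₀ _ h2
  apply hζ ((s - 1) / 2)
  generalize (s - 1) / 2 = r at hr
  apply mul_left_cancel₀ h4
  linear_combination (2 * r + s + 1) * hr - hs

/-- the parameters of the change of coordinates -/
theorem oeiso_exists_ut [Fintype F] (h2 : (2 : F) ≠ 0) (ζ ζ' : F)
    (hζ : ∀ t : F, t ^ 2 + t + ζ ≠ 0) (hζ' : ∀ t : F, t ^ 2 + t + ζ' ≠ 0) :
    ∃ u t : F, t ≠ 0 ∧ 2 * u = 1 - t ∧ t ^ 2 * (1 - 4 * ζ') = 1 - 4 * ζ := by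
  classical
  have ha := oeiso_disc h2 ζ hζ
  have hb := oeiso_disc h2 ζ' hζ'
  have ha0 : (1 - 4 * ζ) ≠ 0 := by
    intro h
    apply ha
    rw [h]
    exact IsSquare.zero
  have hb0 : (1 - 4 * ζ') ≠ 0 := by
    intro h
    apply hb
    rw [h]
    exact IsSquare.zero
  have hχa := quadraticChar_neg_one_iff_not_isSquare.mpr ha
  have hχb := quadraticChar_neg_one_iff_not_isSquare.mpr hb
  have hχ : quadraticChar F ((1 - 4 * ζ) * (1 - 4 * ζ')) = 1 := by
    rw [map_mul, hχa, hχb]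
    norm_num
  obtain ⟨s, hs⟩ := (quadraticChar_one_iff_isSquare (mul_ne_zero ha0 hb0)).mp hχ
  have hs0 : s ≠ 0 := by
    rintro rfl
    rw [mul_zero] at hs
    exact mul_ne_zero ha0 hb0 hs
  refine ⟨(1 - s / (1 - 4 * ζ')) / 2, s / (1 - 4 * ζ'), div_ne_zero hs0 hb0,
    mul_div_cancel₀ _ h2, ?_⟩
  field_simp
  linear_combination -hs

end Binary

variable {ι : Type} [Fintype ι] [DecidableEq ι] {F : Type*} [Field F] (Q : (ι → F) → F)

/-- EISO: two nondegenerate subspaces of the same even dimension and the same type are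
isometric. -/
theorem oe_iso [Fintype F] (hQ : IsNondegenerateQuadraticForm Q) (h2 : (2 : F) ≠ 0)
    (W W' : Submodule F (ι → F)) (hW : ONd Q W) (hW' : ONd Q W')
    (hdim : finrank F W = finrank F W') (hev : Even (finrank F W))
    (hty : OPl Q W ↔ OPl Q W') : AreIsometricFor Q W W' := by
  classical
  rcases Nat.eq_zero_or_pos (finrank F W) with h0 | hpos
  · have hWb : W = ⊥ := Submodule.finrank_eq_zero.1 h0
    have hW'b : W' = ⊥ := Submodule.finrank_eq_zero.1 (by rw [← hdim]; exact h0)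
    have heq : W = W' := by rw [hWb, hW'b]
    exact ⟨LinearEquiv.ofEq W W' heq, fun w => rfl⟩
  · by_cases hpl : OPl Q W
    · exact Cfsg.Agent.Helper66.OH5992.otransfix_iso Q hQ W W' hW hW' hdim hpl (hty.1 hpl) hpos
    · have hpl' : ¬ OPl Q W' := fun h => hpl (hty.2 h)
      obtain ⟨m, hm⟩ := hev
      have hd : finrank F W = 2 * m := by omega
      have hd' : finrank F W' = 2 * m := by omega
      have hm1 : 1 ≤ m := by omega
      have hTS : ¬ Cfsg.Agent.Helper43.OrthEven.HasTS (Cfsg.Agent.Helper33.OType.restr Q hQ W) m :=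
        fun h => hpl ((Cfsg.Agent.Helper33.OType.plus_iff_hasTS Q hQ W hW hd).2 h)
      have hTS' : ¬ Cfsg.Agent.Helper43.OrthEven.HasTS
          (Cfsg.Agent.Helper33.OType.restr Q hQ W') m :=
        fun h => hpl' ((Cfsg.Agent.Helper33.OType.plus_iff_hasTS Q hQ W' hW' hd').2 h)
      obtain ⟨ζ, hζ, Ψ, hΨ⟩ := Cfsg.Agent.Helper43.OrthEven.exists_minus_of_not_hasTS hm1 hd
        (Cfsg.Agent.Helper33.OType.restr Q hQ W)
        (Cfsg.Agent.Helper33.OType.polarNondeg_restr Q hQ W hW) hTS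
      obtain ⟨ζ', hζ', Ψ', hΨ'⟩ := Cfsg.Agent.Helper43.OrthEven.exists_minus_of_not_hasTS hm1 hd'
        (Cfsg.Agent.Helper33.OType.restr Q hQ W')
        (Cfsg.Agent.Helper33.OType.polarNondeg_restr Q hQ W' hW') hTS'
      obtain ⟨u, t, ht0, hu, ht⟩ := oeiso_exists_ut h2 ζ ζ' hζ hζ'
      have h4 : (4 : F) ≠ 0 := by
        have h : (4 : F) = 2 * 2 := by norm_num
        rw [h]
        exact mul_ne_zero h2 h2
      refine ⟨(Ψ.symm.trans (LinearEquiv.ofInjectiveEndo (oeisoTh (m - 1) u t)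
        (oeisoTh_inj (m - 1) u t ht0))).trans Ψ', fun w => ?_⟩
      have h1 := hΨ' (oeisoTh (m - 1) u t (Ψ.symm w))
      have h3 := hΨ (Ψ.symm w)
      rw [LinearEquiv.apply_symm_apply] at h3
      rw [Cfsg.Agent.Helper33.OType.restr_apply] at h1 h3
      rw [LinearEquiv.trans_apply, LinearEquiv.trans_apply, LinearEquiv.coe_ofInjectiveEndo, h1,
        h3]
      exact oeisoTh_form (m - 1) ζ ζ' u t h4 hu ht _

end Cfsg.Agent.Helper84.OE5993
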