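import Mathlib
import Cfsg.Agent.Helper96.OHDefs
import Cfsg.Agent.Helper84.OEEISO
import Cfsg.Agent.Helper84.OEETRANSFIXCore

set_option autoImplicit false
set_option linter.unusedSectionVars false
set_option linter.unusedVariables false

/-!
# CALL S5993 (helper69), piece ETRANSFIX (helper84)

EISO (`Cfsg.Agent.Helper84.OE5993.oe_iso`) + the Witt half (`oetransfix_core`).
-/

namespace Cfsg.Agent.Helper84.OE5993

open Module Polynomial Cfsg Cfsg.Geo
open Cfsg.Agent.Helper13.TIu Cfsg.Agent.Helper96.OH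

variable {ι : Type} [Fintype ι] [DecidableEq ι] {F : Type*} [Field F] (Q : (ι → F) → F)

/-- ETRANSFIX (twin of OTRANSFIX; uses EISO). -/
theorem oe_trans_fix [Fintype F] (hQ : IsNondegenerateQuadraticForm Q) (h2 : (2 : F) ≠ 0)
    (K W W' : Submodule F (ι → F)) (hK : ONd Q K) (hW : ONd Q W) (hW' : ONd Q W') (hWK : W ≤ K)
    (hW'K : W' ≤ K) (hdim : finrank F W = finrank F W') (hev : Even (finrank F W))
    (hty : OPl Q W ↔ OPl Q W') :
    ∃ g : Module.End F (ι → F), OPres Q g ∧ Function.Bijective g ∧ W.map g = W' ∧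
      ∀ v, (∀ u ∈ K, QuadraticMap.polar Q u v = 0) → g v = v :=
  oetransfix_core Q hQ K W W' hK hW hW' hWK hW'K (oe_iso Q hQ h2 W W' hW hW' hdim hev hty)

end Cfsg.Agent.Helper84.OE5993
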