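import Mathlib
import Cfsg.Prelude.Def_GeometricClasses
import Cfsg.Prelude.Def_Classical
import Cfsg.Agent.Helper35.S88Defs
import Cfsg.Agent.Helper58.TSDefs
import Cfsg.Agent.Helper43.PrimeOrdO3
import Cfsg.Agent.Helper33.OType
import Cfsg.Agent.Helper43.S88OEDefs
import Cfsg.Agent.Helper43.OrthStd
import Cfsg.Agent.Helper43.TBXISO
import Cfsg.Agent.Helper35.TBXODD
import Cfsg.Agent.Helper65.S88OEELLBR
import Cfsg.Agent.Helper65.S74Defs

set_option autoImplicit false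
set_option linter.unusedSectionVars false
set_option linter.unusedVariables false

/-!
# CALL S74 (helper65; row S5974): hyperbolic twins of ELLBR and XFER of sub-CALL S88OE (helper84)

* `s74_hyp_bridge` (twin of helper65's `oe_ell_bridge`): along an isometric linear equivalence
  `Φ : V' ≃ (ι → F)`, "nondegenerate with a totally singular half-dimensional subspace" is the
  Prelude notion "nondegenerate of plus type" for `W.map Φ`.
* `s74_xfer` (twin of `oe_xfer`): transfer of a model isometry of odd order to `Ω(Q)` with its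
  characteristic polynomial and its invariant HYPERBOLIC subspaces (`InvHyp` of
  `Cfsg.Agent.Helper65.S74`).
-/

namespace Cfsg.Agent.Helper84.S74

open Module Polynomial Cfsg Cfsg.Geo Cfsg.Agent.Helper58.TS Cfsg.Agent.Helper35.S88
open Cfsg.Agent.Helper43 Cfsg.Agent.Helper43.OrthEven Cfsg.Agent.Helper43.CycFactors
  Cfsg.Agent.Helper43.PrimeOrdMat Cfsg.Agent.Helper43.S88OE Cfsg.Agent.Helper65.S74
open Cfsg.Agent.Helper43.TB (tb_xiso)
open Cfsg.Agent.Helper35.TB (tb_xodd)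
open scoped MatrixGroups

universe u

section conc

variable {ι : Type} [Fintype ι] [DecidableEq ι] {F : Type u} [Field F]

/-- HYPBR: the hyperbolic twin of ELLBR -/
theorem s74_hyp_bridge (Q : (ι → F) → F) (hQ : IsNondegenerateQuadraticForm Q) {V' : Type u}
    [AddCommGroup V'] [Module F V'] [FiniteDimensional F V'] (Q' : QuadraticForm F V')
    (Φ : V' ≃ₗ[F] (ι → F)) (hΦ : ∀ v, Q (Φ v) = Q' v) (W : Submodule F V') (l : ℕ)
    (hW : finrank F W = 2 * l) :
    (PolarNondeg (Q'.comp W.subtype) ∧ HasTS (Q'.comp W.subtype) l) ↔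
      (IsNondegenerateOn (QuadraticMap.polar Q) (W.map (Φ : V' →ₗ[F] (ι → F))) ∧
        IsPlusTypeOn Q (W.map (Φ : V' →ₗ[F] (ι → F)))) := by
  have hpol : ∀ v w : V', QuadraticMap.polar Q (Φ v) (Φ w) = QuadraticMap.polar Q' v w := by
    intro v w
    unfold QuadraticMap.polar
    rw [← map_add, hΦ, hΦ, hΦ]
  have hpolc : ∀ v w : W, QuadraticMap.polar (Q'.comp W.subtype) v w =
      QuadraticMap.polar Q' (v : V') (w : V') := by
    intro v w
    unfold QuadraticMap.polar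
    rfl
  have hdim : finrank F ↥(W.map (Φ : V' →ₗ[F] (ι → F))) = 2 * l := by
    rw [LinearEquiv.finrank_map_eq]
    exact hW
  -- nondegeneracy
  have hnd : PolarNondeg (Q'.comp W.subtype) ↔
      IsNondegenerateOn (QuadraticMap.polar Q) (W.map (Φ : V' →ₗ[F] (ι → F))) := by
    constructor
    · intro h w' hw' hw'0
      obtain ⟨v, hv, rfl⟩ := hw'
      have hv0 : (⟨v, hv⟩ : W) ≠ 0 := by
        intro h0
        apply hw'0
        have : v = 0 := congrArg Subtype.val h0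
        rw [this]
        exact map_zero _
      have hex : ∃ w : W, QuadraticMap.polar (Q'.comp W.subtype) ⟨v, hv⟩ w ≠ 0 := by
        by_contra hcon
        push Not at hcon
        exact hv0 (h ⟨v, hv⟩ hcon)
      obtain ⟨w, hw⟩ := hex
      rw [hpolc] at hw
      have h1 : QuadraticMap.polar Q (Φ v) (Φ (w : V')) ≠ 0 := by rw [hpol]; exact hw
      refine ⟨⟨Φ (w : V'), ⟨(w : V'), w.2, rfl⟩, ?_⟩, ⟨Φ (w : V'), ⟨(w : V'), w.2, rfl⟩, h1⟩⟩
      rw [QuadraticMap.polar_comm]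
      exact h1
    · intro h v hv
      by_contra hv0
      have hv0' : (v : V') ≠ 0 := fun h0 => hv0 (Subtype.ext h0)
      have hΦv0 : Φ (v : V') ≠ 0 := by
        intro h0
        exact hv0' (Φ.map_eq_zero_iff.mp h0)
      obtain ⟨-, x, hx, hx0⟩ := h (Φ (v : V')) ⟨(v : V'), v.2, rfl⟩ hΦv0
      obtain ⟨w, hw, rfl⟩ := hx
      have h1 := hv ⟨w, hw⟩
      rw [hpolc] at h1
      apply hx0
      show QuadraticMap.polar Q (Φ (v : V')) (Φ w) = 0
      rw [hpol]
      exact h1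
  -- the isometric equivalence `W ≃ W.map Φ`
  have he : ∀ v : W, (Cfsg.Agent.Helper33.OType.restr Q hQ (W.map (Φ : V' →ₗ[F] (ι → F))))
      ((Φ.submoduleMap W) v) = (Q'.comp W.subtype) v := by
    intro v
    rw [Cfsg.Agent.Helper33.OType.restr_apply]
    show Q (Φ (v : V')) = Q' (v : V')
    exact hΦ _
  have he' : ∀ v : ↥(W.map (Φ : V' →ₗ[F] (ι → F))), (Q'.comp W.subtype)
      ((Φ.submoduleMap W).symm v) =
      (Cfsg.Agent.Helper33.OType.restr Q hQ (W.map (Φ : V' →ₗ[F] (ι → F)))) v := by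
    intro v
    rw [← he ((Φ.submoduleMap W).symm v), LinearEquiv.apply_symm_apply]
  constructor
  · rintro ⟨h1, h2⟩
    have h1' := hnd.mp h1
    refine ⟨h1', ?_⟩
    exact (Cfsg.Agent.Helper33.OType.plus_iff_hasTS Q hQ _ h1' hdim).mpr
      (Cfsg.Agent.Helper65.S88OE.ellbr_hasTS_equiv _ _ (Φ.submoduleMap W) he l h2)
  · rintro ⟨h1, h2⟩
    refine ⟨hnd.mpr h1, ?_⟩
    have h3 := (Cfsg.Agent.Helper33.OType.plus_iff_hasTS Q hQ _ h1 hdim).mp h2
    exact Cfsg.Agent.Helper65.S88OE.ellbr_hasTS_equiv _ _ (Φ.submoduleMap W).symm he' l h3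

end conc

section fin

variable {F : Type u} [Field F] [Fintype F]

variable {ι : Type} [Fintype ι] [DecidableEq ι]

/-- XFER-H: transfer of a model isometry of odd order to `Ω(Q)`, hyperbolic version -/
theorem s74_xfer (Q : (ι → F) → F) (hQ : IsNondegenerateQuadraticForm Q) (d : ℕ) (hd : 4 ≤ d)
    (hcard : Fintype.card ι = 2 * d) (hplus : IsPlusTypeOn Q ⊤) (r : ℕ) (hr : Odd r)
    {V' : Type u} [AddCommGroup V'] [Module F V'] [FiniteDimensional F V']
    (Q' : QuadraticForm F V') (hnd : PolarNondeg Q') (hdim : finrank F V' = 2 * d)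
    (htype : HasTS Q' d) (T : Module.End F V') (hT : ∀ v, Q' (T v) = Q' v) (hTr : T ^ r = 1)
    (hT1 : T ≠ 1) :
    ∃ x : GL ι F, x ∈ Cfsg.Geo.omegaGL Q ∧ x ^ r = 1 ∧ x ≠ 1 ∧
      (x : Matrix ι ι F).charpoly = T.charpoly ∧
      ∀ l, (InvHyp Q (x : Matrix ι ι F) (2 * l) ↔ ∃ W : Submodule F V', W.map T ≤ W ∧
        finrank F W = 2 * l ∧ PolarNondeg (Q'.comp W.subtype) ∧ HasTS (Q'.comp W.subtype) l) := by
  classical
  obtain ⟨Φ, hΦ⟩ := tb_xiso Q hQ d 0 (by omega) hcard (typeDefect_plus hplus) Q' hnd hdim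
    ⟨fun _ => rfl, fun _ => htype⟩
  let b : Module.Basis ι F V' := Module.Basis.ofEquivFun Φ
  obtain ⟨A, hAdef⟩ : ∃ A : Matrix ι ι F, A = LinearMap.toMatrix b b T := ⟨_, rfl⟩
  have hAΦ : ∀ v, A.mulVec (Φ v) = Φ (T v) := by
    intro v
    rw [hAdef]
    exact LinearMap.toMatrix_mulVec_repr b b T v
  have hA : ∀ x, Q (A.mulVec x) = Q x := by
    intro x
    obtain ⟨v, rfl⟩ := Φ.surjective x
    rw [hAΦ, hΦ, hΦ, hT]
  have hAr : A ^ r = 1 := by
    rw [hAdef, ← Cfsg.Agent.Helper43.OrthStd.toMatrix_pow', hTr, LinearMap.toMatrix_one]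
  have hrpos : 0 < r := hr.pos
  have hr1 : r - 1 + 1 = r := Nat.sub_add_cancel hrpos
  let g0 : GL ι F := ⟨A, A ^ (r - 1), by rw [← pow_succ', hr1, hAr], by rw [← pow_succ, hr1, hAr]⟩
  have hg0 : g0 ∈ Cfsg.isometryGroup F Q := by
    intro u v
    exact hA u
  have hg0r : g0 ^ r = 1 := by
    apply Units.ext
    rw [Units.val_pow_eq_pow_val]
    exact hAr
  have hg01 : g0 ≠ 1 := by
    intro h1
    have h3 : A = 1 := congrArg (fun y : GL ι F => (y : Matrix ι ι F)) h1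
    apply hT1
    apply (LinearMap.toMatrix b b).injective
    rw [← hAdef, h3, LinearMap.toMatrix_one]
  have hch : (g0 : Matrix ι ι F).charpoly = T.charpoly := by
    show A.charpoly = T.charpoly
    rw [hAdef]
    exact LinearMap.charpoly_toMatrix T b
  refine ⟨g0, tb_xodd Q hQ (by omega) g0 hg0 r hr hg0r, hg0r, hg01, hch, ?_⟩
  intro l
  rw [invHyp_iff]
  constructor
  · rintro ⟨W₀, ⟨hW1, hW2, hW4⟩, hW3⟩
    have hmap : (W₀.comap (Φ : V' →ₗ[F] (ι → F))).map (Φ : V' →ₗ[F] (ι → F)) = W₀ :=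
      Submodule.map_comap_eq_of_surjective Φ.surjective W₀
    have hfr : finrank F ↥(W₀.comap (Φ : V' →ₗ[F] (ι → F))) = 2 * l := by
      rw [← hW1]
      conv_rhs => rw [← hmap]
      exact (LinearEquiv.finrank_map_eq Φ _).symm
    refine ⟨W₀.comap (Φ : V' →ₗ[F] (ι → F)), ?_, hfr, ?_⟩
    · rintro _ ⟨w, hw, rfl⟩
      show Φ (T w) ∈ W₀
      rw [← hAΦ]
      apply hW3
      exact ⟨Φ w, hw, by rw [Matrix.toLin'_apply]⟩
    · apply (s74_hyp_bridge Q hQ Q' Φ hΦ (W₀.comap (Φ : V' →ₗ[F] (ι → F))) l hfr).2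
      rw [hmap]
      exact ⟨hW2, hW4⟩
  · rintro ⟨W, hW3, hW1, hW2, hW4⟩
    have h1 := (s74_hyp_bridge Q hQ Q' Φ hΦ W l hW1).1 ⟨hW2, hW4⟩
    refine ⟨W.map (Φ : V' →ₗ[F] (ι → F)), ⟨?_, h1.1, h1.2⟩, ?_⟩
    · rw [← hW1]
      exact LinearEquiv.finrank_map_eq Φ W
    · rintro _ ⟨_, ⟨w, hw, rfl⟩, rfl⟩
      refine ⟨T w, hW3 ⟨w, hw, rfl⟩, ?_⟩
      show Φ (T w) = Matrix.toLin' A (Φ w)
      rw [Matrix.toLin'_apply, hAΦ]

end fin

end Cfsg.Agent.Helper84.S74
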