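import Mathlib
import Cfsg.Prelude.Def_GeometricClasses
import Cfsg.Prelude.Def_Classical
import Cfsg.Agent.Helper35.S88Defs
import Cfsg.Agent.Helper58.TSDefs
import Cfsg.Agent.Helper43.PrimeOrdO3
import Cfsg.Agent.Helper33.OType
import Cfsg.Agent.Helper43.S88OEDefs
import Cfsg.Agent.Helper98.TBSPLIT
import Cfsg.Agent.Helper98.S88OEPSTYPE

set_option autoImplicit false
set_option linter.unusedSectionVars false
set_option linter.unusedVariables false

/-!
# Sub-CALL S88OE (helper43; row S5988), piece BSPLIT, core (helper84)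

`oebsplit_core`: the statement of BSPLIT (`oe_bad_split`) with BLKRESTR + BLKTYPE (for the
invariant nondegenerate subspaces of `V₁`) as a hypothesis `hbt`.  PSND / PSDIM are proved inline
(`oebsplit_nd_left`, `oebsplit_nd_right`, `oebsplit_dim`); PSTYPE is helper98's `oe_prod_sub_type`.
-/

namespace Cfsg.Agent.Helper84.S88OE

open Module Polynomial Cfsg Cfsg.Geo Cfsg.Agent.Helper58.TS Cfsg.Agent.Helper35.S88
open Cfsg.Agent.Helper43 Cfsg.Agent.Helper43.OrthEven Cfsg.Agent.Helper43.CycFactors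
  Cfsg.Agent.Helper43.PrimeOrdMat Cfsg.Agent.Helper43.S88OE
open scoped MatrixGroups

universe u

section lin

variable {F : Type*} [Field F] {Va Vb : Type*} [AddCommGroup Va] [Module F Va] [AddCommGroup Vb]
  [Module F Vb]

/-- the polar form of a restricted product form -/
theorem oebsplit_polar (Qa : QuadraticForm F Va) (Qb : QuadraticForm F Vb) (Ua : Submodule F Va)
    (Ub : Submodule F Vb) (z w : ↥(Ua.prod Ub)) :
    QuadraticMap.polar ((Qa.prod Qb).comp (Ua.prod Ub).subtype) z w =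
      QuadraticMap.polar Qa z.1.1 w.1.1 + QuadraticMap.polar Qb z.1.2 w.1.2 := by
  have h1 : QuadraticMap.polar ((Qa.prod Qb).comp (Ua.prod Ub).subtype) z w =
      QuadraticMap.polar (Qa.prod Qb) (z : Va × Vb) (w : Va × Vb) := rfl
  rw [h1, QuadraticMap.polar_prod]

/-- PSND, first factor -/
theorem oebsplit_nd_left (Qa : QuadraticForm F Va) (Qb : QuadraticForm F Vb) (Ua : Submodule F Va)
    (Ub : Submodule F Vb) (h : PolarNondeg ((Qa.prod Qb).comp (Ua.prod Ub).subtype)) :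
    PolarNondeg (Qa.comp Ua.subtype) := by
  intro a ha
  have h1 := h ⟨((a : Va), 0), Submodule.mem_prod.2 ⟨a.2, Ub.zero_mem⟩⟩ (by
    intro w
    rw [oebsplit_polar]
    have h2 := ha ⟨w.1.1, (Submodule.mem_prod.1 w.2).1⟩
    have h3 : QuadraticMap.polar (Qa.comp Ua.subtype) a ⟨w.1.1, (Submodule.mem_prod.1 w.2).1⟩ =
        QuadraticMap.polar Qa (a : Va) w.1.1 := rfl
    rw [h3] at h2
    show QuadraticMap.polar Qa (a : Va) w.1.1 + QuadraticMap.polar Qb 0 w.1.2 = 0
    rw [h2, QuadraticMap.polar_zero_left, add_zero])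
  exact Subtype.ext (congrArg Prod.fst (congrArg Subtype.val h1))

/-- PSND, second factor -/
theorem oebsplit_nd_right (Qa : QuadraticForm F Va) (Qb : QuadraticForm F Vb)
    (Ua : Submodule F Va) (Ub : Submodule F Vb)
    (h : PolarNondeg ((Qa.prod Qb).comp (Ua.prod Ub).subtype)) :
    PolarNondeg (Qb.comp Ub.subtype) := by
  intro b hb
  have h1 := h ⟨(0, (b : Vb)), Submodule.mem_prod.2 ⟨Ua.zero_mem, b.2⟩⟩ (by
    intro w
    rw [oebsplit_polar]
    have h2 := hb ⟨w.1.2, (Submodule.mem_prod.1 w.2).2⟩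
    have h3 : QuadraticMap.polar (Qb.comp Ub.subtype) b ⟨w.1.2, (Submodule.mem_prod.1 w.2).2⟩ =
        QuadraticMap.polar Qb (b : Vb) w.1.2 := rfl
    rw [h3] at h2
    show QuadraticMap.polar Qa 0 w.1.1 + QuadraticMap.polar Qb (b : Vb) w.1.2 = 0
    rw [h2, QuadraticMap.polar_zero_left, add_zero])
  exact Subtype.ext (congrArg Prod.snd (congrArg Subtype.val h1))

/-- PSDIM -/
theorem oebsplit_dim [FiniteDimensional F Va] [FiniteDimensional F Vb] (Ua : Submodule F Va)
    (Ub : Submodule F Vb) : finrank F ↥(Ua.prod Ub) = finrank F Ua + finrank F Ub :=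
  (Cfsg.Agent.Helper98.S88OE.psEquiv Ua Ub).finrank_eq.trans Module.finrank_prod

end lin

section fin

variable {F : Type u} [Field F] [Fintype F]

/-- BSPLIT with BLKRESTR + BLKTYPE as a hypothesis -/
theorem oebsplit_core (p : ℕ) [Fact p.Prime] [CharP F p] (r : ℕ) [Fact r.Prime] (hr2 : 2 < r)
    (hrp : r ≠ p) (heven : Even (orderOf ((Fintype.card F : ℕ) : ZMod r))) {V₀ V₁ : Type u}
    [AddCommGroup V₀] [Module F V₀] [FiniteDimensional F V₀] [AddCommGroup V₁] [Module F V₁]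
    [FiniteDimensional F V₁] (Q₀ : QuadraticForm F V₀) (Q₁ : QuadraticForm F V₁)
    (T₁ : Module.End F V₁) (hblk : Blk r Q₁ T₁) (l : ℕ) (W : Submodule F (V₀ × V₁))
    (hW : W.map ((1 : Module.End F V₀).prodMap T₁) ≤ W) (hWdim : finrank F W = 2 * l)
    (hWnd : PolarNondeg ((Q₀.prod Q₁).comp W.subtype))
    (hbt : ∀ U : Submodule F V₁, U.map T₁ ≤ U → PolarNondeg (Q₁.comp U.subtype) →
      ∃ n, finrank F U = 2 * (orderOf ((Fintype.card F : ℕ) : ZMod r) / 2 * n) ∧
        (HasTS (Q₁.comp U.subtype) (orderOf ((Fintype.card F : ℕ) : ZMod r) / 2 * n) ↔ Even n)) :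
    ∃ (Ua : Submodule F V₀) (s w₂ : ℕ), PolarNondeg (Q₀.comp Ua.subtype) ∧
      finrank F Ua = 2 * w₂ ∧ l = orderOf ((Fintype.card F : ℕ) : ZMod r) / 2 * s + w₂ ∧
      2 * (orderOf ((Fintype.card F : ℕ) : ZMod r) / 2 * s) ≤ finrank F V₁ ∧
      (HasTS ((Q₀.prod Q₁).comp W.subtype) l ↔ (HasTS (Q₀.comp Ua.subtype) w₂ ↔ Even s)) := by
  classical
  have hr : r.Prime := Fact.out
  have hrF : (r : F) ≠ 0 := natCast_ne_zero_of_ne (p := p) hr hrp
  have hcop : IsCoprime (X - 1 : F[X]) (cyclotomic r F) := by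
    have h1 : Irreducible (X - 1 : F[X]) := by
      have := irreducible_X_sub_C (1 : F)
      simpa using this
    exact (h1.coprime_iff_not_dvd).mpr (X_sub_one_not_dvd_cyclotomic hr hrF)
  have ha : aeval (1 : Module.End F V₀) (X - 1 : F[X]) = 0 := by simp
  obtain ⟨Ua, Ub, -, hUb, rfl⟩ :=
    Cfsg.Agent.Helper98.TB.tb_split (1 : Module.End F V₀) T₁ (X - 1) (cyclotomic r F) hcop ha
      hblk.2.2 W hW
  have hnda := oebsplit_nd_left Q₀ Q₁ Ua Ub hWnd
  have hndb := oebsplit_nd_right Q₀ Q₁ Ua Ub hWnd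
  obtain ⟨s, hs1, hs2⟩ := hbt Ub hUb hndb
  have hdim := oebsplit_dim Ua Ub
  rw [hWdim, hs1] at hdim
  have hle : finrank F Ub ≤ finrank F V₁ := Submodule.finrank_le Ub
  rw [hs1] at hle
  set j := orderOf ((Fintype.card F : ℕ) : ZMod r) / 2 with hj
  have hUa : finrank F Ua = 2 * (l - j * s) := by omega
  refine ⟨Ua, s, l - j * s, hnda, hUa, by omega, hle, ?_⟩
  have h1 := Cfsg.Agent.Helper98.S88OE.oe_prod_sub_type Q₀ Q₁ Ua Ub hnda hndb (l - j * s) (j * s)
    hUa hs1
  have h2 : l - j * s + j * s = l := by omega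
  rw [h2] at h1
  rw [h1, hs2]

end fin

end Cfsg.Agent.Helper84.S88OE
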