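import Mathlib
import Cfsg.Prelude.Def_GeometricClasses
import Cfsg.Prelude.Def_Classical
import Cfsg.Agent.Helper35.S88Defs
import Cfsg.Agent.Helper58.TSDefs
import Cfsg.Agent.Helper43.PrimeOrdO3
import Cfsg.Agent.Helper33.OType
import Cfsg.Agent.Helper43.S88OEDefs
import Cfsg.Agent.Helper67.S88OEBLKCHAR
import Cfsg.Agent.Helper88.S88OEBLKTYPEof
import Cfsg.Agent.Helper84.S88OEBSPLITCore

set_option autoImplicit false
set_option linter.unusedSectionVars false
set_option linter.unusedVariables false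

/-!
# Sub-CALL S88OE (helper43; row S5988), piece BSPLIT (helper84, double)

`oebsplit_core` + BLKRESTR (inline: `oebsplit_blk_restr`) + BLKTYPE (helper88's `oe_blk_type_of`
with helper67's BLKCHAR `oe_blk_char`).
-/

namespace Cfsg.Agent.Helper84.S88OE

open Module Polynomial Cfsg Cfsg.Geo Cfsg.Agent.Helper58.TS Cfsg.Agent.Helper35.S88
open Cfsg.Agent.Helper43 Cfsg.Agent.Helper43.OrthEven Cfsg.Agent.Helper43.CycFactors
  Cfsg.Agent.Helper43.PrimeOrdMat Cfsg.Agent.Helper43.S88OE
open scoped MatrixGroups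

universe u

section lin

variable {F : Type*} [Field F] {Va Vb : Type*} [AddCommGroup Va] [Module F Va] [AddCommGroup Vb]
  [Module F Vb]

/-- polynomials in a restricted endomorphism -/
theorem oebsplit_aeval_restrict (T : Module.End F Va) (U : Submodule F Va)
    (hU : ∀ v ∈ U, T v ∈ U) (f : F[X]) :
    ∀ u : U, ((aeval (T.restrict hU) f u : U) : Va) = aeval T f (u : Va) := by
  induction f using Polynomial.induction_on with
  | C a =>
    intro u
    simp [Algebra.algebraMap_eq_smul_one]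
  | add f g hf hg =>
    intro u
    simp [hf, hg]
  | monomial n a ih =>
    intro u
    have e1 : aeval (T.restrict hU) (C a * X ^ (n + 1))
        = aeval (T.restrict hU) (C a * X ^ n) * T.restrict hU := by
      rw [pow_succ, ← mul_assoc, map_mul (aeval (T.restrict hU)), aeval_X]
    have e2 : aeval T (C a * X ^ (n + 1)) = aeval T (C a * X ^ n) * T := by
      rw [pow_succ, ← mul_assoc, map_mul (aeval T), aeval_X]
    rw [e1, e2, Module.End.mul_apply, Module.End.mul_apply, ih]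
    rfl

/-- BLKRESTR (own copy): the restriction of a block to an invariant nondegenerate subspace -/
theorem oebsplit_blk_restr (r : ℕ) (Qa : QuadraticForm F Va) (T : Module.End F Va)
    (hT : ∀ v, Qa (T v) = Qa v) (hcyc : aeval T (cyclotomic r F) = 0) (U : Submodule F Va)
    (hU : U.map T ≤ U) (hnd : PolarNondeg (Qa.comp U.subtype)) :
    ∃ T' : Module.End F U, Blk r (Qa.comp U.subtype) T' := by
  have hU' : ∀ v ∈ U, T v ∈ U := fun v hv => hU ⟨v, hv, rfl⟩
  refine ⟨T.restrict hU', hnd, ?_, ?_⟩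
  · intro v
    show Qa (T (v : Va)) = Qa (v : Va)
    exact hT _
  · apply LinearMap.ext
    intro u
    apply Subtype.ext
    rw [oebsplit_aeval_restrict T U hU' (cyclotomic r F) u, hcyc]
    rfl

end lin

section fin

variable {F : Type u} [Field F] [Fintype F]

/-- BSPLIT -/
theorem oe_bad_split (p : ℕ) [Fact p.Prime] [CharP F p] (r : ℕ) [Fact r.Prime] (hr2 : 2 < r)
    (hrp : r ≠ p) (heven : Even (orderOf ((Fintype.card F : ℕ) : ZMod r))) {V₀ V₁ : Type u}
    [AddCommGroup V₀] [Module F V₀] [FiniteDimensional F V₀] [AddCommGroup V₁] [Module F V₁]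
    [FiniteDimensional F V₁] (Q₀ : QuadraticForm F V₀) (Q₁ : QuadraticForm F V₁)
    (T₁ : Module.End F V₁) (hblk : Blk r Q₁ T₁) (l : ℕ) (W : Submodule F (V₀ × V₁))
    (hW : W.map ((1 : Module.End F V₀).prodMap T₁) ≤ W) (hWdim : finrank F W = 2 * l)
    (hWnd : PolarNondeg ((Q₀.prod Q₁).comp W.subtype)) :
    ∃ (Ua : Submodule F V₀) (s w₂ : ℕ), PolarNondeg (Q₀.comp Ua.subtype) ∧
      finrank F Ua = 2 * w₂ ∧ l = orderOf ((Fintype.card F : ℕ) : ZMod r) / 2 * s + w₂ ∧
      2 * (orderOf ((Fintype.card F : ℕ) : ZMod r) / 2 * s) ≤ finrank F V₁ ∧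
      (HasTS ((Q₀.prod Q₁).comp W.subtype) l ↔ (HasTS (Q₀.comp Ua.subtype) w₂ ↔ Even s)) := by
  refine oebsplit_core p r hr2 hrp heven Q₀ Q₁ T₁ hblk l W hW hWdim hWnd ?_
  intro U hU hnd
  obtain ⟨T', hT'⟩ := oebsplit_blk_restr r Q₁ T₁ hblk.2.1 hblk.2.2 U hU hnd
  exact Cfsg.Agent.Helper88.S88OE.oe_blk_type_of p r hr2 hrp heven (Q₁.comp U.subtype) T' hT'
    (Cfsg.Agent.Helper67.S88OE.oe_blk_char p r hrp T' hT'.2.2)

end fin

end Cfsg.Agent.Helper84.S88OE
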