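import Mathlib
import Cfsg.Prelude.Def_GeometricClasses
import Cfsg.Prelude.Def_Classical
import Cfsg.Agent.Helper35.S88Defs
import Cfsg.Agent.Helper58.TSDefs
import Cfsg.Agent.Helper43.PrimeOrdO3
import Cfsg.Agent.Helper33.OType
import Cfsg.Agent.Helper43.S88OEDefs
import Cfsg.Agent.Helper65.S88OEELLBR
import Cfsg.Agent.Helper84.S88OEXFERCore

set_option autoImplicit false
set_option linter.unusedSectionVars false
set_option linter.unusedVariables false

/-!
# Sub-CALL S88OE (helper43; row S5988), piece XFER (helper84, double)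

`oexfer_core` (Cfsg/Agent/Helper84/S88OEXFERCore.lean) + ELLBR (helper65's `oe_ell_bridge`).
-/

namespace Cfsg.Agent.Helper84.S88OE

open Module Polynomial Cfsg Cfsg.Geo Cfsg.Agent.Helper58.TS Cfsg.Agent.Helper35.S88
open Cfsg.Agent.Helper43 Cfsg.Agent.Helper43.OrthEven Cfsg.Agent.Helper43.CycFactors
  Cfsg.Agent.Helper43.PrimeOrdMat Cfsg.Agent.Helper43.S88OE
open scoped MatrixGroups

universe u

variable {F : Type u} [Field F] [Fintype F]

variable {ι : Type} [Fintype ι] [DecidableEq ι]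

/-- XFER -/
theorem oe_xfer (Q : (ι → F) → F) (hQ : IsNondegenerateQuadraticForm Q) (d : ℕ) (hd : 4 ≤ d)
    (hcard : Fintype.card ι = 2 * d) (hplus : IsPlusTypeOn Q ⊤) (r : ℕ) (hr : Odd r)
    {V' : Type u} [AddCommGroup V'] [Module F V'] [FiniteDimensional F V']
    (Q' : QuadraticForm F V') (hnd : PolarNondeg Q') (hdim : finrank F V' = 2 * d)
    (htype : HasTS Q' d) (T : Module.End F V') (hT : ∀ v, Q' (T v) = Q' v) (hTr : T ^ r = 1)
    (hT1 : T ≠ 1) :
    ∃ x : GL ι F, x ∈ Cfsg.Geo.omegaGL Q ∧ x ^ r = 1 ∧ x ≠ 1 ∧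
      (x : Matrix ι ι F).charpoly = T.charpoly ∧
      ∀ l, (InvEll Q (x : Matrix ι ι F) (2 * l) ↔ ∃ W : Submodule F V', InvEllSub Q' T l W) :=
  oexfer_core Q hQ d hd hcard hplus r hr Q' hnd hdim htype T hT hTr hT1
    (fun Φ hΦ W l hW => Cfsg.Agent.Helper65.S88OE.oe_ell_bridge Q hQ Q' Φ hΦ W l hW)

end Cfsg.Agent.Helper84.S88OE
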