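import Mathlib
import Cfsg.Prelude.Def_GeometricClasses
import Cfsg.Prelude.Def_Classical
import Cfsg.Agent.Helper35.S88Defs
import Cfsg.Agent.Helper58.TSDefs
import Cfsg.Agent.Helper43.PrimeOrdO3
import Cfsg.Agent.Helper33.OType
import Cfsg.Agent.Helper43.S88OEDefs
import Cfsg.Agent.Helper43.OrthStd
import Cfsg.Agent.Helper43.TBXISO
import Cfsg.Agent.Helper35.TBXODD
import Cfsg.Agent.Helper65.S88OEELLBR

set_option autoImplicit false
set_option linter.unusedSectionVars false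
set_option linter.unusedVariables false

/-!
# CALL S90 (helper98; row S5990), stage OEB: XFER for a MINUS-type ambient form (helper84)

Twin of `oe_xfer` (Cfsg/Agent/Helper84/S88OEXFERCore.lean) with `tb_xiso` for `δ = 1`: transfer of
a model isometry of odd order (model of minus type) to `Ω(Q)`, with its characteristic polynomial
and its invariant elliptic subspaces.
-/

namespace Cfsg.Agent.Helper84.S90

open Module Polynomial Cfsg Cfsg.Geo Cfsg.Agent.Helper58.TS Cfsg.Agent.Helper35.S88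
open Cfsg.Agent.Helper43 Cfsg.Agent.Helper43.OrthEven Cfsg.Agent.Helper43.CycFactors
  Cfsg.Agent.Helper43.PrimeOrdMat Cfsg.Agent.Helper43.S88OE
open Cfsg.Agent.Helper43.TB (tb_xiso)
open Cfsg.Agent.Helper35.TB (tb_xodd)
open scoped MatrixGroups

universe u

variable {F : Type u} [Field F] [Fintype F]

variable {ι : Type} [Fintype ι] [DecidableEq ι]

/-- XFER-M -/
theorem s90_xfer (Q : (ι → F) → F) (hQ : IsNondegenerateQuadraticForm Q) (d : ℕ) (hd : 4 ≤ d)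
    (hcard : Fintype.card ι = 2 * d) (hminus : ¬ IsPlusTypeOn Q ⊤) (r : ℕ) (hr : Odd r)
    {V' : Type u} [AddCommGroup V'] [Module F V'] [FiniteDimensional F V']
    (Q' : QuadraticForm F V') (hnd : PolarNondeg Q') (hdim : finrank F V' = 2 * d)
    (htype : ¬ HasTS Q' d) (T : Module.End F V') (hT : ∀ v, Q' (T v) = Q' v) (hTr : T ^ r = 1)
    (hT1 : T ≠ 1) :
    ∃ x : GL ι F, x ∈ Cfsg.Geo.omegaGL Q ∧ x ^ r = 1 ∧ x ≠ 1 ∧
      (x : Matrix ι ι F).charpoly = T.charpoly ∧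
      ∀ l, (InvEll Q (x : Matrix ι ι F) (2 * l) ↔ ∃ W : Submodule F V', InvEllSub Q' T l W) := by
  classical
  obtain ⟨Φ, hΦ⟩ := tb_xiso Q hQ d 1 (by omega) hcard (typeDefect_minus hminus) Q' hnd hdim
    ⟨fun h => absurd h htype, fun h => absurd h one_ne_zero⟩
  let b : Module.Basis ι F V' := Module.Basis.ofEquivFun Φ
  obtain ⟨A, hAdef⟩ : ∃ A : Matrix ι ι F, A = LinearMap.toMatrix b b T := ⟨_, rfl⟩
  have hAΦ : ∀ v, A.mulVec (Φ v) = Φ (T v) := by
    intro v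
    rw [hAdef]
    exact LinearMap.toMatrix_mulVec_repr b b T v
  have hA : ∀ x, Q (A.mulVec x) = Q x := by
    intro x
    obtain ⟨v, rfl⟩ := Φ.surjective x
    rw [hAΦ, hΦ, hΦ, hT]
  have hAr : A ^ r = 1 := by
    rw [hAdef, ← Cfsg.Agent.Helper43.OrthStd.toMatrix_pow', hTr, LinearMap.toMatrix_one]
  have hrpos : 0 < r := hr.pos
  have hr1 : r - 1 + 1 = r := Nat.sub_add_cancel hrpos
  let g0 : GL ι F := ⟨A, A ^ (r - 1), by rw [← pow_succ', hr1, hAr], by rw [← pow_succ, hr1, hAr]⟩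
  have hg0 : g0 ∈ Cfsg.isometryGroup F Q := by
    intro u v
    exact hA u
  have hg0r : g0 ^ r = 1 := by
    apply Units.ext
    rw [Units.val_pow_eq_pow_val]
    exact hAr
  have hg01 : g0 ≠ 1 := by
    intro h1
    have h3 : A = 1 := congrArg (fun y : GL ι F => (y : Matrix ι ι F)) h1
    apply hT1
    apply (LinearMap.toMatrix b b).injective
    rw [← hAdef, h3, LinearMap.toMatrix_one]
  have hch : (g0 : Matrix ι ι F).charpoly = T.charpoly := by
    show A.charpoly = T.charpoly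
    rw [hAdef]
    exact LinearMap.charpoly_toMatrix T b
  refine ⟨g0, tb_xodd Q hQ (by omega) g0 hg0 r hr hg0r, hg0r, hg01, hch, ?_⟩
  intro l
  constructor
  · rintro ⟨W₀, ⟨hW1, hW2, hW4⟩, hW3⟩
    have hmap : (W₀.comap (Φ : V' →ₗ[F] (ι → F))).map (Φ : V' →ₗ[F] (ι → F)) = W₀ :=
      Submodule.map_comap_eq_of_surjective Φ.surjective W₀
    have hfr : finrank F ↥(W₀.comap (Φ : V' →ₗ[F] (ι → F))) = 2 * l := by
      rw [← hW1]
      conv_rhs => rw [← hmap]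
      exact (LinearEquiv.finrank_map_eq Φ _).symm
    refine ⟨W₀.comap (Φ : V' →ₗ[F] (ι → F)), ?_, hfr, ?_⟩
    · rintro _ ⟨w, hw, rfl⟩
      show Φ (T w) ∈ W₀
      rw [← hAΦ]
      apply hW3
      exact ⟨Φ w, hw, by rw [Matrix.toLin'_apply]⟩
    · apply (Cfsg.Agent.Helper65.S88OE.oe_ell_bridge Q hQ Q' Φ hΦ (W₀.comap (Φ : V' →ₗ[F] (ι → F))) l hfr).2
      rw [hmap]
      exact ⟨hW2, hW4⟩
  · rintro ⟨W, hW3, hW1, hW2, hW4⟩
    have h1 := (Cfsg.Agent.Helper65.S88OE.oe_ell_bridge Q hQ Q' Φ hΦ W l hW1).1 ⟨hW2, hW4⟩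
    refine ⟨W.map (Φ : V' →ₗ[F] (ι → F)), ⟨?_, h1.1, h1.2⟩, ?_⟩
    · rw [← hW1]
      exact LinearEquiv.finrank_map_eq Φ W
    · rintro _ ⟨_, ⟨w, hw, rfl⟩, rfl⟩
      refine ⟨T w, hW3 ⟨w, hw, rfl⟩, ?_⟩
      show Φ (T w) = Matrix.toLin' A (Φ w)
      rw [Matrix.toLin'_apply, hAΦ]

end Cfsg.Agent.Helper84.S90
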