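import Mathlib
import Cfsg.Prelude.Def_GeometricClasses
import Cfsg.Prelude.Def_Classical
import Cfsg.Agent.Helper35.S88Defs
import Cfsg.Agent.Helper80.TSNONSCAL
import Cfsg.Agent.Helper35.TSSTDM
import Cfsg.Agent.Helper97.OForm
import Cfsg.Agent.Helper50.S88ORD
import Cfsg.Agent.Helper84.S90ABM
import Cfsg.Agent.Helper84.S90BM
import Cfsg.Agent.Helper84.S90XFER

set_option autoImplicit false
set_option linter.unusedVariables false

/-!
# CALL S90 (helper98; row S5990), stage OEB: core of the assembly (helper84)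

`s90_even_bad_core`: the stage `s90_even_bad` with the two hypothesis pieces CAUM (an isometry of
order `r` exists) and NDIVM (contradiction in the NDIV alternative) as hypotheses `hcau`, `hndiv`.
Port of the S88 OEB assembly of helper43 (tools/calls/S88OEAsm.lean.txt): ORD (`s88_ord`,
type-generic), AB-M (`s90_arith_bad`), BM-M (`s90_bad_model`), XFER-M (`s90_xfer`).
-/

namespace Cfsg.Agent.Helper84.S90

open Module Cfsg Cfsg.Geo Cfsg.Agent.Helper35.S88
open scoped MatrixGroups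

variable {F : Type*} [Field F] [Fintype F]

/-- OEB with CAUM and NDIVM as hypotheses -/
theorem s90_even_bad_core {p : ℕ} [Fact p.Prime] [CharP F p] {q : ℕ} (hq : Fintype.card F = q)
    (d m : ℕ) (hd : 4 ≤ d) (hm : 2 ≤ m) (hme : Even m) (hmn : m + 2 ≤ 2 * d) (a b : F)
    (hab : ∀ x y : F, x ^ 2 + a * x * y + b * y ^ 2 = 0 → x = 0 ∧ y = 0) (r : ℕ) [Fact r.Prime]
    (hr2 : 2 < r) (hrp : r ≠ p) (i : ℕ) (hi : i = orderOf (q : ZMod r)) (heven : Even i)
    (hcau : ∃ x₀ : GL ((Fin (d - 1) ⊕ Fin (d - 1)) ⊕ Fin 2) F,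
      x₀ ∈ Cfsg.isometryGroup F (Cfsg.quadFormMinus (d - 1) F a b) ∧ x₀ ^ r = 1 ∧ x₀ ≠ 1)
    (hndiv : m < i → (m < (2 * d) % i ∨ (m = (2 * d) % i ∧ Even ((2 * d) / i))) → False)
    (hall : AllEll (Cfsg.quadFormMinus (d - 1) F a b) r m) :
    ((2 * d) % i = 0 ∧ (Even ((2 * d) / i) ∨ (m % i = 0 ∧ Odd (m / i)))) ∨
      (0 < (2 * d) % i ∧ i ≤ m ∧ ((0 < m % i ∧ m % i < (2 * d) % i) ∨
        (m % i = 0 ∧ Odd (m / i)) ∨
        (m % i = (2 * d) % i ∧ Even ((2 * d + m - 2 * ((2 * d) % i)) / i)))) := by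
  classical
  by_contra hcond
  have hr : r.Prime := Fact.out
  have hrodd : Odd r := Nat.Prime.odd_of_ne_two hr (by omega)
  have hstd := Cfsg.Agent.Helper35.TS5973.ts_std_minus (F := F) (d - 1) a b hab
  have hcard : Fintype.card ((Fin (d - 1) ⊕ Fin (d - 1)) ⊕ Fin 2) = 2 * d := by
    simp only [Fintype.card_sum, Fintype.card_fin]
    omega
  have hi2 : 2 ≤ i := by
    have hpos := Cfsg.Agent.Helper43.CycFactors.orderOf_pos_of_card (p := p) hq hr hrp
    rw [← hi] at hpos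
    obtain ⟨j, hj⟩ := heven
    omega
  obtain ⟨x₀, hx₀, hx₀r, hx₀1⟩ := hcau
  have hid : i ≤ 2 * d := by
    have := Cfsg.Agent.Helper50.S88.s88_ord hq _ hstd.1 d hcard r hr2 hrp i
      (if Even i then i else 2 * i) hi rfl x₀ hx₀ hx₀r hx₀1
    rwa [if_pos heven] at this
  rcases s90_arith_bad d m i hd hm hme hmn hi2 heven hid hcond with
    ⟨hmi, hk⟩ | ⟨A, k₀, hA, hdk, hk₀, hno⟩
  · exact hndiv hmi hk
  · have heven' : Even (orderOf ((Fintype.card F : ℕ) : ZMod r)) := by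
      rw [hq, ← hi]
      exact heven
    have hi' : orderOf ((Fintype.card F : ℕ) : ZMod r) = i := by rw [hq, ← hi]
    obtain ⟨V', _, _, _, Q', T', hnd, hdim, hts, hT, hTr, hT1, hbad⟩ :=
      s90_bad_model (F := F) p r hr2 hrp heven' A k₀ hA hk₀
    rw [hi'] at hdim hts hbad
    rw [← hdk] at hdim hts
    obtain ⟨x, hxΩ, hxr, hx1, -, hiff⟩ :=
      s90_xfer (Cfsg.quadFormMinus (d - 1) F a b) hstd.1 d hd hcard hstd.2 r hrodd Q' hnd hdim
        hts T' hT hTr hT1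
    have hns := Cfsg.Agent.Helper80.TS5973.ts_nonscalar _ hstd.1 r hrodd x
      (Cfsg.Agent.Helper97.Gen.omegaGL_le _ hxΩ) hxr hx1
    have hinv := hall x hxΩ ⟨1, by rw [hxr]; simp⟩ hns
    obtain ⟨l, hl⟩ : ∃ l, m = 2 * l := by
      obtain ⟨l, hl⟩ := hme
      exact ⟨l, by omega⟩
    rw [hl] at hinv
    obtain ⟨W, hW⟩ := (hiff l).mp hinv
    obtain ⟨s, w₂, hval, hl'⟩ := hbad l W hW
    exact hno s w₂ hval (by rw [hl, hl'])

end Cfsg.Agent.Helper84.S90
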