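import Mathlib
import Cfsg.Prelude.Def_GeometricClasses
import Cfsg.Prelude.Def_Classical
import Cfsg.Agent.Helper35.S88Defs
import Cfsg.Agent.Helper86.S90CAUM
import Cfsg.Agent.Helper86.S90NDIVM
import Cfsg.Agent.Helper84.S90OEBCore

set_option autoImplicit false
set_option linter.unusedVariables false

/-!
# CALL S90 (helper98; row S5990), stage OEB `s90_even_bad` (helper84)

`s90_even_bad_core` (Cfsg/Agent/Helper84/S90OEBCore.lean: ORD + AB-M + BM-M + XFER-M) with the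
hypothesis pieces CAUM (`Cfsg.Agent.Helper86.S90.s90_cauchy`) and NDIVM
(`Cfsg.Agent.Helper86.S90.s90_ndiv`).
-/

namespace Cfsg.Agent.Helper84.S90

open Module Cfsg Cfsg.Geo Cfsg.Agent.Helper35.S88
open scoped MatrixGroups

variable {F : Type*} [Field F] [Fintype F]

/-- OEB -/
theorem s90_even_bad {p : ℕ} [Fact p.Prime] [CharP F p] {q : ℕ} (hq : Fintype.card F = q)
    (d m : ℕ) (hd : 4 ≤ d) (hm : 2 ≤ m) (hme : Even m) (hmn : m + 2 ≤ 2 * d) (a b : F)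
    (hab : ∀ x y : F, x ^ 2 + a * x * y + b * y ^ 2 = 0 → x = 0 ∧ y = 0) (r : ℕ) [Fact r.Prime]
    (hr2 : 2 < r) (hrp : r ≠ p) (i : ℕ) (hi : i = orderOf (q : ZMod r)) (heven : Even i)
    (hrΩ : r ∣ Nat.card {W : Submodule F ((Fin (d - 1) ⊕ Fin (d - 1)) ⊕ Fin 2 → F) //
      Module.finrank F ↥W = m ∧
      Cfsg.Geo.IsNondegenerateOn (QuadraticMap.polar (Cfsg.quadFormMinus (d - 1) F a b)) W ∧
      ¬ Cfsg.Geo.IsPlusTypeOn (Cfsg.quadFormMinus (d - 1) F a b) W})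
    (hall : AllEll (Cfsg.quadFormMinus (d - 1) F a b) r m) :
    ((2 * d) % i = 0 ∧ (Even ((2 * d) / i) ∨ (m % i = 0 ∧ Odd (m / i)))) ∨
      (0 < (2 * d) % i ∧ i ≤ m ∧ ((0 < m % i ∧ m % i < (2 * d) % i) ∨
        (m % i = 0 ∧ Odd (m / i)) ∨
        (m % i = (2 * d) % i ∧ Even ((2 * d + m - 2 * ((2 * d) % i)) / i)))) := by
  classical
  have hstd := Cfsg.Agent.Helper35.TS5973.ts_std_minus (F := F) (d - 1) a b hab
  have hcard : Fintype.card ((Fin (d - 1) ⊕ Fin (d - 1)) ⊕ Fin 2) = 2 * d := by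
    simp only [Fintype.card_sum, Fintype.card_fin]
    omega
  have hcau := Cfsg.Agent.Helper86.S90.s90_cauchy _ hstd.1 d m hcard hstd.2 hm hme hmn r hrΩ
  refine s90_even_bad_core hq d m hd hm hme hmn a b hab r hr2 hrp i hi heven hcau ?_ hall
  intro hmi hk
  obtain ⟨x₀, hx₀, hx₀r, hx₀1⟩ := hcau
  have hid : i ≤ 2 * d := by
    have := Cfsg.Agent.Helper50.S88.s88_ord hq _ hstd.1 d hcard r hr2 hrp i
      (if Even i then i else 2 * i) hi rfl x₀ hx₀ hx₀r hx₀1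
    rwa [if_pos heven] at this
  refine Cfsg.Agent.Helper86.S90.s90_ndiv hq _ hstd.1 d m hcard hstd.2 hm hme hmn r hr2 hrp i i
    hi (by rw [if_pos heven]) hmi hid ?_ hrΩ
  rcases hk with h | ⟨h1, h2⟩
  · exact Or.inl h
  · exact Or.inr ⟨h1, Or.inr h2⟩

end Cfsg.Agent.Helper84.S90
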