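import Mathlib
import Cfsg.Prelude.Def_GeometricClasses
import Cfsg.Agent.Helper90.SFRDefs
import Cfsg.Agent.Helper41.IMSSC
import Cfsg.Agent.Helper66.SFRRATCYC

/-!
# Piece RATK of CALL S5965 (helper84), core: `rat_stable` from the statement of piece RATSUM
(taken as a hypothesis `hsum`) and piece RATCYC (`Cfsg.Agent.Helper66.rat_cyc`).
-/

set_option autoImplicit false

namespace Cfsg.Agent.Helper84

open Module Polynomial Cfsg.Agent.Helper90.SFR

universe uF uV

theorem sfrk_aeval_restrict {F : Type uF} [Field F] {V : Type uV} [AddCommGroup V] [Module F V]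
    (T : V →ₗ[F] V) (U : Submodule F V) (hU : ∀ v ∈ U, T v ∈ U)
    (p : F[X]) : ∀ u : U, ((aeval (T.restrict hU) p u : U) : V) = aeval T p (u : V) := by
  induction p using Polynomial.induction_on with
  | C a =>
    intro u
    simp [Algebra.algebraMap_eq_smul_one]
  | add p q hp hq =>
    intro u
    simp [hp, hq]
  | monomial n a ih =>
    intro u
    have e1 : aeval (T.restrict hU) (C a * X ^ (n + 1))
        = aeval (T.restrict hU) (C a * X ^ n) * T.restrict hU := by
      rw [pow_succ, ← mul_assoc, map_mul (aeval (T.restrict hU)), aeval_X]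
    have e2 : aeval T (C a * X ^ (n + 1)) = aeval T (C a * X ^ n) * T := by
      rw [pow_succ, ← mul_assoc, map_mul (aeval T), aeval_X]
    rw [e1, e2, Module.End.mul_apply, Module.End.mul_apply, ih]
    rfl

theorem sfrk_factor {F : Type uF} [Field F] {V : Type uV} [AddCommGroup V] [Module F V]
    (F₀ : Subfield F) (T : V →ₗ[F] V) (r : ℕ) (hr : 0 < r) :
    ∀ (d : ℕ) (g : Polynomial ↥F₀), g.natDegree = d → g ∣ X ^ r - 1 → ∀ v : V, v ≠ 0 →
      aeval T (g.map F₀.subtype) v = 0 →
      ∃ h : Polynomial ↥F₀, Irreducible h ∧ h ∣ X ^ r - 1 ∧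
        ∃ w : V, w ≠ 0 ∧ aeval T (h.map F₀.subtype) w = 0 := by
  intro d
  induction d using Nat.strong_induction_on with
  | _ d ih =>
    intro g hd hg v hv hgv
    have hX : (X ^ r - 1 : Polynomial ↥F₀) ≠ 0 := by
      have hm := monic_X_pow_sub_C (1 : ↥F₀) hr.ne'
      rw [map_one] at hm
      exact hm.ne_zero
    have hg0 : g ≠ 0 := fun h0 => hX (by rw [h0] at hg; exact zero_dvd_iff.mp hg)
    have hgu : ¬ IsUnit g := by
      intro hu
      obtain ⟨c, hc, rfl⟩ := Polynomial.isUnit_iff.mp hu
      rw [Polynomial.map_C, aeval_C, Module.algebraMap_end_apply] at hgv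
      rcases smul_eq_zero.mp hgv with h1 | h1
      · exact hc.ne_zero (by simpa using h1)
      · exact hv h1
    obtain ⟨h, hh, k, rfl⟩ := WfDvdMonoid.exists_irreducible_factor hgu hg0
    by_cases hk : aeval T (k.map F₀.subtype) v = 0
    · have hk0 : k ≠ 0 := right_ne_zero_of_mul hg0
      have hh0 : h ≠ 0 := hh.ne_zero
      have hdeg : k.natDegree < d := by
        rw [← hd, natDegree_mul hh0 hk0]
        have := hh.natDegree_pos
        omega
      exact ih _ hdeg k rfl ((Dvd.intro_left h rfl).trans hg) v hv hk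
    · refine ⟨h, hh, (Dvd.intro k rfl).trans hg, aeval T (k.map F₀.subtype) v, hk, ?_⟩
      rw [← Module.End.mul_apply, ← map_mul, ← Polynomial.map_mul]
      exact hgv

theorem rat_stable_core {F : Type uF} [Field F] (F₀ : Subfield F) (r : ℕ) (hr : 0 < r)
    (hrF : (r : F) ≠ 0)
    (hirr : ∀ h : Polynomial ↥F₀, Irreducible h → h ∣ X ^ r - 1 →
      Irreducible (h.map F₀.subtype))
    (hsum : ∀ (V : Type uV) [AddCommGroup V] [Module F V] [FiniteDimensional F V]
      (T : V →ₗ[F] V) (W W' : Submodule F V) (hW : ∀ v ∈ W, T v ∈ W) (hW' : ∀ v ∈ W', T v ∈ W'),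
      IsCompl W W' → IsRat F₀ (T.restrict hW) → IsRat F₀ (T.restrict hW') → IsRat F₀ T) :
    ∀ (n : ℕ) (V : Type uV) [AddCommGroup V] [Module F V] [FiniteDimensional F V]
      (T : V →ₗ[F] V), finrank F V = n → T ^ r = 1 → IsRat F₀ T := by
  intro n
  induction n using Nat.strong_induction_on with
  | _ n ih =>
    intro V _ _ _ T hn hT
    rcases Nat.eq_zero_or_pos n with h0 | hpos
    · rw [h0] at hn
      have : Subsingleton V := Module.finrank_zero_iff.mp hn
      exact ⟨Fin 0, inferInstance, Basis.empty V, fun i => i.elim0⟩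
    · have : Nontrivial V := Module.finrank_pos_iff.mp (hn ▸ hpos)
      obtain ⟨v, hv⟩ := exists_ne (0 : V)
      have hXr : aeval T ((X ^ r - 1 : Polynomial ↥F₀).map F₀.subtype) v = 0 := by
        simp [hT]
      obtain ⟨h, hh, hdvd, w, hw, hhw⟩ :=
        sfrk_factor F₀ T r hr _ (X ^ r - 1) rfl dvd_rfl v hv hXr
      have hU : ∀ x ∈ LinearMap.ker (aeval T (h.map F₀.subtype)),
          T x ∈ LinearMap.ker (aeval T (h.map F₀.subtype)) := by
        intro x hx
        rw [LinearMap.mem_ker] at hx ⊢
        have e1 : Commute (aeval T (h.map F₀.subtype)) (aeval T (X : F[X])) :=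
          (Commute.all _ _).map (aeval T)
        rw [aeval_X] at e1
        have e2 : aeval T (h.map F₀.subtype) (T x) = T (aeval T (h.map F₀.subtype) x) :=
          congrArg (fun L : Module.End F V => L x) e1.eq
        rw [e2, hx, map_zero]
      have hT1 : T ^ r = (1 : F) • (1 : Module.End F V) := by rw [hT, one_smul]
      obtain ⟨U', -, hU'm, hinf, hsup⟩ := Cfsg.Agent.Helper41.ss_compl T r hrF 1 one_ne_zero hT1
        (LinearMap.ker (aeval T (h.map F₀.subtype))) ⊤ le_top
        (by
          intro x hx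
          obtain ⟨y, hy, rfl⟩ := hx
          exact hU y hy) le_top
      have hU' : ∀ x ∈ U', T x ∈ U' := fun x hx => hU'm ⟨x, hx, rfl⟩
      have hc : IsCompl (LinearMap.ker (aeval T (h.map F₀.subtype))) U' :=
        ⟨disjoint_iff.mpr hinf, codisjoint_iff.mpr hsup⟩
      have h1 : IsRat F₀ (T.restrict hU) := by
        apply Cfsg.Agent.Helper66.rat_cyc F₀ (T.restrict hU) h (hirr h hh hdvd)
        apply LinearMap.ext
        intro u
        apply Subtype.ext
        rw [sfrk_aeval_restrict]
        exact u.2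
      have h2 : IsRat F₀ (T.restrict hU') := by
        have hUpos : 0 < finrank F (LinearMap.ker (aeval T (h.map F₀.subtype))) := by
          apply Module.finrank_pos_iff.mpr
          exact ⟨⟨⟨w, hhw⟩, 0, fun e => hw (congrArg Subtype.val e)⟩⟩
        have hfs := Submodule.finrank_add_eq_of_isCompl hc
        apply ih (finrank F U') (by omega) U' (T.restrict hU') rfl
        rw [Module.End.pow_restrict]
        apply LinearMap.ext
        intro u
        apply Subtype.ext
        simp [hT]
      exact hsum V T _ U' hU hU' hc h1 h2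

end Cfsg.Agent.Helper84
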