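import Mathlib
import Cfsg.Prelude.Def_GeometricClasses
import Cfsg.Agent.Helper90.SFRDefs

/-!
# Piece RATSUM of CALL S5965 (second attempt by helper84, needed for RATK)
-/

set_option autoImplicit false
set_option linter.unusedSectionVars false

namespace Cfsg.Agent.Helper84

open Module Polynomial Cfsg.Agent.Helper90.SFR

section lin
variable {F : Type*} [Field F] {V : Type*} [AddCommGroup V] [Module F V] [FiniteDimensional F V]

/-- PIECE RATSUM -/
theorem rat_sum (F₀ : Subfield F) (T : V →ₗ[F] V) (W W' : Submodule F V)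
    (hW : ∀ v ∈ W, T v ∈ W) (hW' : ∀ v ∈ W', T v ∈ W') (hc : IsCompl W W')
    (h1 : IsRat F₀ (T.restrict hW)) (h2 : IsRat F₀ (T.restrict hW')) : IsRat F₀ T := by
  obtain ⟨ι₁, _, b₁, hb₁⟩ := h1
  obtain ⟨ι₂, _, b₂, hb₂⟩ := h2
  refine ⟨ι₁ ⊕ ι₂, inferInstance, (b₁.prod b₂).map (Submodule.prodEquivOfIsCompl W W' hc), ?_⟩
  have key1 : ∀ w : W, ((b₁.prod b₂).map (Submodule.prodEquivOfIsCompl W W' hc)).repr (w : V)
      = (b₁.prod b₂).repr (w, 0) := by
    intro w
    rw [Basis.map_repr, LinearEquiv.trans_apply, Submodule.prodEquivOfIsCompl_symm_apply_left]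
  have key2 : ∀ w : W', ((b₁.prod b₂).map (Submodule.prodEquivOfIsCompl W W' hc)).repr (w : V)
      = (b₁.prod b₂).repr (0, w) := by
    intro w
    rw [Basis.map_repr, LinearEquiv.trans_apply, Submodule.prodEquivOfIsCompl_symm_apply_right]
  intro i j
  rcases i with i | i
  · have e : T (((b₁.prod b₂).map (Submodule.prodEquivOfIsCompl W W' hc)) (Sum.inl i))
        = ((T.restrict hW (b₁ i) : W) : V) := by
      rw [Basis.map_apply, Basis.prod_apply]
      simp [Submodule.coe_prodEquivOfIsCompl']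
    rw [e, key1]
    rcases j with j | j
    · rw [Basis.prod_repr_inl]
      exact hb₁ i j
    · rw [Basis.prod_repr_inr]
      simp
  · have e : T (((b₁.prod b₂).map (Submodule.prodEquivOfIsCompl W W' hc)) (Sum.inr i))
        = ((T.restrict hW' (b₂ i) : W') : V) := by
      rw [Basis.map_apply, Basis.prod_apply]
      simp [Submodule.coe_prodEquivOfIsCompl']
    rw [e, key2]
    rcases j with j | j
    · rw [Basis.prod_repr_inl]
      simp
    · rw [Basis.prod_repr_inr]
      exact hb₂ i j

end lin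

end Cfsg.Agent.Helper84
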