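import Mathlib
import Cfsg.Prelude.Def_GeometricClasses
import Cfsg.Agent.Helper71.T4Defs
import Cfsg.Agent.Helper71.T4Main
import Cfsg.Agent.Helper97.OForm
import Cfsg.Agent.Helper96.T5Defs
import Cfsg.Agent.Helper29.T5GMA

/-!
# PIECE RY1 of CALL S5704 (helper84), core: `ry1` from the skeleton statements of
`gm_heis` (GMB), `rn` (RN) and `ku` (KU), taken as hypotheses; `gm_inU` is imported.
-/

set_option autoImplicit false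
set_option linter.unusedVariables false

namespace Cfsg.Agent.Helper84.T5RY1

open Matrix Cfsg Cfsg.Geo Cfsg.Agent.Helper71.T4 Cfsg.Agent.Helper96.T5
open scoped Kronecker

variable {F : Type*} [Field F] {a b : ℕ}

variable {J₁ : Matrix (Fin a) (Fin a) F} {J₂ : Matrix (Fin b) (Fin b) F}
  {Q : (Fin a × Fin b → F) → F}

theorem ry1_core (hT : TQ J₁ J₂ Q) (ha : 1 ≤ a) (M : Subgroup (GL (Fin a × Fin b) F))
    (hMO : M ≤ isometryGroup F Q) (hR : HasR J₁ J₂ M)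
    (hA1 : ∀ d : Fin b → F, d ≠ 0 → ∀ g ∈ M, InU J₂ d (g.1 - 1) → IsKron g.1)
    (y : GL (Fin a × Fin b) F) (hy : y ∈ M) (e : Fin b → F) (he : e ≠ 0)
    (hfix : ∀ u : Fin a → F, y.1 *ᵥ pt u e = pt u e)
    (hcnt : ∀ v, cnt J₂ e ((y.1 - 1) *ᵥ v) = 0)
    (hHEIS : ∀ (d w : Fin b → F), bf J₂ w d = 0 → ∀ (c s : F),
      Gm J₁ J₂ d w (c • (1 : Matrix (Fin a) (Fin a) F)) (s • (1 : Matrix (Fin a) (Fin a) F))
      = ((1 : Matrix (Fin a) (Fin a) F) ⊗ₖ tv J₂ (d + c • w) 1) *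
        ((1 : Matrix (Fin a) (Fin a) F) ⊗ₖ tv J₂ w (-c ^ 2)) *
        ((1 : Matrix (Fin a) (Fin a) F) ⊗ₖ tv J₂ d (s - 1)))
    (hRN : ∀ (y : GL (Fin a × Fin b) F), y ∈ isometryGroup F Q → ∀ (d e : Fin b → F), d ≠ 0 →
      e ≠ 0 → (∀ u : Fin a → F, ∃ u' : Fin a → F, y.1 *ᵥ pt u d = pt u' e) →
      ∀ (Z : Matrix (Fin a × Fin b) (Fin a × Fin b) F), InU J₂ d Z →
        InU J₂ e (y.1 * Z * (y⁻¹).1))
    (hKU : ∀ (g : Matrix (Fin a × Fin b) (Fin a × Fin b) F) (e : Fin b → F), e ≠ 0 → IsKron g →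
      InU J₂ e (g - 1) →
      ∃ n : Matrix (Fin b) (Fin b) F, g = (1 : Matrix (Fin a) (Fin a) F) ⊗ₖ (1 + n) ∧
        n *ᵥ e = 0 ∧ (∀ y, bf J₂ (n *ᵥ y) e = 0) ∧
        (∀ y, bf J₂ y e = 0 → ∃ c : F, n *ᵥ y = c • e)) :
    ∀ w' : Fin b → F, bf J₂ w' e = 0 → ∃ w'' : Fin b → F, bf J₂ w'' e = 0 ∧
      ∀ u : Fin a → F, ∃ u'' : Fin a → F, y.1 *ᵥ pt u w' = pt u w'' + pt u'' e := by
  intro w' hw'
  have hz : InM M (Gm J₁ J₂ e w' ((1 : F) • (1 : Matrix (Fin a) (Fin a) F))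
      ((0 : F) • (1 : Matrix (Fin a) (Fin a) F))) := by
    rw [hHEIS e w' hw' 1 0]
    exact ((hR.1 _ _).mul (hR.1 _ _)).mul (hR.1 _ _)
  obtain ⟨gz, hgz, hgz1⟩ := hz
  have hzU := Cfsg.Agent.Helper29.T5GMA.gm_inU hT e w' hw'
    ((1 : F) • (1 : Matrix (Fin a) (Fin a) F)) ((0 : F) • (1 : Matrix (Fin a) (Fin a) F))
  have hconj := hRN y (hMO hy) e e he he (fun u => ⟨u, hfix u⟩) _ hzU
  have hg : y * gz * y⁻¹ ∈ M := M.mul_mem (M.mul_mem hy hgz) (M.inv_mem hy)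
  have hg1 : (y * gz * y⁻¹).1 - 1 = y.1 * (Gm J₁ J₂ e w' ((1 : F) • (1 : Matrix (Fin a) (Fin a) F))
      ((0 : F) • (1 : Matrix (Fin a) (Fin a) F)) - 1) * (y⁻¹).1 := by
    rw [Units.val_mul, Units.val_mul, hgz1, Matrix.mul_sub, Matrix.sub_mul, Matrix.mul_one,
      ← Units.val_mul y y⁻¹, mul_inv_cancel, Units.val_one]
  have hgU : InU J₂ e ((y * gz * y⁻¹).1 - 1) := by
    rw [hg1]
    exact hconj
  have hk : IsKron (y * gz * y⁻¹).1 := hA1 e he _ hg hgU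
  obtain ⟨n, hn1, hn2, hn3, hn4⟩ := hKU _ e he hk hgU
  obtain ⟨y', hy'⟩ := exists_bf_eq_one J₂ hT.det₂ e he
  have het : bf J₂ (-y') e = 1 := by
    rw [bf_neg_left, bf_swap J₂ hT.alt₂, hy', neg_neg]
  refine ⟨n *ᵥ (-y'), hn3 _, fun u => ?_⟩
  have hyv : y.1 *ᵥ ((y⁻¹).1 *ᵥ pt u (-y')) = pt u (-y') := by
    rw [Matrix.mulVec_mulVec, ← Units.val_mul, mul_inv_cancel, Units.val_one, Matrix.one_mulVec]
  have hc0 : cnt J₂ e ((y⁻¹).1 *ᵥ pt u (-y')) = u := by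
    have e1 : (y⁻¹).1 *ᵥ pt u (-y')
        = pt u (-y') + (-1 : F) • ((y.1 - 1) *ᵥ ((y⁻¹).1 *ᵥ pt u (-y'))) := by
      rw [Matrix.sub_mulVec, Matrix.one_mulVec, hyv, neg_one_smul]
      abel
    rw [e1, cnt_add, cnt_smul, hcnt, smul_zero, add_zero, cnt_pt, het, one_smul]
  have h1 : (y * gz * y⁻¹).1 *ᵥ pt u (-y') = pt u (-y') + pt u (n *ᵥ (-y')) := by
    rw [hn1, kron_mulVec_pt, Matrix.one_mulVec, Matrix.add_mulVec, Matrix.one_mulVec, pt_add_right]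
  have h2 : (y * gz * y⁻¹).1 *ᵥ pt u (-y') = pt u (-y') + (y.1 *ᵥ pt u w'
      + pt (adj J₁ ((1 : F) • (1 : Matrix (Fin a) (Fin a) F)) *ᵥ
          cnt J₂ w' ((y⁻¹).1 *ᵥ pt u (-y'))
        + ((0 : F) • (1 : Matrix (Fin a) (Fin a) F)) *ᵥ u) e) := by
    have e2 : Gm J₁ J₂ e w' ((1 : F) • (1 : Matrix (Fin a) (Fin a) F))
          ((0 : F) • (1 : Matrix (Fin a) (Fin a) F)) *ᵥ ((y⁻¹).1 *ᵥ pt u (-y'))
        = (y⁻¹).1 *ᵥ pt u (-y') + (Gm J₁ J₂ e w' ((1 : F) • (1 : Matrix (Fin a) (Fin a) F))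
          ((0 : F) • (1 : Matrix (Fin a) (Fin a) F)) - 1) *ᵥ ((y⁻¹).1 *ᵥ pt u (-y')) := by
      rw [Matrix.sub_mulVec, Matrix.one_mulVec]
      abel
    rw [Units.val_mul, Units.val_mul, hgz1, ← Matrix.mulVec_mulVec, ← Matrix.mulVec_mulVec, e2,
      Cfsg.Agent.Helper29.T5GMA.gma_gm_sub_one_mulVec, hc0, Matrix.mulVec_add, Matrix.mulVec_add,
      Matrix.mulVec_add, hyv, hfix, hfix, one_smul, Matrix.one_mulVec, pt_add_left]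
    abel
  have h3 := add_left_cancel (h2.symm.trans h1)
  refine ⟨(-1 : F) • (adj J₁ ((1 : F) • (1 : Matrix (Fin a) (Fin a) F)) *ᵥ
          cnt J₂ w' ((y⁻¹).1 *ᵥ pt u (-y'))
        + ((0 : F) • (1 : Matrix (Fin a) (Fin a) F)) *ᵥ u), ?_⟩
  rw [pt_smul_left, ← h3, neg_one_smul]
  abel

end Cfsg.Agent.Helper84.T5RY1
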