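import Mathlib
import Cfsg.Prelude.Def_GeometricClasses
import Cfsg.Agent.Helper71.T4Defs
import Cfsg.Agent.Helper71.T4Main
import Cfsg.Agent.Helper97.OForm
import Cfsg.Agent.Helper96.T5Defs

/-!
# PIECE RY2A of CALL S5704 (helper84)
-/

set_option autoImplicit false
set_option linter.unusedVariables false

namespace Cfsg.Agent.Helper84.T5RY2A

open Matrix Cfsg Cfsg.Geo Cfsg.Agent.Helper71.T4 Cfsg.Agent.Helper96.T5
open scoped Kronecker

variable {F : Type*} [Field F] {a b : ℕ}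

theorem pt_sub_right (u : Fin a → F) (w w' : Fin b → F) : pt u (w - w') = pt u w - pt u w' := by
  ext p
  simp [pt, mul_sub]

/-- independence of three vectors of `W` gives independence of the pure tensors -/
theorem ry_indep (w₀ δ e : Fin b → F) (h0 : ∀ c : F, w₀ ≠ c • e)
    (hδ : ∀ c c' : F, δ ≠ c • w₀ + c' • e) (u u' u'' : Fin a → F)
    (h : pt u w₀ + pt u' δ + pt u'' e = 0) : u = 0 ∧ u' = 0 := by
  have hu' : u' = 0 := by
    by_contra hne
    obtain ⟨i, hi⟩ : ∃ i, u' i ≠ 0 := by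
      by_contra hcon
      rw [not_exists] at hcon
      exact hne (funext fun i => not_not.mp (hcon i))
    apply hδ (-(u i / u' i)) (-(u'' i / u' i))
    funext k
    have hk := congrFun h (i, k)
    simp only [pt, Pi.add_apply, Pi.zero_apply] at hk
    simp only [Pi.add_apply, Pi.smul_apply, smul_eq_mul]
    field_simp
    linear_combination hk
  refine ⟨?_, hu'⟩
  by_contra hne
  obtain ⟨i, hi⟩ : ∃ i, u i ≠ 0 := by
    by_contra hcon
    rw [not_exists] at hcon
    exact hne (funext fun i => not_not.mp (hcon i))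
  apply h0 (-(u'' i / u i))
  funext k
  have hk := congrFun h (i, k)
  rw [hu'] at hk
  simp only [pt, Pi.add_apply, Pi.zero_apply, zero_mul, add_zero] at hk
  simp only [Pi.smul_apply, smul_eq_mul]
  field_simp
  linear_combination hk

/-- `u ↦ u ⊗ w` as a linear map -/
def ptL (w : Fin b → F) : (Fin a → F) →ₗ[F] (Fin a × Fin b → F) where
  toFun u := pt u w
  map_add' u u' := pt_add_left u u' w
  map_smul' c u := pt_smul_left c u w

theorem ry_rank (Z : Matrix (Fin a × Fin b) (Fin a × Fin b) F) (w₁ w₂ : Fin b → F)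
    (hinj : ∀ u u' : Fin a → F, Z *ᵥ (pt u w₁ + pt u' w₂) = 0 → u = 0 ∧ u' = 0) :
    2 * a ≤ Z.rank := by
  let Φ : ((Fin a → F) × (Fin a → F)) →ₗ[F] (Fin a × Fin b → F) :=
    Z.mulVecLin ∘ₗ (LinearMap.coprod (ptL w₁) (ptL w₂))
  have hΦ : ∀ p, Φ p = Z *ᵥ (pt p.1 w₁ + pt p.2 w₂) := fun p => rfl
  have hΦi : Function.Injective Φ := by
    rw [← LinearMap.ker_eq_bot, LinearMap.ker_eq_bot']
    intro p hp
    rw [hΦ] at hp
    obtain ⟨h1, h2⟩ := hinj p.1 p.2 hp
    exact Prod.ext h1 h2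
  have h1 : Module.finrank F (LinearMap.range Φ) = 2 * a := by
    rw [LinearMap.finrank_range_of_inj hΦi, Module.finrank_prod, Module.finrank_fin_fun]
    ring
  have h2 : LinearMap.range Φ ≤ LinearMap.range Z.mulVecLin := LinearMap.range_comp_le_range _ _
  have h3 := Submodule.finrank_mono h2
  rw [h1] at h3
  exact h3

/-- PIECE RY2A -/
theorem ry2a (ha : 1 ≤ a) (J₂ : Matrix (Fin b) (Fin b) F)
    (y : Matrix (Fin a × Fin b) (Fin a × Fin b) F) (e : Fin b → F) (he : e ≠ 0)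
    (h1 : ∀ w' : Fin b → F, bf J₂ w' e = 0 → ∃ w'' : Fin b → F, bf J₂ w'' e = 0 ∧
      ∀ u : Fin a → F, ∃ u'' : Fin a → F, y *ᵥ pt u w' = pt u w'' + pt u'' e)
    (hrank : (y - 1).rank ≤ a) :
    ∃ w₀ : Fin b → F, bf J₂ w₀ e = 0 ∧ ∀ w' : Fin b → F, bf J₂ w' e = 0 → ∃ c : F,
      ∀ u : Fin a → F, ∃ u'' : Fin a → F, y *ᵥ pt u w' = pt u w' + c • pt u w₀ + pt u'' e := by
  classical
  choose! g hg1 hg2 using h1
  have hy1 : ∀ w', bf J₂ w' e = 0 → ∀ u, ∃ u'',
      (y - 1) *ᵥ pt u w' = pt u (g w' - w') + pt u'' e := by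
    intro w' hw' u
    obtain ⟨u'', hu''⟩ := hg2 w' hw' u
    refine ⟨u'', ?_⟩
    rw [Matrix.sub_mulVec, Matrix.one_mulVec, hu'', pt_sub_right]
    abel
  by_cases hA : ∀ w', bf J₂ w' e = 0 → ∃ c' : F, g w' - w' = c' • e
  · refine ⟨0, bf_zero_left J₂ e, ?_⟩
    intro w' hw'
    obtain ⟨c', hc'⟩ := hA w' hw'
    refine ⟨0, fun u => ?_⟩
    obtain ⟨u'', hu''⟩ := hg2 w' hw' u
    refine ⟨c' • u + u'', ?_⟩
    have hgw : g w' = w' + c' • e := by
      rw [← hc']
      abel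
    rw [hu'', hgw, pt_add_right, pt_smul_right, pt_add_left, pt_smul_left, zero_smul, add_zero]
    abel
  · rw [not_forall] at hA
    obtain ⟨w₁, hA⟩ := hA
    rw [Classical.not_imp] at hA
    obtain ⟨hw₁, hA⟩ := hA
    rw [not_exists] at hA
    refine ⟨g w₁ - w₁, by rw [bf_sub_left, hg1 w₁ hw₁, hw₁, sub_zero], ?_⟩
    intro w' hw'
    have hspan : ∃ c c' : F, g w' - w' = c • (g w₁ - w₁) + c' • e := by
      by_contra hcon
      have hcon' : ∀ c c' : F, g w' - w' ≠ c • (g w₁ - w₁) + c' • e := by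
        intro c c' h
        exact hcon ⟨c, c', h⟩
      have hr := ry_rank (y - 1) w₁ w' (by
        intro u u' hz
        obtain ⟨u₁, hu₁⟩ := hy1 w₁ hw₁ u
        obtain ⟨u₂, hu₂⟩ := hy1 w' hw' u'
        rw [Matrix.mulVec_add, hu₁, hu₂] at hz
        apply ry_indep (g w₁ - w₁) (g w' - w') e hA hcon' u u' (u₁ + u₂)
        rw [pt_add_left, ← hz]
        abel)
      omega
    obtain ⟨c, c', hcc⟩ := hspan
    refine ⟨c, fun u => ?_⟩
    obtain ⟨u'', hu''⟩ := hg2 w' hw' u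
    refine ⟨c' • u + u'', ?_⟩
    have hgw : g w' = w' + c • (g w₁ - w₁) + c' • e := by
      rw [add_assoc, ← hcc]
      abel
    rw [hu'', hgw, pt_add_right, pt_add_right, pt_smul_right, pt_smul_right, pt_add_left,
      pt_smul_left]
    abel

end Cfsg.Agent.Helper84.T5RY2A
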