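import Mathlib
import Cfsg.Agent.Helper97.TMDefs
import Cfsg.Agent.Helper97.TMG5MV

set_option autoImplicit false

/-!
# PIECE G5FIX of CALL S2415 (helper84)
-/

universe u

namespace Cfsg.Agent.Helper84

open Cfsg Matrix Cfsg.Agent.Helper45 Cfsg.Agent.Helper98 Cfsg.Agent.Helper97.TM

section minus

variable {k : ℕ} {F : Type u} [Field F] {a b : F}

/-- G5FIX (two statements) -/
theorem tm_g5_other_e (a b : F) (i c : Fin k) (hc : c ≠ i) :
    mv ⇑(QM k F a b) (g5 a b i) (eM k F c) = eM k F c := by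
  have hc' : i ≠ c := fun h => hc h.symm
  rw [Cfsg.Agent.Helper97.tm_mv_g5]
  simp [hc']

theorem tm_g5_other_f (a b : F) (i c : Fin k) (hc : c ≠ i) :
    mv ⇑(QM k F a b) (g5 a b i) (fM k F c) = fM k F c := by
  have hc' : i ≠ c := fun h => hc h.symm
  rw [Cfsg.Agent.Helper97.tm_mv_g5]
  simp [hc']

end minus

end Cfsg.Agent.Helper84
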