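import Mathlib
import Cfsg.Agent.Helper97.TMDefs

set_option autoImplicit false

/-!
# PIECE TDS of CALL S2415 (helper84)
-/

universe u

namespace Cfsg.Agent.Helper84

open Cfsg Matrix Cfsg.Agent.Helper45 Cfsg.Agent.Helper98 Cfsg.Agent.Helper97.TM

section generic

variable {ι : Type} [Fintype ι] [DecidableEq ι] {F : Type u} [Field F]
  (Q : QuadraticForm F (ι → F))

theorem tds_eichO_congr {u u' b b' : ι → F} (hu : Q u = 0)
    (hub : QuadraticMap.polar ⇑Q u b = 0) (hu' : Q u' = 0)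
    (hub' : QuadraticMap.polar ⇑Q u' b' = 0) (e1 : u = u') (e2 : b = b') :
    eichO Q u b hu hub = eichO Q u' b' hu' hub' := by
  subst e1
  subst e2
  rfl

/-- TDS -/
theorem tm_tD_stable (M : Subgroup ↥(isometryGroup F ⇑Q)) (u : ι → F) (hu : Q u = 0)
    (g : ↥(isometryGroup F ⇑Q)) (hg : g ∈ M) (hgu : mv ⇑Q g u = u) (y : ι → F)
    (hy : y ∈ tD Q M u hu) : mv ⇑Q g y ∈ tD Q M u hu := by
  obtain ⟨hy0, hyM⟩ := hy
  have h1 : QuadraticMap.polar ⇑Q u (mv ⇑Q g y) = 0 := by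
    have h2 := mv_polar Q g u y
    rw [hgu] at h2
    rw [h2, hy0]
  refine ⟨h1, fun c => ?_⟩
  have hcy : QuadraticMap.polar ⇑Q u (c • y) = 0 := by
    rw [QuadraticMap.polar_smul_right, hy0, smul_zero]
  have hu' : Q (mv ⇑Q g u) = 0 := by
    rw [hgu]
    exact hu
  have hub' : QuadraticMap.polar ⇑Q (mv ⇑Q g u) (mv ⇑Q g (c • y)) = 0 := by
    rw [mv_polar, hcy]
  have e := conj_eichO Q g u (c • y) hu hcy hu' hub'
  have hcg : QuadraticMap.polar ⇑Q u (c • mv ⇑Q g y) = 0 := by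
    rw [QuadraticMap.polar_smul_right, h1, smul_zero]
  have e2 : eichO Q (mv ⇑Q g u) (mv ⇑Q g (c • y)) hu' hub' = eichO Q u (c • mv ⇑Q g y) hu hcg :=
    tds_eichO_congr Q hu' hub' hu hcg hgu (mv_smul Q g c y)
  rw [← e2, ← e]
  exact M.mul_mem (M.mul_mem hg (hyM c)) (M.inv_mem hg)

end generic

end Cfsg.Agent.Helper84
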