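import Mathlib
import Cfsg.Agent.Helper95.UBNDefs

/-!
CALL S2546 (helper95), piece STEP3: after the columns `c` and `rev c` have been cleaned, a
diagonal unitary matrix of determinant one normalises them to basis vectors.
-/

set_option autoImplicit false

namespace Cfsg.Agent.Helper84.UBN

open Matrix Cfsg.Agent.Helper95.UBN

variable {F : Type*} [Field F] {n : ℕ}

/-- core of STEP3: the diagonal matrix `diagonal d` does the job. -/
theorem step3_core (τ : F →+* F) (hτ : ∀ x, τ (τ x) = x)
    (c : Fin n) (g : Matrix.SpecialLinearGroup (Fin n) F)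
    (hfix : Fixk c.1 g.1)
    (l l' : F) (h1 : ∀ a, g.1 a c = if a = c then l else 0)
    (h2 : ∀ a, g.1 a (Fin.rev c) = if a = Fin.rev c then l' else 0)
    (d : Fin n → F) (hdet : ∏ i, d i = 1) (hU : ∀ a, τ (d (Fin.rev a)) * d a = 1)
    (hout : ∀ j : Fin n, (j.1 < c.1 ∨ n ≤ j.1 + c.1) → d j = 1)
    (hdc : τ (d (Fin.rev c)) * l = 1) (hdc' : τ (d c) * l' = 1) :
    ∃ t : Matrix.SpecialLinearGroup (Fin n) F, t ∈ UG τ n ∧ Pat t.1 1 ∧
      Fixk (c.1 + 1) (t⁻¹ * g).1 := by
  let t : Matrix.SpecialLinearGroup (Fin n) F :=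
    ⟨Matrix.diagonal d, by rw [Matrix.det_diagonal]; exact hdet⟩
  have ht1 : t.1 = Matrix.diagonal d := rfl
  have htU : t ∈ UG τ n := by
    rw [mem_UG_iff hτ, isU_iff]
    intro a b
    rw [Finset.sum_eq_single b]
    · rw [ht1, Matrix.diagonal_apply, Matrix.diagonal_apply]
      by_cases hab : a = b
      · subst hab
        simp [hU]
      · have : Fin.rev b ≠ Fin.rev a := fun h => hab (Fin.rev_injective h).symm
        simp [hab, this]
    · intro k _ hk
      rw [ht1, Matrix.diagonal_apply_ne _ hk, mul_zero]
    · intro h; exact absurd (Finset.mem_univ b) h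
  refine ⟨t, htU, ?_, ?_⟩
  · intro a b hab
    by_contra hne
    apply hab
    have hne' : a ≠ b := hne
    rw [ht1, Matrix.diagonal_apply_ne _ hne']
  · intro i hi a
    have hinv : ∀ x y, (t⁻¹).1 x y = if x = y then τ (d (Fin.rev x)) else 0 := by
      intro x y
      rw [inv_apply htU, ht1, Matrix.diagonal_apply]
      by_cases hxy : x = y
      · subst hxy; simp
      · have : Fin.rev y ≠ Fin.rev x := fun h => hxy (Fin.rev_injective h).symm
        simp [hxy, this]
    have hmul : (t⁻¹ * g).1 a i = τ (d (Fin.rev a)) * g.1 a i := by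
      show ((t⁻¹).1 * g.1) a i = _
      rw [Matrix.mul_apply, Finset.sum_eq_single a]
      · rw [hinv, if_pos rfl]
      · intro k _ hk
        rw [hinv, if_neg (Ne.symm hk), zero_mul]
      · intro h; exact absurd (Finset.mem_univ a) h
    rw [hmul]
    have hcn := c.2
    have hin := i.2
    by_cases hic : i = c
    · rw [hic, h1]
      by_cases hai : a = c
      · rw [hai, if_pos rfl, if_pos rfl]; exact hdc
      · rw [if_neg hai, if_neg hai, mul_zero]
    · by_cases hirc : i = Fin.rev c
      · rw [hirc, h2]
        by_cases hai : a = Fin.rev c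
        · rw [hai, if_pos rfl, if_pos rfl, Fin.rev_rev]; exact hdc'
        · rw [if_neg hai, if_neg hai, mul_zero]
      · have hi' : i.1 < c.1 ∨ n ≤ i.1 + c.1 := by
          have h3 : i.1 ≠ c.1 := fun h => hic (Fin.ext h)
          have h4 : i.1 ≠ (Fin.rev c).1 := fun h => hirc (Fin.ext h)
          rw [Fin.val_rev] at h4
          omega
        rw [hfix i hi' a]
        by_cases hai : a = i
        · rw [hai, if_pos rfl, mul_one]
          have : d (Fin.rev i) = 1 := hout _ (by rw [Fin.val_rev]; omega)
          rw [this, map_one]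
        · rw [if_neg hai, mul_zero]

/-- an elementary unitary diagonal function. -/
theorem step3_E (τ : F →+* F) (i : Fin n) (x y : F) (hx : τ y * x = 1) (hy : τ x * y = 1)
    (a : Fin n) :
    τ ((if Fin.rev a = i then x else 1) * (if Fin.rev a = Fin.rev i then y else 1))
      * ((if a = i then x else 1) * (if a = Fin.rev i then y else 1)) = 1 := by
  have e1 : (Fin.rev a = i) = (a = Fin.rev i) :=
    propext ⟨fun h => by rw [← h, Fin.rev_rev], fun h => by rw [h, Fin.rev_rev]⟩
  have e2 : (Fin.rev a = Fin.rev i) = (a = i) := propext Fin.rev_inj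
  simp only [e1, e2]
  by_cases h1 : a = i <;> by_cases h2 : a = Fin.rev i
  · simp only [if_pos h1, if_pos h2]
    rw [map_mul]
    linear_combination (τ x * y) * hx + hy
  · simp only [if_pos h1, if_neg h2]
    rw [one_mul, mul_one, hx]
  · simp only [if_neg h1, if_pos h2]
    rw [mul_one, one_mul, hy]
  · simp only [if_neg h1, if_neg h2]
    rw [one_mul, map_one, one_mul]

-- === PIECE STEP3 ===
theorem p_STEP3 (τ : F →+* F) (hτ : ∀ x, τ (τ x) = x)
    (c : Fin n) (hc : 2 * c.1 + 2 ≤ n) (g : Matrix.SpecialLinearGroup (Fin n) F)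
    (hg : g ∈ UG τ n) (hfix : Fixk c.1 g.1)
    (l l' : F) (h1 : ∀ a, g.1 a c = if a = c then l else 0)
    (h2 : ∀ a, g.1 a (Fin.rev c) = if a = Fin.rev c then l' else 0) :
    ∃ t : Matrix.SpecialLinearGroup (Fin n) F, t ∈ UG τ n ∧ Pat t.1 1 ∧
      Fixk (c.1 + 1) (t⁻¹ * g).1 := by
  have hcn := c.2
  have hrc : (Fin.rev c).1 = n - (c.1 + 1) := Fin.val_rev c
  have hcrc : c ≠ Fin.rev c := by
    intro h
    have := congrArg Fin.val h
    rw [hrc] at this
    omega
  -- unitarity: `τ l' * l = 1`
  have hA : τ l' * l = 1 := by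
    have h := (isU_iff τ g.1).mp (isU_of_mem hg) c c
    rw [if_pos rfl, Finset.sum_eq_single c] at h
    · rw [h1 c, if_pos rfl, h2 (Fin.rev c), if_pos rfl] at h
      exact h
    · intro k _ hk
      rw [h1 k, if_neg hk, mul_zero]
    · intro h'; exact absurd (Finset.mem_univ c) h'
  have hB : τ l * l' = 1 := by
    have := congrArg τ hA
    rw [map_mul, hτ, map_one] at this
    rw [mul_comm]; exact this
  have hl : l ≠ 0 := by
    intro h
    rw [h, mul_zero] at hA
    exact zero_ne_one hA
  by_cases hn : n = 2 * c.1 + 2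
  · -- no middle part: `g` is diagonal, so `l * l' = 1`
    let d : Fin n → F := fun a => (if a = c then l else 1) * (if a = Fin.rev c then l' else 1)
    have hd : ∀ a, d a = (if a = c then l else 1) * (if a = Fin.rev c then l' else 1) :=
      fun a => rfl
    have hdc0 : d c = l := by
      rw [hd, if_pos rfl, if_neg hcrc, mul_one]
    have hdrc0 : d (Fin.rev c) = l' := by
      rw [hd, if_neg (Ne.symm hcrc), if_pos rfl, one_mul]
    have hout : ∀ j : Fin n, (j.1 < c.1 ∨ n ≤ j.1 + c.1) → d j = 1 := by
      intro j hj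
      have hj2 := j.2
      have e1 : j ≠ c := by
        intro h; rw [h] at hj; omega
      have e2 : j ≠ Fin.rev c := by
        intro h; rw [h, hrc] at hj; omega
      rw [hd, if_neg e1, if_neg e2, one_mul]
    have hprod : ∏ i, d i = l * l' := by
      show ∏ a, ((if a = c then l else 1) * (if a = Fin.rev c then l' else 1)) = _
      rw [Finset.prod_mul_distrib, Finset.prod_ite_eq', Finset.prod_ite_eq',
        if_pos (Finset.mem_univ _), if_pos (Finset.mem_univ _)]
    have hgd : g.1 = Matrix.diagonal d := by
      ext a b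
      rw [Matrix.diagonal_apply]
      by_cases hbc : b = c
      · rw [hbc, h1]
        by_cases hac : a = c
        · rw [if_pos hac, if_pos hac, hac, hdc0]
        · rw [if_neg hac, if_neg hac]
      · by_cases hbrc : b = Fin.rev c
        · rw [hbrc, h2]
          by_cases hac : a = Fin.rev c
          · rw [if_pos hac, if_pos hac, hac, hdrc0]
          · rw [if_neg hac, if_neg hac]
        · have hb2 := b.2
          have hb' : b.1 < c.1 ∨ n ≤ b.1 + c.1 := by
            have h3 : b.1 ≠ c.1 := fun h => hbc (Fin.ext h)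
            have h4 : b.1 ≠ (Fin.rev c).1 := fun h => hbrc (Fin.ext h)
            rw [hrc] at h4
            omega
          rw [hfix b hb' a]
          by_cases hab : a = b
          · rw [if_pos hab, if_pos hab, hab, hout b hb']
          · rw [if_neg hab, if_neg hab]
    have hdet : ∏ i, d i = 1 := by
      have := g.2
      rw [hgd, Matrix.det_diagonal] at this
      exact this
    refine step3_core τ hτ c g hfix l l' h1 h2 d hdet ?_ hout ?_ ?_
    · intro a
      exact step3_E τ c l l' hA hB a
    · rw [hdrc0]; exact hA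
    · rw [hdc0]; exact hB
  · -- there is a middle index `m = c + 1`
    have hn3 : 2 * c.1 + 3 ≤ n := by omega
    let m : Fin n := ⟨c.1 + 1, by omega⟩
    have hm : m.1 = c.1 + 1 := rfl
    have hrm : (Fin.rev m).1 = n - (c.1 + 2) := by
      rw [Fin.val_rev, hm]
    let d : Fin n → F := fun a => ((if a = c then l else 1) * (if a = Fin.rev c then l' else 1))
      * ((if a = m then τ l else 1) * (if a = Fin.rev m then l⁻¹ else 1))
    have hd : ∀ a, d a = ((if a = c then l else 1) * (if a = Fin.rev c then l' else 1))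
      * ((if a = m then τ l else 1) * (if a = Fin.rev m then l⁻¹ else 1)) := fun a => rfl
    have hcm : c ≠ m := by
      intro h; have := congrArg Fin.val h; rw [hm] at this; omega
    have hcrm : c ≠ Fin.rev m := by
      intro h; have := congrArg Fin.val h; rw [hrm] at this; omega
    have hrcm : Fin.rev c ≠ m := by
      intro h; have := congrArg Fin.val h; rw [hrc, hm] at this; omega
    have hrcrm : Fin.rev c ≠ Fin.rev m := by
      intro h; exact hcm (Fin.rev_injective h)
    have hdc0 : d c = l := by
      rw [hd, if_pos rfl, if_neg hcrc, if_neg hcm, if_neg hcrm, mul_one, mul_one, mul_one]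
    have hdrc0 : d (Fin.rev c) = l' := by
      rw [hd, if_neg (Ne.symm hcrc), if_pos rfl, if_neg hrcm, if_neg hrcrm, one_mul, mul_one,
        mul_one]
    have hout : ∀ j : Fin n, (j.1 < c.1 ∨ n ≤ j.1 + c.1) → d j = 1 := by
      intro j hj
      have hj2 := j.2
      have e1 : j ≠ c := by
        intro h; rw [h] at hj; omega
      have e2 : j ≠ Fin.rev c := by
        intro h; rw [h, hrc] at hj; omega
      have e3 : j ≠ m := by
        intro h; rw [h, hm] at hj; omega
      have e4 : j ≠ Fin.rev m := by
        intro h; rw [h, hrm] at hj; omega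
      rw [hd, if_neg e1, if_neg e2, if_neg e3, if_neg e4, one_mul, one_mul]
    have hdet : ∏ i, d i = 1 := by
      show ∏ a, (((if a = c then l else 1) * (if a = Fin.rev c then l' else 1))
        * ((if a = m then τ l else 1) * (if a = Fin.rev m then l⁻¹ else 1))) = _
      rw [Finset.prod_mul_distrib, Finset.prod_mul_distrib, Finset.prod_mul_distrib,
        Finset.prod_ite_eq', Finset.prod_ite_eq', Finset.prod_ite_eq', Finset.prod_ite_eq',
        if_pos (Finset.mem_univ _), if_pos (Finset.mem_univ _), if_pos (Finset.mem_univ _),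
        if_pos (Finset.mem_univ _)]
      have : l * l' * (τ l * l⁻¹) = (τ l * l') * (l * l⁻¹) := by ring
      rw [this, hB, mul_inv_cancel₀ hl, mul_one]
    refine step3_core τ hτ c g hfix l l' h1 h2 d hdet ?_ hout ?_ ?_
    · intro a
      have hx : τ l⁻¹ * τ l = 1 := by
        rw [← map_mul, inv_mul_cancel₀ hl, map_one]
      have hy : τ (τ l) * l⁻¹ = 1 := by
        rw [hτ, mul_inv_cancel₀ hl]
      have q1 := step3_E τ c l l' hA hB a
      have q2 := step3_E τ m (τ l) l⁻¹ hx hy a
      rw [hd, hd, map_mul, mul_mul_mul_comm, q1, q2, one_mul]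
    · rw [hdrc0]; exact hA
    · rw [hdc0]; exact hB

end Cfsg.Agent.Helper84.UBN
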