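import Mathlib
import Cfsg.Agent.Helper95.UBNDefs
import Cfsg.Agent.Helper84.UBNSTEP3

/-!
CALL S2546 (helper95), piece MONO: a monomial unitary matrix of determinant one moving `e_r` to
a multiple of `e_c` and fixing the outer basis vectors.
-/

set_option autoImplicit false

namespace Cfsg.Agent.Helper84.UBN

open Matrix Cfsg.Agent.Helper95.UBN

variable {F : Type*} [Field F] {n : ℕ}

/-- a weighted permutation matrix in the unitary group. -/
theorem mono_core (τ : F →+* F) (hτ : ∀ x, τ (τ x) = x) (π : Equiv.Perm (Fin n)) (w : Fin n → F)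
    (hπ : ∀ a, π (Fin.rev a) = Fin.rev (π a)) (hw : ∀ a, τ (w (Fin.rev a)) * w a = 1)
    (hdet : (((Equiv.Perm.sign π : ℤˣ) : ℤ) : F) * ∏ i, w i = 1) :
    ∃ g : Matrix.SpecialLinearGroup (Fin n) F, g ∈ UG τ n ∧
      ∀ a b, g.1 a b = if a = π b then w b else 0 := by
  let M : Matrix (Fin n) (Fin n) F :=
    ((π⁻¹).toPEquiv.toMatrix : Matrix (Fin n) (Fin n) F) * Matrix.diagonal w
  have hM : ∀ a b, M a b = if a = π b then w b else 0 := by
    intro a b
    show (((π⁻¹).toPEquiv.toMatrix : Matrix (Fin n) (Fin n) F) * Matrix.diagonal w) a b = _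
    rw [Matrix.mul_diagonal, PEquiv.toMatrix_apply]
    simp only [Equiv.toPEquiv_apply, Option.mem_def, Option.some.injEq]
    by_cases h : a = π b
    · rw [if_pos h, if_pos (by rw [h]; simp), one_mul]
    · rw [if_neg h, if_neg (fun h' => h (by rw [← h']; simp)), zero_mul]
  have hMdet : M.det = 1 := by
    show (((π⁻¹).toPEquiv.toMatrix : Matrix (Fin n) (Fin n) F) * Matrix.diagonal w).det = 1
    rw [Matrix.det_mul]
    have h1 : ((π⁻¹).toPEquiv.toMatrix : Matrix (Fin n) (Fin n) F).det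
        = (((Equiv.Perm.sign π⁻¹ : ℤˣ) : ℤ) : F) := Matrix.det_permutation (R := F) π⁻¹
    rw [h1, Matrix.det_diagonal, Equiv.Perm.sign_inv]
    exact hdet
  let g0 : Matrix.SpecialLinearGroup (Fin n) F := ⟨M, hMdet⟩
  refine ⟨g0, ?_, hM⟩
  rw [mem_UG_iff hτ, isU_iff]
  intro a b
  show ∑ k, τ (M (Fin.rev k) (Fin.rev a)) * M k b = _
  rw [Finset.sum_eq_single (π b)]
  · rw [hM, hM, if_pos rfl, hπ]
    by_cases hab : a = b
    · rw [hab, if_pos rfl, if_pos rfl]
      exact hw b
    · have : Fin.rev (π b) ≠ Fin.rev (π a) := by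
        intro h
        exact hab (π.injective (Fin.rev_injective h)).symm
      rw [if_neg this, if_neg hab, map_zero, zero_mul]
  · intro k _ hk
    rw [hM k b, if_neg hk, mul_zero]
  · intro h; exact absurd (Finset.mem_univ _) h

theorem mono_rev_swap (x y a : Fin n) :
    Fin.rev (Equiv.swap x y a) = Equiv.swap (Fin.rev x) (Fin.rev y) (Fin.rev a) := by
  by_cases h1 : a = x
  · rw [h1, Equiv.swap_apply_left, Equiv.swap_apply_left]
  · by_cases h2 : a = y
    · rw [h2, Equiv.swap_apply_right, Equiv.swap_apply_right]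
    · rw [Equiv.swap_apply_of_ne_of_ne h1 h2,
        Equiv.swap_apply_of_ne_of_ne (fun h => h1 (Fin.rev_injective h))
          (fun h => h2 (Fin.rev_injective h))]

-- === PIECE MONO ===
theorem p_MONO (τ : F →+* F) (hτ : ∀ x, τ (τ x) = x) (e : F) (he : e ≠ 0) (hτe : τ e = -e)
    (c r : Fin n) (hcr : c < r) (hrc : r.1 + c.1 < n) (hmid : r ≠ Fin.rev r) :
    ∃ g : Matrix.SpecialLinearGroup (Fin n) F, g ∈ UG τ n ∧
      (∃ π : Equiv.Perm (Fin n), Pat g.1 π) ∧ Fixk c.1 g.1 ∧
      ∃ d : F, g.1 *ᵥ Pi.single r (1 : F) = d • Pi.single c (1 : F) := by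
  have hcn := c.2
  have hrn := r.2
  have hcr' : c.1 < r.1 := hcr
  have hvc : (Fin.rev c).1 = n - (c.1 + 1) := Fin.val_rev c
  have hvr : (Fin.rev r).1 = n - (r.1 + 1) := Fin.val_rev r
  have hc_ne_rc : c ≠ Fin.rev c := by
    intro h; have := congrArg Fin.val h; rw [hvc] at this; omega
  -- the common conclusion from a weighted permutation matrix
  have finish : ∀ (π : Equiv.Perm (Fin n)) (w : Fin n → F)
      (g : Matrix.SpecialLinearGroup (Fin n) F), g ∈ UG τ n →
      (∀ a b, g.1 a b = if a = π b then w b else 0) →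
      (∀ i : Fin n, (i.1 < c.1 ∨ n ≤ i.1 + c.1) → π i = i ∧ w i = 1) → π r = c →
      ∃ g : Matrix.SpecialLinearGroup (Fin n) F, g ∈ UG τ n ∧
        (∃ π : Equiv.Perm (Fin n), Pat g.1 π) ∧ Fixk c.1 g.1 ∧
        ∃ d : F, g.1 *ᵥ Pi.single r (1 : F) = d • Pi.single c (1 : F) := by
    intro π w g hgU hg hout hπr
    refine ⟨g, hgU, ⟨π, ?_⟩, ?_, ⟨w r, ?_⟩⟩
    · intro a b hab
      by_contra hne
      exact hab (by rw [hg, if_neg hne])
    · intro i hi a
      rw [hg, (hout i hi).1, (hout i hi).2]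
    · rw [Matrix.mulVec_single_one]
      ext a
      show g.1 a r = w r • (Pi.single c (1 : F) : Fin n → F) a
      rw [hg, hπr, Pi.single_apply, smul_eq_mul]
      by_cases hac : a = c
      · rw [if_pos hac, if_pos hac, mul_one]
      · rw [if_neg hac, if_neg hac, mul_zero]
  by_cases hr : r = Fin.rev c
  · -- swap `c` and `rev c` with weights `e` and `-e⁻¹`
    let π : Equiv.Perm (Fin n) := Equiv.swap c (Fin.rev c)
    let w : Fin n → F := fun a => (if a = Fin.rev c then e else 1)
      * (if a = Fin.rev (Fin.rev c) then -e⁻¹ else 1)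
    have hx : τ (-e⁻¹) * e = 1 := by
      rw [map_neg, map_inv₀, hτe]
      field_simp
    have hy : τ e * (-e⁻¹) = 1 := by
      rw [hτe]
      field_simp
    have hw : ∀ a, τ (w (Fin.rev a)) * w a = 1 := fun a => step3_E τ (Fin.rev c) e (-e⁻¹) hx hy a
    have hπ : ∀ a, π (Fin.rev a) = Fin.rev (π a) := by
      intro a
      show Equiv.swap c (Fin.rev c) (Fin.rev a) = Fin.rev (Equiv.swap c (Fin.rev c) a)
      rw [mono_rev_swap, Fin.rev_rev, Equiv.swap_comm]
    have hdet : (((Equiv.Perm.sign π : ℤˣ) : ℤ) : F) * ∏ i, w i = 1 := by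
      have h1 : Equiv.Perm.sign π = -1 := Equiv.Perm.sign_swap hc_ne_rc
      have h2 : ∏ i, w i = e * (-e⁻¹) := by
        show ∏ a, ((if a = Fin.rev c then e else 1)
          * (if a = Fin.rev (Fin.rev c) then -e⁻¹ else 1)) = _
        rw [Finset.prod_mul_distrib, Finset.prod_ite_eq', Finset.prod_ite_eq',
          if_pos (Finset.mem_univ _), if_pos (Finset.mem_univ _)]
      rw [h1, h2]
      simp only [Units.val_neg, Units.val_one, Int.cast_neg, Int.cast_one]
      field_simp
    obtain ⟨g, hgU, hg⟩ := mono_core τ hτ π w hπ hw hdet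
    refine finish π w g hgU hg ?_ ?_
    · intro i hi
      have hi2 := i.2
      have e1 : i ≠ c := by
        intro h; rw [h] at hi; omega
      have e2 : i ≠ Fin.rev c := by
        intro h; rw [h, hvc] at hi; omega
      refine ⟨Equiv.swap_apply_of_ne_of_ne e1 e2, ?_⟩
      show (if i = Fin.rev c then e else 1) * (if i = Fin.rev (Fin.rev c) then -e⁻¹ else 1) = 1
      rw [if_neg e2, Fin.rev_rev, if_neg e1, one_mul]
    · show Equiv.swap c (Fin.rev c) r = c
      rw [hr, Equiv.swap_apply_right]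
  · -- swap `c ↔ r` and `rev c ↔ rev r`
    have hr' : r.1 ≠ n - (c.1 + 1) := by
      intro h
      apply hr
      apply Fin.ext
      rw [hvc]; exact h
    have hmid' : r.1 ≠ n - (r.1 + 1) := by
      intro h
      apply hmid
      apply Fin.ext
      rw [hvr]; exact h
    have hc_r : c ≠ r := by
      intro h; rw [h] at hcr'; omega
    have hc_rr : c ≠ Fin.rev r := by
      intro h; have := congrArg Fin.val h; rw [hvr] at this; omega
    have hr_rc : r ≠ Fin.rev c := hr
    have hrc_rr : Fin.rev c ≠ Fin.rev r := fun h => hc_r (Fin.rev_injective h)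
    let π : Equiv.Perm (Fin n) := Equiv.swap c r * Equiv.swap (Fin.rev c) (Fin.rev r)
    let w : Fin n → F := fun _ => 1
    have hw : ∀ a, τ (w (Fin.rev a)) * w a = 1 := by
      intro a
      show τ 1 * 1 = 1
      rw [map_one, one_mul]
    have hcomm : Equiv.swap c r * Equiv.swap (Fin.rev c) (Fin.rev r)
        = Equiv.swap (Fin.rev c) (Fin.rev r) * Equiv.swap c r := by
      have hd : Equiv.Perm.Disjoint (Equiv.swap c r) (Equiv.swap (Fin.rev c) (Fin.rev r)) := by
        apply Equiv.Perm.disjoint_swap_swap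
        simp only [List.nodup_cons, List.mem_cons, List.not_mem_nil, or_false, not_or,
          List.nodup_nil, and_true, not_false_eq_true]
        exact ⟨⟨hc_r, hc_ne_rc, hc_rr⟩, ⟨hr_rc, hmid⟩, hrc_rr⟩
      exact hd.commute.eq
    have hπ : ∀ a, π (Fin.rev a) = Fin.rev (π a) := by
      intro a
      show (Equiv.swap c r * Equiv.swap (Fin.rev c) (Fin.rev r)) (Fin.rev a)
        = Fin.rev ((Equiv.swap c r * Equiv.swap (Fin.rev c) (Fin.rev r)) a)
      rw [Equiv.Perm.mul_apply, ← mono_rev_swap, hcomm, Equiv.Perm.mul_apply, mono_rev_swap c r,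
        mono_rev_swap (Fin.rev c) (Fin.rev r), Fin.rev_rev, Fin.rev_rev, mono_rev_swap c r]
    have hdet : (((Equiv.Perm.sign π : ℤˣ) : ℤ) : F) * ∏ i, w i = 1 := by
      have h1 : Equiv.Perm.sign π = 1 := by
        show Equiv.Perm.sign (Equiv.swap c r * Equiv.swap (Fin.rev c) (Fin.rev r)) = 1
        rw [Equiv.Perm.sign_mul, Equiv.Perm.sign_swap hc_r, Equiv.Perm.sign_swap hrc_rr]
        rfl
      rw [h1]
      show (((1 : ℤˣ) : ℤ) : F) * ∏ i : Fin n, (1 : F) = 1
      simp
    obtain ⟨g, hgU, hg⟩ := mono_core τ hτ π w hπ hw hdet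
    refine finish π w g hgU hg ?_ ?_
    · intro i hi
      have hi2 := i.2
      have e1 : i ≠ c := by
        intro h; rw [h] at hi; omega
      have e2 : i ≠ r := by
        intro h; rw [h] at hi; omega
      have e3 : i ≠ Fin.rev c := by
        intro h; rw [h, hvc] at hi; omega
      have e4 : i ≠ Fin.rev r := by
        intro h; rw [h, hvr] at hi; omega
      refine ⟨?_, rfl⟩
      show (Equiv.swap c r * Equiv.swap (Fin.rev c) (Fin.rev r)) i = i
      rw [Equiv.Perm.mul_apply, Equiv.swap_apply_of_ne_of_ne e3 e4,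
        Equiv.swap_apply_of_ne_of_ne e1 e2]
    · show (Equiv.swap c r * Equiv.swap (Fin.rev c) (Fin.rev r)) r = c
      rw [Equiv.Perm.mul_apply, Equiv.swap_apply_of_ne_of_ne hr_rc hmid, Equiv.swap_apply_right]

end Cfsg.Agent.Helper84.UBN
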